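import Cfsg.Agent.Lib.D4.Basic

/-! Tools for the block groups: ranges, monomial `2 × 2` matrices.  See `plans/D4.md`. -/

set_option autoImplicit false

namespace CfsgLib.D4.XT

open Matrix Cfsg Cfsg.Geo CfsgLib.Asch
open scoped MatrixGroups commutatorElement

section gen

variable {G H K : Type*} {ι : Type} [Group G] [Group H] [Field K] [Fintype ι] [DecidableEq ι]
  {π : G →* ProjGenLinGroup ι K} {g k : G} {M N : Matrix ι ι K}

theorem rep_of_map_eq {π' : H →* ProjGenLinGroup ι K} {h : H} (r : Rep π g M) (e : π' h = π g) :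
    Rep π' h M := by
  obtain ⟨x, hx, e'⟩ := r
  exact ⟨x, hx, e.trans e'⟩

theorem map_eq_of_rep {π' : H →* ProjGenLinGroup ι K} {h : H} (r : Rep π g M) (r' : Rep π' h M) :
    π' h = π g := by
  obtain ⟨x, rfl, hx⟩ := r
  obtain ⟨y, e, hy⟩ := r'
  rw [hx, hy, Units.ext e]

theorem scalar_of_map (r : Rep π g M) (e : π g = 1) : ∃ c : K, c ≠ 0 ∧ M = c • (1 : Matrix ι ι K) :=
  (rep_of_map_eq (π' := π) (h := 1) r (by rw [map_one, e])).scalar_of_one

theorem scalar_of_map_pow (r : Rep π g M) {n : ℕ} (e : π g ^ n = 1) :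
    ∃ c : K, c ≠ 0 ∧ M ^ n = c • (1 : Matrix ι ι K) :=
  scalar_of_map (r.pow n) (by rw [map_pow, e])

theorem map_eq_one [Nonempty ι] {c : K} (r : Rep π g (c • (1 : Matrix ι ι K))) : π g = 1 := by
  have hc : c ≠ 0 := fun e => r.ne_zero (by simp [e])
  rw [r.map_eq ((rep_one π).smul hc), map_one]

theorem rep_conj_iff {x : GL ι K} (hk : Rep π k x) : Rep π (k * g * k⁻¹) (cj x N) ↔ Rep π g N := by
  have hi : Rep π k⁻¹ (x⁻¹ : GL ι K) := hk.inv' x.mul_inv
  refine ⟨fun h => ?_, fun h => (hk.mul h).mul hi⟩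
  have := (hi.mul h).mul hk
  simpa [cj_apply, mul_assoc] using this

theorem rep_cb_conj {x : GL ι K} (hk : Rep π k x) (B : GL ι K) :
    Rep (cb π (x * B)) (k * g * k⁻¹) M ↔ Rep (cb π B) g M := by
  rw [rep_cb_iff, rep_cb_iff, cj_mul, rep_conj_iff hk]

theorem exists_gl (π : G →* ProjGenLinGroup ι K) (g : G) : ∃ x : GL ι K, Rep π g x := by
  obtain ⟨_, x, rfl, h⟩ := exists_rep π g
  exact ⟨x, x, rfl, h⟩

theorem det_cj' (B : GL ι K) (M : Matrix ι ι K) : (cj B M).det = M.det := by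
  rw [cj_apply, det_mul, det_mul, mul_right_comm, ← det_mul, B.mul_inv, det_one, one_mul]

theorem cb_one : cb π 1 = π := by
  ext g
  simp [cb]

end gen

variable {G K : Type*} [Group G] [Field K] {π : G →* PG4 K} {a g k w z : G} {M N : M4 K}
  {A B C D : M2 K}

theorem mem_range_x1 {x : PGL(2, K)} :
    x ∈ (x1 π).range ↔ ∃ g A B, Rep π g (bd A B) ∧ Rep (MonoidHom.id _) x A :=
  ⟨fun ⟨g, e⟩ => let ⟨A, B, h⟩ := g.2; ⟨g, A, B, h, rep_of_map_eq (rep_x1 h) e.symm⟩,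
    fun ⟨g, A, B, h, e⟩ => ⟨⟨g, A, B, h⟩, map_eq_of_rep e (rep_x1 h)⟩⟩

theorem range_x1_le {π' : G →* PG4 K} (h : ∀ g M, Rep π g M → ∃ g', Rep π' g' M) :
    (x1 π).range ≤ (x1 π').range := fun _ hx => by
  obtain ⟨g, A, B, r, e⟩ := mem_range_x1.1 hx
  obtain ⟨g', r'⟩ := h g _ r
  exact mem_range_x1.2 ⟨g', A, B, r', e⟩

theorem range_x1_conj {x : GL I4 K} (hk : Rep π k x) (B : GL I4 K) :
    (x1 (cb π (x * B))).range = (x1 (cb π B)).range :=
  le_antisymm (range_x1_le fun g _ h => ⟨k⁻¹ * g * k, (rep_cb_conj hk B).1 (by simpa [mul_assoc] using h)⟩)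
    (range_x1_le fun _ _ h => ⟨_, (rep_cb_conj hk B).2 h⟩)

theorem cb_bdG_inv (P Q : GL (Fin 2) K) : cb (cb π (bdG P Q)) (bdG P⁻¹ Q⁻¹) = π := by
  have : (bdG P Q : GL I4 K) * bdG P⁻¹ Q⁻¹ = 1 := Units.ext (by simp [bdG, fromBlocks_multiply])
  rw [cb_cb, this, cb_one]

theorem conj_mem_range (P Q : GL (Fin 2) K) {x : PGL(2, K)} (hx : x ∈ (x1 π).range) :
    (ProjGenLinGroup.mk P)⁻¹ * x * ProjGenLinGroup.mk P ∈ (x1 (cb π (bdG P Q))).range := by
  obtain ⟨g, A, B, r, e⟩ := mem_range_x1.1 hx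
  refine mem_range_x1.2 ⟨g, _, _, r.bdG P Q, ?_⟩
  have := (rep_conj_iff (π := MonoidHom.id PGL(2, K)) (k := ProjGenLinGroup.mk P⁻¹) (x := P⁻¹)
    (rep_of_eq rfl)).2 e
  simpa using this

theorem range_x1_bdG (P Q : GL (Fin 2) K) :
    Nonempty ((x1 (cb π (bdG P Q))).range ≃* (x1 π).range) := by
  have : (x1 π).range = (x1 (cb π (bdG P Q))).range.map (MulAut.conj (ProjGenLinGroup.mk P)).toMonoidHom := by
    ext x
    refine ⟨fun h => ⟨_, conj_mem_range P Q h, by simp [mul_assoc]⟩, ?_⟩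
    rintro ⟨y, hy, rfl⟩
    have := conj_mem_range P⁻¹ Q⁻¹ hy
    rw [cb_bdG_inv] at this
    simpa using this
  rw [this]
  exact ⟨Subgroup.equivMapOfInjective _ _ (MulAut.conj _).injective⟩

theorem eq_bdG (h2 : (2 : K) ≠ 0) {D : GL I4 K} (e : (D : M4 K) * zz = zz * (D : M4 K)) :
    ∃ P Q, D = bdG P Q := by
  have h := comm_zz h2 e
  have hd := (Matrix.isUnits_det_units D).ne_zero
  rw [h, det_bd] at hd
  exact ⟨.mkOfDetNeZero _ (left_ne_zero_of_mul hd), .mkOfDetNeZero _ (right_ne_zero_of_mul hd), Units.ext h⟩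

theorem zz_sq : (zz : M4 K) * zz = 1 := by simp [fromBlocks_multiply]

/-- With a swap, the group induced on an eigenline does not depend on the frame. -/
theorem range_x1_frame (h2 : (2 : K) ≠ 0) (ha : Rep π a zz) (hw : Anti π w a) (hπ : Function.Injective π)
    {D : GL I4 K} (hD : Rep (cb π D) a zz) : Nonempty ((x1 (cb π D)).range ≃* (x1 π).range) := by
  obtain ⟨c, -, e⟩ := ha.unique (rep_cb_iff.1 hD)
  have hc : c * c = 1 := by
    have h1 : cj D zz * cj D zz = 1 := by rw [← map_mul, zz_sq, map_one]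
    rw [e, smul_mul_smul_comm, zz_sq] at h1
    simpa using congrFun (congrFun h1 (.inl 0)) (.inl 0)
  rw [cj_eq_iff] at e
  rcases mul_self_eq_one_iff.1 hc with rfl | rfl
  · obtain ⟨P, Q, rfl⟩ := eq_bdG h2 (D := D) (by simpa using e)
    exact range_x1_bdG P Q
  · obtain ⟨W, hW⟩ := exists_gl π w
    have e1 := hw.eq hW ha
    obtain ⟨P, Q, e2⟩ := eq_bdG h2 (D := W⁻¹ * D) (by
      rw [Units.val_mul, mul_assoc, e, Units.inv_mul_eq_iff_eq_mul, ← mul_assoc, ← mul_assoc, e1]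
      simp [mul_assoc])
    have e3 : D = W * bdG P Q := by rw [← e2, mul_inv_cancel_left]
    rw [e3, range_x1_conj hW]
    exact range_x1_bdG P Q

/-! ### diagonal or antidiagonal matrices -/

theorem da_mul (hA : DA A) (hB : DA B) : DA (A * B) := by
  rcases hA with ⟨h1, h2⟩ | ⟨h1, h2⟩ <;> rcases hB with ⟨h3, h4⟩ | ⟨h3, h4⟩
  exacts [Or.inl (by simp [mul_apply, *]), Or.inr (by simp [mul_apply, *]), Or.inr (by simp [mul_apply, *]),
    Or.inl (by simp [mul_apply, *])]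

theorem da_smul (c : K) (hA : DA A) : DA (c • A) :=
  hA.imp (fun h => by simp [h.1, h.2]) fun h => by simp [h.1, h.2]

theorem da_inv {P : GL (Fin 2) K} (h : DA (P : M2 K)) : DA ((P⁻¹ : GL (Fin 2) K) : M2 K) := by
  rw [Matrix.coe_units_inv, inv_def, adjugate_fin_two]
  refine da_smul _ (h.imp (fun h => ?_) fun h => ?_) <;> simp [h.1, h.2]

theorem da_cj {P : GL (Fin 2) K} (h : DA (P : M2 K)) (hA : DA A) : DA (cj P A) :=
  da_mul (da_mul h hA) (da_inv h)

/-- A frame in which a diagonal matrix with non-scalar square is monomial. -/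
theorem da_of_cj {P : GL (Fin 2) K} {s t : K} (hst : s ^ 2 ≠ t ^ 2) (h : DA (cj P⁻¹ (d2 s t))) :
    DA (P : M2 K) := by
  have hd := (Matrix.isUnits_det_units P).ne_zero
  have e : d2 s t * (P : M2 K) = P * cj P⁻¹ (d2 s t) := by
    rw [cj_apply, inv_inv, ← mul_assoc, ← mul_assoc, P.mul_inv, one_mul]
  have ht := trace_cj P⁻¹ (d2 s t)
  generalize cj P⁻¹ (d2 s t) = E at h e ht
  generalize (P : M2 K) = X at hd e
  rw [det_fin_two] at hd
  have e00 := congrFun (congrFun e 0) 0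
  have e01 := congrFun (congrFun e 0) 1
  have e10 := congrFun (congrFun e 1) 0
  have e11 := congrFun (congrFun e 1) 1
  have hne : s - t ≠ 0 := fun h => hst (by rw [sub_eq_zero.1 h])
  rcases h with ⟨h1, h2⟩ | ⟨h1, h2⟩
  · simp [mul_apply, h1, h2] at e00 e01 e10 e11
    have k1 : X 0 0 * X 1 0 = 0 := mul_left_cancel₀ hne (by linear_combination X 1 0 * e00 - X 0 0 * e10)
    have k2 : X 0 1 * X 1 1 = 0 := mul_left_cancel₀ hne (by linear_combination X 1 1 * e01 - X 0 1 * e11)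
    rcases mul_eq_zero.1 k1 with k | k <;> rcases mul_eq_zero.1 k2 with l | l
    exacts [absurd (by rw [k, l]; ring) hd, Or.inr ⟨k, l⟩, Or.inl ⟨l, k⟩, absurd (by rw [k, l]; ring) hd]
  · simp [trace_fin_two, h1, h2] at ht
    exact absurd (by linear_combination (t - s) * ht) hst

theorem da_of_fixP {X : Subgroup PGL(2, K)} (h : FixP X) {s t : K} (hst : s ^ 2 ≠ t ^ 2) {x y : PGL(2, K)}
    (hx : x ∈ X) (rx : Rep (MonoidHom.id _) x (d2 s t)) (hy : y ∈ X) (ry : Rep (MonoidHom.id _) y A) : DA A := by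
  obtain ⟨P, hP⟩ := h
  obtain ⟨u, hu, rfl : x = _⟩ := rx
  obtain ⟨v, rfl, rfl : y = _⟩ := ry
  have := da_cj (da_of_cj hst (hu ▸ hP u hx)) (hP v hy)
  rwa [cj_cj_inv] at this

theorem d2_pow (s t : K) (n : ℕ) : (d2 s t : M2 K) ^ n = d2 (s ^ n) (t ^ n) := by
  induction n with
  | zero => simp [one_fin_two]
  | succ n ih => rw [pow_succ, ih, pow_succ, pow_succ]; simp

theorem pow_eq_of_d2 {H : Type*} [Group H] {ψ : H →* PGL(2, K)} {h : H} {s t : K} (r : Rep ψ h (d2 s t))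
    {n : ℕ} (e : ψ h ^ n = 1) : s ^ n = t ^ n := by
  obtain ⟨c, -, e1⟩ := scalar_of_map_pow r e
  rw [d2_pow] at e1
  have h1 := congrFun (congrFun e1 0) 0
  have h2 := congrFun (congrFun e1 1) 1
  simp at h1 h2
  rw [h1, h2]

end CfsgLib.D4.XT
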