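import Cfsg.Agent.Lib.D4.TC
import Cfsg.Agent.Lib.D4.XT
import Cfsg.Agent.Lib.Tech.SylowIn

/-! Reflections: the octahedral case.  See `plans/D4.md`. -/

set_option autoImplicit false

namespace CfsgLib.D4

open Matrix Cfsg Cfsg.Geo CfsgLib.Asch
open scoped MatrixGroups commutatorElement

namespace AS4

open XT

variable {G K : Type*} [Group G] [Field K] {π : G →* PG4 K} {a c g r w y z : G} {M N : M4 K}
  {A B C : M2 K}

theorem ra_cb (h : RA π z) (D : GL I4 K) : RA (cb π D) z :=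
  ⟨fun e => h.not_refl ((refl_cb D).1 e), h.swap.imp fun _ e => (anti_cb D).2 e,
    by rw [Zc_cb]; exact h.four, h.refl.imp fun _ e => ⟨(refl_cb D).2 e.1, e.2⟩⟩

theorem s4t_cb (h : S4T π z) (D : GL I4 K) : S4T (cb π D) z := by
  obtain ⟨B, h1, h2⟩ := h
  exact ⟨D⁻¹ * B, by rwa [cb_cb, mul_inv_cancel_left], by rwa [cb_cb, mul_inv_cancel_left]⟩

theorem s4_all (h2 : (2 : K) ≠ 0) (hπ : Function.Injective π) (hS : S4T π z) (ha : IsConj z a)
    (R : RA π a) (hz : Rep π a zz) : Nonempty ((x1 π).range ≃* Equiv.Perm (Fin 4)) := by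
  obtain ⟨B, h3, ⟨e⟩⟩ := hS
  obtain ⟨k, rfl⟩ := isConj_iff.1 ha
  obtain ⟨x, hk⟩ := exists_gl π k
  obtain ⟨w, hw⟩ := R.swap
  obtain ⟨f⟩ := range_x1_frame h2 hz hw hπ ((rep_cb_conj hk B).2 h3)
  rw [range_x1_conj hk] at f
  exact ⟨f.symm.trans e⟩

theorem exists_refl (h2 : (2 : K) ≠ 0) (hπ : Function.Injective π) (R : RA π a) (hz : Rep π a zz) :
    ∃ r A, A * A = 1 ∧ A.det = -1 ∧ Rep π r (bd A 1) := by
  obtain ⟨r, hr, e⟩ := R.refl
  obtain ⟨A, h3, h4, h | h⟩ := refl_blocks h2 hz hr (hr.com hπ h2 e.symm).symm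
  · exact ⟨r, A, h3, h4, h⟩
  · obtain ⟨w, hw⟩ := R.swap
    obtain ⟨P, Q, hw'⟩ := (anti_iff h2 hz).1 hw
    have hd := hw'.swG_ad.det_ne
    have hd' : (ad Q P : M4 K) = bd Q P * ad 1 1 := by simp [fromBlocks_multiply]
    rw [hd', det_mul, det_bd] at hd
    have hP := mul_nonsing_inv P (Ne.isUnit (right_ne_zero_of_mul (left_ne_zero_of_mul hd)))
    have hP' := nonsing_inv_mul P (Ne.isUnit (right_ne_zero_of_mul (left_ne_zero_of_mul hd)))
    have hQ := mul_nonsing_inv Q (Ne.isUnit (left_ne_zero_of_mul (left_ne_zero_of_mul hd)))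
    have hi : Rep π w⁻¹ (ad Q⁻¹ P⁻¹) := hw'.inv' (by simp [fromBlocks_multiply, hP, hQ])
    refine ⟨_, P * A * P⁻¹, ?_, ?_, ((hw'.mul h).mul hi).congr (by simp [fromBlocks_multiply, hQ])⟩
    · calc _ = P * (A * (P⁻¹ * P) * A) * P⁻¹ := by simp only [mul_assoc]
        _ = 1 := by rw [hP', mul_one, h3, mul_one, hP]
    · rw [det_mul, det_mul, mul_right_comm, ← det_mul, hP, det_one, one_mul, h4]

theorem s4_key : ∀ h ρ : Equiv.Perm (Fin 4), h * h ≠ 1 → h * h * (h * h) = 1 → ρ * ρ = 1 → ρ ≠ 1 →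
    ∃ k, k * ρ * k⁻¹ * (h * h) = h * h * (k * ρ * k⁻¹) ∧ k * ρ * k⁻¹ ≠ h * h := by decide +kernel

theorem s4_exp : ∀ h : Equiv.Perm (Fin 4), h ^ 12 = 1 := by decide +kernel

/-- A monomial reflection in the first block. -/
theorem tlem (h2 : (2 : K) ≠ 0) (hπ : Function.Injective π) (hS : S4T π z) (ha : IsConj z a)
    (R : RA π a) (hz : Rep π a zz) {i : K} (hi : i ^ 2 = -1) (hc : Rep π c (bd (d2 i 1) C)) :
    ∃ g s, s ≠ 0 ∧ Rep π g (bd !![0, s; s⁻¹, 0] 1) := by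
  obtain ⟨e⟩ := s4_all h2 hπ hS ha R hz
  obtain ⟨r, A, h3, h4, hr⟩ := exists_refl h2 hπ R hz
  have hne : (1 : K) ≠ -1 := fun h => h2 (by linear_combination h)
  let f : C0 π →* Equiv.Perm (Fin 4) := e.toMonoidHom.comp (x1 π).rangeRestrict
  have hf : ∀ u v, f u = f v ↔ x1 π u = x1 π v := fun u v =>
    e.injective.eq_iff.trans Subtype.ext_iff
  have hf1 : ∀ u, f u = 1 ↔ x1 π u = 1 := fun u => by simpa using hf u 1
  let c' : C0 π := ⟨c, _, _, hc⟩
  let r' : C0 π := ⟨r, _, _, hr⟩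
  have rc : Rep (x1 π) c' (d2 i 1) := rep_x1 hc
  have rr : Rep (x1 π) r' A := rep_x1 hr
  have rcc : Rep (x1 π) (c' * c') (d2 (-1) 1) := (rc.mul rc).congr (by simp [← hi, sq])
  obtain ⟨k, k1, k2⟩ := s4_key (f c') (f r') (fun h => by
      have := pow_eq_of_d2 rcc (n := 1) (by rw [pow_one, ← hf1, map_mul, h])
      exact hne (by simpa using this.symm))
    (by
      rw [← map_mul, ← map_mul, hf1]
      exact map_eq_one (c := 1) ((rcc.mul rcc).congr (by simp [one_fin_two])))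
    (by
      rw [← map_mul, hf1]
      exact map_eq_one (c := 1) ((rr.mul rr).congr (by simp [h3])))
    (fun h => by
      obtain ⟨t, -, rfl⟩ := scalar_of_map rr ((hf1 _).1 h)
      have h5 := congrFun (congrFun h3 0) 0
      simp at h4 h5
      exact hne (by linear_combination h4 - h5))
  obtain ⟨g, rfl⟩ := (e.surjective.comp (x1 π).rangeRestrict_surjective) k
  obtain ⟨P, Q, hg⟩ := g.2
  have hd := hg.det_ne
  rw [det_bd] at hd
  have hP := mul_nonsing_inv P (Ne.isUnit (left_ne_zero_of_mul hd))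
  have hP' := nonsing_inv_mul P (Ne.isUnit (left_ne_zero_of_mul hd))
  have hQ := mul_nonsing_inv Q (Ne.isUnit (right_ne_zero_of_mul hd))
  have hg' : Rep π (g : G)⁻¹ (bd P⁻¹ Q⁻¹) := hg.inv' (by simp [fromBlocks_multiply, hP, hQ])
  have h5 : Rep π ((g * r' * g⁻¹ : C0 π) : G) (bd (P * A * P⁻¹) 1) :=
    ((hg.mul hr).mul hg').congr (by simp [fromBlocks_multiply, hQ])
  have h6 : P * A * P⁻¹ * (P * A * P⁻¹) = 1 := by
    calc _ = P * (A * (P⁻¹ * P) * A) * P⁻¹ := by simp only [mul_assoc]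
      _ = 1 := by rw [hP', mul_one, h3, mul_one, hP]
  have h7 : (P * A * P⁻¹).det = -1 := by
    rw [det_mul, det_mul, mul_right_comm, ← det_mul, hP, det_one, one_mul, h4]
  change f g * f r' * (f g)⁻¹ * _ = _ * (f g * f r' * (f g)⁻¹) at k1
  change f g * f r' * (f g)⁻¹ ≠ _ at k2
  simp only [← map_mul, ← map_inv, hf, ne_eq] at k1 k2
  have h8 := rep_x1 h5
  generalize P * A * P⁻¹ = X at h5 h6 h7 h8
  obtain ⟨t, -, h9⟩ := (rcc.mul h8).unique (rep_of_map_eq (h8.mul rcc) k1.symm)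
  have e00 := congrFun (congrFun h9 0) 0
  have e01 := congrFun (congrFun h9 0) 1
  have e10 := congrFun (congrFun h9 1) 0
  have e11 := congrFun (congrFun h9 1) 1
  have s00 := congrFun (congrFun h6 0) 0
  have s11 := congrFun (congrFun h6 1) 1
  rw [det_fin_two] at h7
  simp [mul_apply, vecMul, dotProduct, -mul_eq_zero] at e00 e01 e10 e11 s00 s11
  by_cases ht : t = 1
  · subst ht
    have x01 : X 0 1 = 0 := mul_left_cancel₀ h2 (by linear_combination e01)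
    have x10 : X 1 0 = 0 := mul_left_cancel₀ h2 (by linear_combination -e10)
    have x11 : X 1 1 ≠ 0 := fun h => by simp [h, x01] at h7
    refine absurd ((rcc.smul x11).map_eq (h8.congr ?_)).symm k2
    have : X 0 0 = -X 1 1 := mul_left_cancel₀ x11 (by
      rw [x01] at h7 s11; linear_combination h7 + s11)
    ext j l; fin_cases j <;> fin_cases l <;> simp [x01, x10, this]
  · have ht' : 1 - t ≠ 0 := sub_ne_zero.2 (Ne.symm ht)
    have x00 : X 0 0 = 0 := mul_left_cancel₀ ht' (by linear_combination e00)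
    have x11 : X 1 1 = 0 := mul_left_cancel₀ ht' (by linear_combination e11)
    have x01 : X 0 1 * X 1 0 = 1 := by rw [x00] at s00; linear_combination s00
    refine ⟨_, X 0 1, left_ne_zero_of_mul_eq_one x01, h5.congr ?_⟩
    congr 1
    ext j l; fin_cases j <;> fin_cases l <;> simp [x00, x11, eq_inv_of_mul_eq_one_right x01]

/-! ### monomial matrices -/

theorem mon_mul (σ τ : Equiv.Perm I4) (d e : I4 → K) :
    mon σ d * mon τ e = mon (σ * τ) fun j => d (τ j) * e j := by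
  ext i j
  rw [mul_apply, Finset.sum_eq_single (τ j)]
  · by_cases h : i = σ (τ j) <;> simp [mon, h]
  · intro b _ hb; simp [mon, hb]
  · simp

theorem mon_one : mon 1 (fun _ => (1 : K)) = 1 := by
  ext i j; by_cases h : i = j <;> simp [mon, h, one_apply]

theorem eq_mon {σ : Equiv.Perm I4} (h : ∀ i j, i ≠ σ j → M i j = 0) : M = mon σ fun j => M (σ j) j := by
  ext i j
  by_cases e : i = σ j
  · simp [mon, e]
  · simp [mon, e, h i j e]

theorem da_perm (h : DA A) : ∃ α : Equiv.Perm (Fin 2), ∀ i j, i ≠ α j → A i j = 0 := by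
  rcases h with h | h
  · exact ⟨1, fun i j => by fin_cases i <;> fin_cases j <;> simp [h.1, h.2]⟩
  · exact ⟨Equiv.swap 0 1, fun i j => by fin_cases i <;> fin_cases j <;> simp [h.1, h.2]⟩

theorem mon_bd (hA : DA A) (hB : DA B) : ∃ σ d, bd A B = mon σ d := by
  obtain ⟨α, hα⟩ := da_perm hA
  obtain ⟨β, hβ⟩ := da_perm hB
  refine ⟨Equiv.sumCongr α β, _, eq_mon ?_⟩
  rintro (i | i) (j | j) h
  exacts [hα i j (by simpa using h), rfl, rfl, hβ i j (by simpa using h)]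

theorem mon_ad (hA : DA A) (hB : DA B) : ∃ σ d, ad A B = mon σ d := by
  obtain ⟨α, hα⟩ := da_perm hA
  obtain ⟨β, hβ⟩ := da_perm hB
  refine ⟨(Equiv.sumCongr β α).trans (Equiv.sumComm _ _), _, eq_mon ?_⟩
  rintro (i | i) (j | j) h
  exacts [rfl, hα i j (by simpa using h), hβ i j (by simpa using h), rfl]

/-- diagonal change of basis -/
def diagG (d : I4 → K) (hd : ∀ i, d i ≠ 0) : GL I4 K :=
  ⟨mon 1 d, mon 1 fun i => (d i)⁻¹, by simp [mon_mul, hd, mon_one], by simp [mon_mul, hd, mon_one]⟩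

theorem rep_diagG {σ : Equiv.Perm I4} {e d : I4 → K} (hd : ∀ i, d i ≠ 0) (h : Rep π g (mon σ e)) :
    Rep (cb π (diagG d hd)) g (mon σ fun j => (d (σ j))⁻¹ * e j * d j) := by
  refine h.cb_of _ ?_
  change mon σ e * mon 1 d = mon 1 d * _
  rw [mon_mul, mon_mul, mul_one, one_mul]
  congr 1
  ext j
  simp only [Equiv.Perm.one_apply]
  field_simp [hd]

/-- the permutations represented by permutation matrices -/
def PM (π : G →* PG4 K) : Subgroup (Equiv.Perm I4) where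
  carrier := {σ | ∃ g, Rep π g (mon σ fun _ => 1)}
  one_mem' := ⟨1, (rep_one π).congr mon_one.symm⟩
  mul_mem' := fun ⟨_, h⟩ ⟨_, h'⟩ => ⟨_, (h.mul h').congr (by simp [mon_mul])⟩
  inv_mem' := fun ⟨_, h⟩ => ⟨_, h.inv' (by simp [mon_mul, mon_one])⟩

theorem mem_of_swaps {H : Subgroup (Equiv.Perm I4)} (h1 : Equiv.swap (.inl 0) (.inl 1) ∈ H)
    (h2 : Equiv.swap (.inr 0) (.inr 1) ∈ H) (h3 : Equiv.swap (.inl 0) (.inr 0) ∈ H) (σ : Equiv.Perm I4) :
    σ ∈ H := by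
  have h4 := mul_mem (mul_mem h1 h3) h1
  have h5 := mul_mem (mul_mem h2 h3) h2
  have h6 := mul_mem (mul_mem h1 h5) h1
  induction σ using Equiv.Perm.swap_induction_on with
  | one => exact one_mem H
  | swap_mul f x y hxy ih =>
    refine mul_mem ?_ ih
    have : ∀ x y : I4, x ≠ y → Equiv.swap x y = Equiv.swap (.inl 0) (.inl 1) ∨
        Equiv.swap x y = Equiv.swap (.inr 0) (.inr 1) ∨ Equiv.swap x y = Equiv.swap (.inl 0) (.inr 0) ∨
        Equiv.swap x y = Equiv.swap (.inl 0) (.inl 1) * Equiv.swap (.inl 0) (.inr 0) * Equiv.swap (.inl 0) (.inl 1) ∨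
        Equiv.swap x y = Equiv.swap (.inr 0) (.inr 1) * Equiv.swap (.inl 0) (.inr 0) * Equiv.swap (.inr 0) (.inr 1) ∨
        Equiv.swap x y = Equiv.swap (.inl 0) (.inl 1) * (Equiv.swap (.inr 0) (.inr 1) * Equiv.swap (.inl 0) (.inr 0) *
          Equiv.swap (.inr 0) (.inr 1)) * Equiv.swap (.inl 0) (.inl 1) := by decide +kernel
    rcases this x y hxy with e | e | e | e | e | e <;> rwa [e]

theorem pow_eq_of_mon (e : Nonempty ((x1 π).range ≃* Equiv.Perm (Fin 4))) (hP : ∀ σ, σ ∈ PM π)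
    {σ : Equiv.Perm I4} {d : I4 → K} (h : Rep π g (mon σ d)) (j : I4) : d j ^ 12 = d (.inl 0) ^ 12 := by
  obtain ⟨e⟩ := e
  by_cases hj : j = .inl 0
  · rw [hj]
  obtain ⟨τ, t0, t1⟩ := (by decide +kernel : ∀ j : I4, j ≠ .inl 0 → ∃ x : I4,
    Equiv.swap (.inl 1) x (.inl 0) = .inl 0 ∧ Equiv.swap (.inl 1) x (.inl 1) = j) j hj
  generalize Equiv.swap (.inl 1 : I4) τ = τ at t0 t1
  obtain ⟨u, hu⟩ := hP (σ * τ)⁻¹
  obtain ⟨v, hv⟩ := hP τ
  have h1 : Rep π (u * (g * v)) (bd (d2 (d (.inl 0)) (d j)) (d2 (d (τ (.inr 0))) (d (τ (.inr 1))))) := by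
    refine (hu.mul (h.mul hv)).congr ?_
    rw [mon_mul, mon_mul, inv_mul_cancel]
    ext (x | x) (y | y) <;> fin_cases x <;> fin_cases y <;> simp [mon, t0, t1]
  refine (pow_eq_of_d2 (rep_x1 (g := ⟨_, _, _, h1⟩) h1) ?_).symm
  have := s4_exp (e ((x1 π).rangeRestrict ⟨_, _, _, h1⟩))
  rw [← map_pow, MulEquiv.map_eq_one_iff] at this
  exact congrArg Subtype.val this

theorem central_conj (hz : IsTwoCentralInvolution z) (hy : IsConj z y) : IsTwoCentralInvolution y := by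
  obtain ⟨k, rfl⟩ := isConj_iff.1 hy
  obtain ⟨h1, S, h2, h3⟩ := hz
  refine ⟨((MulAut.conj k).orderOf_eq z).trans h1, k • S, Tech.conj_mem_cj.2 h2, fun x hx => ?_⟩
  have := h3 _ (Tech.mem_cj.1 hx)
  calc _ = k * (k⁻¹ * x * k * z) * k⁻¹ := by group
    _ = _ := by rw [this]; group

end AS4

open AS4 XT

variable {G K : Type*} [Group G] [Finite G] [Field K] [IsAlgClosed K] {π : G →* PG4 K}

/-- The elements of a suitable Sylow subgroup are monomial in the frame of `z` and `y`. -/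
theorem AS4.exists_mon (hπ : Function.Injective π) (h2 : (2 : K) ≠ 0) {z c : G}
    (hz : IsTwoCentralInvolution z) (rz : Rep π z zz) {i : K} (hi : i ^ 2 = -1) (rc : Rep π c (dg i 1 i 1)) :
    ∃ S : Sylow 2 G, ∀ g ∈ S, ∃ σ d, Rep π g (mon σ d) := by
  obtain ⟨-, S, -, hS⟩ := hz
  have c4 : c ^ 2 ^ 2 = 1 := by
    refine Rep.eq_one' hπ ((rc.pow 4).congr ?_)
    have : i ^ 4 = 1 := by rw [show 4 = 2 * 2 from rfl, pow_mul, hi]; ring
    rw [fromBlocks_diagonal_pow, d2_pow, this, one_pow, d2_one, fromBlocks_one]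
  obtain ⟨k, hk, hc⟩ := (Tech.IsSylowIn.of_sylow S (H := Subgroup.centralizer {z}) fun g hg =>
    Subgroup.mem_centralizer_singleton_iff.2 (hS g hg)).exists_conj_mem (x := c)
      (Subgroup.mem_centralizer_singleton_iff.2 (rc.commute hπ rz (bd_comm_zz _ _)))
      (Tech.isPGroup_zpowers_of_pow c4)
  have hk' := Subgroup.mem_centralizer_singleton_iff.1 hk
  obtain ⟨P, Q, h⟩ := mono hπ h2 rz (k⁻¹ • S).isPGroup' fun g hg => by
    have := hS _ (Tech.mem_cj.1 hg)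
    calc g * z = k⁻¹ * (k⁻¹⁻¹ * g * k⁻¹ * (k * z * k⁻¹)) * k := by group
      _ = k⁻¹ * (k * z * k⁻¹ * (k⁻¹⁻¹ * g * k⁻¹)) * k := by rw [hk', mul_inv_cancel_right, this]
      _ = z * g := by group
  have hne : i ^ 2 ≠ 1 ^ 2 := fun e => h2 (by linear_combination hi - e)
  obtain ⟨hP, hQ⟩ : DA (P : M2 K) ∧ DA (Q : M2 K) := by
    obtain ⟨A, B, hA, hB, r | r⟩ := h c (Tech.mem_cj.2 (by simpa using hc))
    · obtain ⟨t, -, e⟩ := r.unique (rc.bdG P Q)
      obtain ⟨e1, e2⟩ := bd_eq_smul.1 e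
      exact ⟨da_of_cj hne (e1 ▸ da_smul t hA), da_of_cj hne (e2 ▸ da_smul t hB)⟩
    · exact absurd ((anti_iff h2 (rz.bdG_zz P Q)).2 ⟨_, _, r⟩)
        (Com.not_anti h2 ((mem_C0_iff h2 (rz.bdG_zz P Q)).1 ⟨_, _, rc.bdG P Q⟩))
  refine ⟨k⁻¹ • S, fun g hg => ?_⟩
  obtain ⟨A, B, hA, hB, r | r⟩ := h g hg
  · have r' := r.bdG P⁻¹ Q⁻¹
    rw [cb_bdG_inv, inv_inv, inv_inv] at r'
    obtain ⟨σ, d, e⟩ := mon_bd (da_cj hP hA) (da_cj hQ hB)
    exact ⟨σ, d, r'.congr e⟩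
  · have r' := r.bdG_ad P⁻¹ Q⁻¹
    rw [cb_bdG_inv, inv_inv, inv_inv] at r'
    obtain ⟨σ, d, e⟩ := mon_ad (da_mul (da_mul hP hA) (da_inv hQ)) (da_mul (da_mul hQ hB) (da_inv hP))
    exact ⟨σ, d, r'.congr e⟩

theorem AS4.frame (hx : Cx π) (h2 : (2 : K) ≠ 0) (hr : ∃ r, Refl π r) {z y : G}
    (hz : IsTwoCentralInvolution z) (hy : IsConj z y) (hS : S4T π z) (rz : Rep π z zz)
    (ry : Rep π y (dg 1 (-1) 1 (-1))) : False := by
  have Rz := ra hx h2 hr hz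
  have Ry := ra hx h2 hr (central_conj hz hy)
  obtain ⟨cz, hcz, ez⟩ := Rz.four
  obtain ⟨cy, hcy, ey⟩ := Ry.four
  obtain ⟨j, hj, rj⟩ := Zc_four hx.inj h2 rz hcz ez
  obtain ⟨i, hi, ri⟩ := Zc_four' hx.inj h2 ry hcy ey
  obtain ⟨g1, s1, n1, r1⟩ := tlem h2 hx.inj hS (IsConj.refl z) Rz rz hi ri
  obtain ⟨g2, s2, n2, r2⟩ := tlem h2 (hx.cb swG).inj (s4t_cb hS _) (IsConj.refl z) (ra_cb Rz _) rz.swG_zz hi ri.swG
  obtain ⟨g3, s3, n3, r3⟩ := tlem h2 (hx.cb (permG s23)).inj (s4t_cb hS _) hy (ra_cb Ry _)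
    (ry.s23.congr zz_eq.symm) hj rj.s23
  replace r2 := r2.swG
  replace r3 := r3.permG s23
  rw [cb_swG_swG] at r2
  rw [cb_s23_s23, ← d2_one] at r3
  obtain ⟨S, hM⟩ := exists_mon hx.inj h2 hz rz hi ri
  have hd : ∀ l, Sum.elim ![1, s1⁻¹] ![s3⁻¹, s2⁻¹ * s3⁻¹] l ≠ 0 := by
    rintro (l | l) <;> fin_cases l <;> simp [n1, n2, n3]
  have m1 := rep_diagG hd (σ := Equiv.swap (.inl 0) (.inl 1)) (e := Sum.elim ![s1⁻¹, s1] ![1, 1]) (r1.congr (by
    ext (x | x) (y | y) <;> fin_cases x <;> fin_cases y <;> simp [mon, Equiv.swap_apply_def]))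
  have m2 := rep_diagG hd (σ := Equiv.swap (.inr 0) (.inr 1)) (e := Sum.elim ![1, 1] ![s2⁻¹, s2]) (r2.congr (by
    ext (x | x) (y | y) <;> fin_cases x <;> fin_cases y <;> simp [mon, Equiv.swap_apply_def]))
  have m3 := rep_diagG hd (σ := Equiv.swap (.inl 0) (.inr 0)) (e := Sum.elim ![s3⁻¹, 1] ![s3, 1]) (r3.congr (by
    ext (x | x) (y | y) <;> fin_cases x <;> fin_cases y <;> simp [mon, Equiv.swap_apply_def]))
  have hP : ∀ σ, σ ∈ PM (cb π (diagG _ hd)) := by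
    refine mem_of_swaps ⟨_, m1.congr ?_⟩ ⟨_, m2.congr ?_⟩ ⟨_, m3.congr ?_⟩ <;> congr 1 <;>
      ext (x | x) <;> fin_cases x <;> simp [Equiv.swap_apply_def, n1, n2, n3] <;> field_simp
  have rz' : Rep (cb π (diagG _ hd)) z zz := by
    have e : (zz : M4 K) = mon 1 (Sum.elim ![1, 1] ![-1, -1]) := by
      ext (x | x) (y | y) <;> fin_cases x <;> fin_cases y <;> simp [mon]
    refine (rep_diagG hd (rz.congr e)).congr (Eq.trans ?_ e.symm)
    congr 1
    ext l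
    rw [Equiv.Perm.one_apply, mul_right_comm, inv_mul_cancel₀ (hd l), one_mul]
  have e4 := s4_all h2 (hx.cb _).inj (s4t_cb hS _) (IsConj.refl z) (ra_cb Rz _) rz'
  refine fin12 (hx.cb (diagG _ hd)) h2 (hr.imp fun _ h => (refl_cb _).2 h) S fun g hg => ?_
  obtain ⟨σ, d, h⟩ := hM g hg
  replace h := rep_diagG hd h
  generalize (fun j => _ * d j * _) = d at h
  have h0 : d (.inl 0) ≠ 0 := fun e => h.det_ne (det_eq_zero_of_column_eq_zero (.inl 0) fun l => by simp [mon, e])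
  refine ⟨σ, fun l => (d (.inl 0))⁻¹ * d l, fun l => ?_, (h.smul (inv_ne_zero h0)).congr ?_⟩
  · rw [mul_pow, pow_eq_of_mon e4 hP h l, ← mul_pow, inv_mul_cancel₀ h0, one_pow]
  · ext x y; simp [mon]

theorem not_s4 (hx : Cx π) (h2 : (2 : K) ≠ 0) (hr : ∃ r, Refl π r) {z y : G}
    (hz : IsTwoCentralInvolution z) (hy : IsConj z y) (hne : y ≠ z) (hc : Com π y z) : ¬ S4T π z := by
  intro hS
  obtain ⟨B, rz, -⟩ := id hS
  have hy' := central_conj hz hy
  obtain ⟨P, Q, ry⟩ := frame_com (hx.cb B).inj h2 rz (y := y) (by rw [← hy'.1, pow_orderOf_eq_one])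
    (fun e => by simpa [e] using hy'.1) hne (fun e => (ra hx h2 hr hy').not_refl ((refl_cb B).1 e))
    ((com_cb B).2 hc)
  exact frame ((hx.cb B).cb _) h2 (hr.imp fun _ h => (refl_cb _).2 ((refl_cb _).2 h)) hz hy
    (s4t_cb (s4t_cb hS B) _) (rz.bdG_zz P Q) ry

end CfsgLib.D4
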