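import Cfsg.Agent.Lib.D4.DK
import Cfsg.Agent.Lib.D4.XT

/-! Non-solvable centralisers of involutions: no `SL₂(5)` acting on one plane only.  See `plans/D4.md`. -/

set_option autoImplicit false

namespace CfsgLib.D4.BA

open Matrix Cfsg Cfsg.Geo CfsgLib.Asch XT
open scoped MatrixGroups commutatorElement

variable {G K : Type*} [Group G] [Field K] {π : G →* PG4 K} {a c g k r w y z : G} {M N : M4 K}
  {A B C : M2 K}

abbrev A5 := alternatingGroup (Fin 5)

theorem a5_pow : ∀ g : A5, g ^ 2 = 1 ∨ g ^ 3 = 1 ∨ g ^ 5 = 1 := by decide +kernel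

theorem a5_five : ∃ g : A5, g ^ 5 = 1 ∧ g ≠ 1 := by decide +kernel

theorem a4_exp : ∀ g : alternatingGroup (Fin 4), g ^ 12 = 1 := by decide +kernel

theorem s4_exp : ∀ g : Equiv.Perm (Fin 4), g ^ 12 = 1 := by decide +kernel

theorem pow_of_equiv {P H : Type*} [Group P] [Group H] {X : Subgroup P} (e : X ≃* H) {x : P} (hx : x ∈ X)
    {n : ℕ} (h : e ⟨x, hx⟩ ^ n = 1) : x ^ n = 1 := by
  rw [← map_pow, MulEquiv.map_eq_one_iff] at h
  exact congrArg Subtype.val h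

/-- every element of `Cz` agrees on one eigenspace with an element trivial on the other one -/
def Al (π : G →* PG4 K) (z : G) : Prop := ∃ Z, Rep π z Z ∧ Z * Z = 1 ∧ ∀ g M, Rep π g M → M * Z = Z * M →
  ∃ (k : G) (c : K), Rep π k ((2 : K)⁻¹ • (1 - Z + c • (M * (1 + Z)))) ∧
    ((2 : K)⁻¹ • (1 - Z + c • (M * (1 + Z)))).det = 1

theorem Al.trans {π' : G →* PG4 K} (D : GL I4 K) {f : G → G} (hf : Function.Surjective f)
    (h : ∀ g M, Rep π' (f g) (cj D M) ↔ Rep π g M) (hA : Al π z) : Al π' (f z) := by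
  obtain ⟨Z, h1, h2, h3⟩ := hA
  refine ⟨cj D Z, (h _ _).2 h1, by rw [← map_mul, h2, map_one], fun g M r e => ?_⟩
  obtain ⟨g, rfl⟩ := hf g
  obtain ⟨M, rfl⟩ := (cj D).surjective M
  obtain ⟨k, c, r', d⟩ := h3 g M ((h _ _).1 r) ((cj D).injective (by rw [map_mul, map_mul, e]))
  have e' : cj D ((2 : K)⁻¹ • (1 - Z + c • (M * (1 + Z)))) =
      (2 : K)⁻¹ • (1 - cj D Z + c • (cj D M * (1 + cj D Z))) := by
    simp only [map_smul, map_add, map_sub, map_one, map_mul]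
  exact ⟨f k, c, e' ▸ (h _ _).2 r', by rw [← e', det_cj', d]⟩

theorem Al.cb (h : Al π z) (D : GL I4 K) : Al (cb π D) z :=
  h.trans (f := id) D⁻¹ Function.surjective_id fun g M => by rw [rep_cb_iff, cj_cj_inv, id]

theorem Al.conj (h : Al π z) (hy : IsConj z y) : Al π y := by
  obtain ⟨k, rfl⟩ := isConj_iff.1 hy
  obtain ⟨x, hk⟩ := exists_gl π k
  exact h.trans (f := fun g => k * g * k⁻¹) x (MulAut.conj k).surjective fun _ _ => rep_conj_iff hk

theorem Al.sign (h : Al π z) {Y : M4 K} (r : Rep π z Y) (hY : Y * Y = 1) : ∃ ε : K, (ε = 1 ∨ ε = -1) ∧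
    ∀ g M, Rep π g M → M * Y = Y * M →
      ∃ (k : G) (c : K), Rep π k ((2 : K)⁻¹ • (1 - ε • Y + c • (M * (1 + ε • Y)))) ∧
        ((2 : K)⁻¹ • (1 - ε • Y + c • (M * (1 + ε • Y)))).det = 1 := by
  obtain ⟨Z, h1, h2, h3⟩ := h
  obtain ⟨ε, -, rfl⟩ := r.unique h1
  refine ⟨ε, mul_self_eq_one_iff.1 ?_, fun g M r e => h3 g M r (by rw [mul_smul_comm, smul_mul_assoc, e])⟩
  rw [smul_mul_smul_comm, hY] at h2
  simpa using congrFun (congrFun h2 (.inl 0)) (.inl 0)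

theorem al_of (h2 : (2 : K) ≠ 0) (rz : Rep π z zz)
    (h : ∀ g A B, Rep π g (bd A B) → ∃ (k : G) (c : K), Rep π k (bd (c • A) 1) ∧ (c • A).det = 1) : Al π z := by
  refine ⟨zz, rz, zz_sq, fun g M r e => ?_⟩
  rw [comm_zz h2 e] at r ⊢
  obtain ⟨k, c, r', d⟩ := h _ _ _ r
  have : (2 : K)⁻¹ • (1 - zz + c • (bd M.toBlocks₁₁ M.toBlocks₂₂ * (1 + zz))) = bd (c • M.toBlocks₁₁) 1 := by
    rw [one_add_bd, bd_mul]
    ext (x | x) (y | y) <;> fin_cases x <;> fin_cases y <;> simp [mul_add] <;> field_simp <;> ring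
  exact ⟨k, c, this ▸ r', by rw [this, det_bd, d, det_one, mul_one]⟩

theorem not_com (h2 : (2 : K) ≠ 0) (e : (x1 π).range ≃* A5) (rz : Rep π z zz)
    (ry : Rep π y (dg 1 (-1) 1 (-1))) (h : Al π y) : False := by
  have key : ∀ {k : G} {s t : K} {B : M2 K}, Rep π k (bd (d2 s t) B) → s ^ 30 = t ^ 30 := fun r => by
    refine pow_eq_of_d2 (rep_x1 (g := ⟨_, _, _, r⟩) r) (pow_of_equiv e ⟨_, rfl⟩ ?_)
    generalize e _ = u
    rcases a5_pow u with h | h | h
    exacts [by rw [show 30 = 2 * 15 from rfl, pow_mul, h, one_pow],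
      by rw [show 30 = 3 * 10 from rfl, pow_mul, h, one_pow], by rw [show 30 = 5 * 6 from rfl, pow_mul, h, one_pow]]
  have fin : ∀ c : K, c ^ 2 = -1 → c ^ 30 ≠ 1 := fun c hc e => h2 (by
    rw [show 30 = 2 * 15 from rfl, pow_mul, hc] at e
    linear_combination -e)
  obtain ⟨ε, hε, H⟩ := h.sign ry (by simp [fromBlocks_multiply, ← one_fin_two])
  obtain ⟨k, c, r, d⟩ := H z zz rz (bd_comm_zz _ _).symm
  rcases hε with rfl | rfl
  · have e1 : (2 : K)⁻¹ • (1 - (1 : K) • dg 1 (-1) 1 (-1) + c • (zz * (1 + (1 : K) • dg 1 (-1) 1 (-1)))) =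
        dg c 1 (-c) 1 := by
      ext (x | x) (y | y) <;> fin_cases x <;> fin_cases y <;> simp [mul_apply] <;> field_simp <;> ring
    rw [e1] at r d
    simp only [det_bd, det_fin_two_of] at d
    exact fin c (by linear_combination -d) (by simpa using key r)
  · have e1 : (2 : K)⁻¹ • (1 - (-1 : K) • dg 1 (-1) 1 (-1) + c • (zz * (1 + (-1 : K) • dg 1 (-1) 1 (-1)))) =
        dg 1 c 1 (-c) := by
      ext (x | x) (y | y) <;> fin_cases x <;> fin_cases y <;> simp [mul_apply] <;> field_simp <;> ring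
    rw [e1] at r d
    simp only [det_bd, det_fin_two_of] at d
    exact fin c (by linear_combination -d) (by simpa using (key r).symm)

theorem exists_diag [IsAlgClosed K] (hx : Cx π) (h2 : (2 : K) ≠ 0) (r : Rep π k (bd A 1)) (hd : A.det = 1)
    (hs : ∀ t : K, A ≠ t • 1) : ∃ (P : GL (Fin 2) K) (ζ : K), ζ ≠ 0 ∧ cj P⁻¹ A = d2 ζ ζ⁻¹ := by
  obtain ⟨δ, hδ⟩ := IsAlgClosed.exists_eq_mul_self (A.trace ^ 2 - 4)
  have ch : A * A = A.trace • A - 1 := by
    rw [det_fin_two] at hd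
    ext i j; fin_cases i <;> fin_cases j <;> simp [mul_apply, trace_fin_two] <;>
      first | ring1 | linear_combination -hd
  have sq : ((2 : K) • A - A.trace • 1) * ((2 : K) • A - A.trace • 1) = (δ * δ) • 1 := by
    simp only [sub_mul, mul_sub, smul_mul_assoc, mul_smul_comm, ch, mul_one, one_mul, ← hδ]
    module
  have sc : ∀ t : K, (2 : K) • A - A.trace • 1 ≠ t • 1 := fun t e => hs (2⁻¹ * (t + A.trace)) (by
    rw [mul_smul, add_smul, ← e, sub_add_cancel, smul_smul, inv_mul_cancel₀ h2, one_smul])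
  by_cases h0 : δ = 0
  · subst h0
    have h4 : A.trace * A.trace = 4 := by linear_combination hδ
    have ht : A.trace ≠ 0 := fun e => pow_ne_zero 2 h2 (by rw [e] at h4; linear_combination -h4)
    have := hx.eq_zero_left (g := k * k) (A := (2⁻¹ * A.trace) • ((2 : K) • A - A.trace • 1))
      (by rw [smul_mul_smul_comm, sq]; simp) ((r.mul r).congr (by
        rw [bd_mul, mul_one, ch, smul_sub, smul_smul, smul_smul, mul_assoc, mul_assoc, h4, mul_comm _ 2,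
          inv_mul_cancel_left₀ h2, show (2 : K)⁻¹ * 4 = 2 by field_simp; norm_num]
        congr 1
        module))
    exact absurd ((smul_eq_zero.1 this).resolve_left (mul_ne_zero (inv_ne_zero h2) ht)) (by simpa using sc 0)
  · have hE : δ⁻¹ • ((2 : K) • A - A.trace • 1) * δ⁻¹ • ((2 : K) • A - A.trace • 1) = 1 := by
      rw [smul_mul_smul_comm, sq, smul_smul, show δ⁻¹ * δ⁻¹ * (δ * δ) = 1 by field_simp, one_smul]
    have hE' : ∀ t : K, δ⁻¹ • ((2 : K) • A - A.trace • 1) ≠ t • 1 := fun t e => sc (δ * t) (by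
      rw [mul_smul, ← e, smul_smul, mul_inv_cancel₀ h0, one_smul])
    obtain ⟨P, hP⟩ := exists_d2 h2 hE (((sq_eq_one_cases h2 hE).resolve_left (by simpa using hE' 1)).resolve_left
      (by simpa using hE' (-1)))
    have hm : (A.trace + δ) / 2 * ((A.trace - δ) / 2) = 1 := by field_simp; linear_combination hδ
    refine ⟨P, (A.trace + δ) / 2, left_ne_zero_of_mul_eq_one hm, ?_⟩
    rw [← eq_inv_of_mul_eq_one_right hm]
    have : A = (δ / 2) • δ⁻¹ • ((2 : K) • A - A.trace • 1) + (A.trace / 2) • 1 := by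
      rw [smul_smul, show δ / 2 * δ⁻¹ = 2⁻¹ by field_simp, smul_sub, smul_smul, smul_smul, inv_mul_cancel₀ h2,
        one_smul, div_eq_inv_mul, sub_add_cancel]
    generalize A.trace = t at this hP
    rw [this, map_add, map_smul, hP, map_smul, map_one]
    ext i j; fin_cases i <;> fin_cases j <;> simp <;> ring

variable [Finite G] [IsAlgClosed K]

theorem not_anti (p : ℕ) [Fact p.Prime] [CharP K p] (hx : Cx π) (hp : p ≠ 2) (h2 : (2 : K) ≠ 0)
    (rz : Rep π z zz) (ry : Rep π y (ad 1 1)) {ζ : K} (h5 : ζ ^ 5 = 1) (h1 : ζ ≠ 1)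
    (rk : Rep π k (dg ζ ζ⁻¹ 1 1)) (h : Al π y) : False := by
  have h0 : ζ ≠ 0 := fun e => by simp [e] at h5
  have hs : ζ ^ 2 ≠ 1 := fun e => h1 (by linear_combination h5 - (ζ ^ 3 + ζ) * e)
  obtain ⟨ε, hε, H⟩ := h.sign ry (by simp [fromBlocks_multiply])
  have rd : Rep π (k * (y * k * y)) (dg ζ ζ⁻¹ ζ ζ⁻¹) :=
    (rk.mul ((ry.mul rk).mul ry)).congr (by simp [fromBlocks_multiply])
  obtain ⟨l, c, r, d⟩ := H _ _ rd (by simp [fromBlocks_multiply])
  have e1 : ((2 : K)⁻¹ • (1 - ε • ad 1 1 + c • (dg ζ ζ⁻¹ ζ ζ⁻¹ * (1 + ε • ad 1 1)))).submatrix s23 s23 =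
      bd !![(1 + c * ζ) / 2, ε * (c * ζ - 1) / 2; ε * (c * ζ - 1) / 2, (1 + c * ζ) / 2]
        !![(1 + c * ζ⁻¹) / 2, ε * (c * ζ⁻¹ - 1) / 2; ε * (c * ζ⁻¹ - 1) / 2, (1 + c * ζ⁻¹) / 2] := by
    ext (x | x) (y | y) <;> fin_cases x <;> fin_cases y <;>
      simp [mul_apply, Equiv.swap_apply_def] <;> ring
  rw [← det_submatrix_equiv_self s23, e1, det_bd, det_fin_two_of, det_fin_two_of] at d
  have hc : c ^ 2 = 1 := by
    have k1 : ∀ u : K, (1 + u) / 2 * ((1 + u) / 2) - ε * (u - 1) / 2 * (ε * (u - 1) / 2) = u := fun u => by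
      rcases hε with rfl | rfl <;> field_simp <;> ring
    rw [k1, k1] at d
    rw [← d]
    field_simp
  replace r := (r.permG s23).congr e1
  have rz' := (rz.congr zz_eq).s23
  have ry' : Rep (cb π (permG s23)) y (bd !![0, 1; 1, 0] !![0, 1; 1, 0]) := (ry.permG s23).congr (by
    ext (x | x) (y | y) <;> fin_cases x <;> fin_cases y <;> simp [Equiv.swap_apply_def])
  have rk' : Rep (cb π (permG s23)) (k * z) (dg ζ (-1) ζ⁻¹ (-1)) :=
    Rep.s23 ((rk.mul rz).congr (by simp [fromBlocks_multiply]))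
  have hx' := hx.cb (permG s23)
  generalize cb π (permG s23) = π' at r rz' ry' rk' hx'
  have pw : ∀ n, x1 π' ⟨_, _, _, rk'⟩ ^ n = 1 → ζ ^ n = (-1) ^ n := fun n =>
    pow_eq_of_d2 (rep_x1 (g := ⟨_, _, _, rk'⟩) rk')
  have p12 : x1 π' ⟨_, _, _, rk'⟩ ^ 12 ≠ 1 := fun e => hs (by
    have := pw 12 e
    linear_combination this - (ζ ^ 7 + ζ ^ 2) * h5)
  rcases dk1 p hx' hp le_rfl with ⟨v, hv, H⟩ | H | ⟨⟨e⟩⟩ | ⟨⟨e⟩⟩ | ⟨⟨e⟩⟩
  · have H' : ∀ {g A B}, Rep π' g (bd A B) → ∃ c : K, A *ᵥ v = c • v := fun r => by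
      obtain ⟨x, rfl, e⟩ := rep_x1 (g := ⟨_, _, _, r⟩) r
      exact H x ⟨_, e⟩
    obtain ⟨s, e⟩ := H' rz'
    obtain ⟨t, e'⟩ := H' ry'
    have a0 := congrFun e 0
    have a1 := congrFun e 1
    have b0 := congrFun e' 0
    have b1 := congrFun e' 1
    simp [mulVec, dotProduct, -mul_eq_zero] at a0 a1 b0 b1
    have v0 : v 0 = 0 := by
      by_contra n
      obtain rfl : s = 1 := mul_right_cancel₀ n (by linear_combination -a0)
      exact n (by rw [b1, mul_left_cancel₀ h2 (show 2 * v 1 = 2 * 0 by linear_combination -a1), mul_zero])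
    exact hv (by ext i; fin_cases i <;> simp [v0, b0])
  · have := da_of_fixP H (t := -1) (by simpa using hs) ⟨⟨_, _, _, rk'⟩, rfl⟩
      (rep_of_map_eq (rep_x1 (g := ⟨_, _, _, rk'⟩) rk') rfl) ⟨⟨_, _, _, r⟩, rfl⟩
      (rep_of_map_eq (rep_x1 (g := ⟨_, _, _, r⟩) r) rfl)
    have hε0 : ε ≠ 0 := by rcases hε with rfl | rfl <;> simp
    rcases this with ⟨e, -⟩ | ⟨e, -⟩ <;> simp [h2, hε0] at e
    · exact hs (by linear_combination (c * ζ + 1) * e - ζ ^ 2 * hc)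
    · exact hs (by linear_combination (c * ζ - 1) * e - ζ ^ 2 * hc)
  · exact p12 (pow_of_equiv e ⟨_, rfl⟩ (a4_exp _))
  · exact p12 (pow_of_equiv e ⟨_, rfl⟩ (s4_exp _))
  · rcases a5_pow (e ⟨x1 π' ⟨_, _, _, rk'⟩, _, rfl⟩) with f | f | f <;>
      have := pw _ (pow_of_equiv e _ f)
    · exact hs (by simpa using this)
    · exact h1 (by linear_combination (ζ ^ 3 - 1) * this - ζ * h5)
    · exact h2 (by linear_combination this - h5)

theorem not_alpha (p : ℕ) [Fact p.Prime] [CharP K p] (hx : Cx π) (hp : p ≠ 2) (h2 : (2 : K) ≠ 0) (hr : NR π)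
    (hz : z ^ 2 = 1) (h1 : z ≠ 1) (rz : Rep π z zz) (e : (x1 π).range ≃* A5)
    (h : ∀ g A B, Rep π g (bd A B) → ∃ (k : G) (c : K), Rep π k (bd (c • A) 1) ∧ (c • A).det = 1) : False := by
  obtain ⟨y, hy, hne, hc⟩ := hx.exists_partner hz h1
  have hA := (al_of h2 rz h).conj hy
  obtain ⟨u, rfl⟩ := isConj_iff.1 hy
  have y2 : (u * z * u⁻¹) ^ 2 = 1 := by rw [conj_pow, hz, mul_one, mul_inv_cancel]
  have y1 : u * z * u⁻¹ ≠ 1 := fun e => h1 (by simpa using e)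
  generalize u * z * u⁻¹ = y at *
  rcases com_or_anti (π := π) hz hc with c | c
  · obtain ⟨P, Q, ry⟩ := frame_com hx.inj h2 rz y2 y1 hne (hr y) c
    obtain ⟨f⟩ := range_x1_bdG (π := π) P Q
    exact not_com h2 (f.trans e) (rz.bdG_zz P Q) ry (hA.cb _)
  · obtain ⟨Q, ry⟩ := frame_anti h2 rz y2 c
    obtain ⟨a, a5, a1⟩ := a5_five
    obtain ⟨⟨_, g, rfl⟩, rfl⟩ := e.surjective a
    obtain ⟨A, B, rg⟩ := g.2
    obtain ⟨k, c, rk, d⟩ := h _ _ _ rg
    have hc0 : c ≠ 0 := fun e => by simp [e] at d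
    have rA := (rep_x1 rg).smul hc0
    obtain ⟨P, ζ, h0, hP⟩ := exists_diag hx h2 rk d fun t e' => a1 (by
      rw [MulEquiv.map_eq_one_iff]
      exact Subtype.ext (map_eq_one (rA.congr e')))
    obtain ⟨t, -, ht⟩ := scalar_of_map_pow rA (pow_of_equiv e _ a5)
    have ht' := congrArg (cj P⁻¹) ht
    rw [map_pow, hP, d2_pow, map_smul, map_one] at ht'
    have t0 := congrFun (congrFun ht' 0) 0
    have t1 := congrFun (congrFun ht' 1) 1
    simp at t0 t1
    have rk' := (rk.bdG 1 Q).bdG P P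
    simp only [inv_one, cj_one, map_one, hP] at rk'
    refine not_anti p ((hx.cb _).cb _) hp h2 ((rz.bdG_zz 1 Q).bdG_zz P P) ((ry.bdG_ad P P).congr (by simp))
      (ζ := ζ * ζ) (k := k * k) ?_ (fun e' => a1 ?_) ((rk'.mul rk').congr (by
        simp [fromBlocks_multiply, ← one_fin_two])) ((hA.cb _).cb _)
    · rw [mul_pow]
      nth_rewrite 2 [t0.trans t1.symm]
      exact mul_inv_cancel₀ (pow_ne_zero 5 h0)
    · rw [MulEquiv.map_eq_one_iff]
      refine Subtype.ext (map_eq_one (c := ζ) (rA.congr ((cj P⁻¹).injective ?_)))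
      rw [hP, map_smul, map_one, ← eq_inv_of_mul_eq_one_left e', d2_smul]

end CfsgLib.D4.BA
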