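import Cfsg.Agent.Lib.D4.DK
import Cfsg.Agent.Lib.D4.BA0

/-! Non-solvable centralisers of involutions, first part.  See `plans/D4.md`. -/

set_option autoImplicit false

namespace CfsgLib.D4

open Matrix Cfsg Cfsg.Geo CfsgLib.Asch
open scoped MatrixGroups commutatorElement

namespace BA

open XT

variable {G K : Type*} [Group G] [Field K] {π : G →* PG4 K} {a c g k r w y z : G} {M N : M4 K}
  {A B C : M2 K}

theorem beta_cb {D : GL I4 K} (h : Beta (cb π D) z) : Beta π z := by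
  obtain ⟨h1, h2, h3, h4, h5, h6⟩ := h
  rw [Lz, Cz_cb] at h3
  simp only [Lz, Cz_cb, Zc_cb, anti_cb] at h4 h5 h6
  exact ⟨h1, h2, h3, h4, h5, h6⟩

theorem a5_comm : commutator A5 = ⊤ := commutator_alternatingGroup_eq_top (by simp)

theorem map_comm_top {H : Type*} [Group H] (f : H →* A5) {S : Subgroup H} (h : S.map f = ⊤) :
    ⁅S, S⁆.map f = ⊤ := by
  rw [Subgroup.map_commutator, h]
  exact a5_comm

/-- both blocks have determinant one -/
def SS (π : G →* PG4 K) : Subgroup G where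
  carrier := {g | ∃ A B, Rep π g (bd A B) ∧ A.det = 1 ∧ B.det = 1}
  one_mem' := ⟨1, 1, (rep_one π).congr (by simp), det_one, det_one⟩
  mul_mem' := fun ⟨_, _, h, a, b⟩ ⟨_, _, h', a', b'⟩ =>
    ⟨_, _, (h.mul h').congr (bd_mul ..), by rw [det_mul, a, a', one_mul], by rw [det_mul, b, b', one_mul]⟩
  inv_mem' := fun ⟨A, B, h, a, b⟩ => ⟨A⁻¹, B⁻¹, h.inv' (by
    rw [bd_mul, mul_nonsing_inv _ (by simp [a]), mul_nonsing_inv _ (by simp [b])]
    exact fromBlocks_one), by simp [a], by simp [b]⟩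

/-- the second block is trivial and the first block has determinant one -/
def S1 (π : G →* PG4 K) : Subgroup G where
  carrier := {g | ∃ A, Rep π g (bd A 1) ∧ A.det = 1}
  one_mem' := ⟨1, (rep_one π).congr (by simp), det_one⟩
  mul_mem' := fun ⟨_, h, a⟩ ⟨_, h', a'⟩ =>
    ⟨_, (h.mul h').congr (by rw [bd_mul, mul_one]), by rw [det_mul, a, a', one_mul]⟩
  inv_mem' := fun ⟨A, h, a⟩ => ⟨A⁻¹, h.inv' (by
    rw [bd_mul, mul_nonsing_inv _ (by simp [a]), mul_one]
    exact fromBlocks_one), by simp [a]⟩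

theorem rep_comm {A' B' : M2 K} (h : Rep π a (bd A B)) (h' : Rep π c (bd A' B')) :
    Rep π ⁅a, c⁆ (bd (A * A' * A⁻¹ * A'⁻¹) (B * B' * B⁻¹ * B'⁻¹)) ∧ (A * A' * A⁻¹ * A'⁻¹).det = 1 ∧
      (B * B' * B⁻¹ * B'⁻¹).det = 1 := by
  have key : ∀ {g : G} {A B : M2 K}, Rep π g (bd A B) → Rep π g⁻¹ (bd A⁻¹ B⁻¹) ∧ A.det ≠ 0 ∧ B.det ≠ 0 :=
    fun {_ A B} h => by
      have hd := mul_ne_zero_iff.1 (det_bd A B ▸ h.det_ne)
      refine ⟨h.inv' ?_, hd⟩
      rw [bd_mul, mul_nonsing_inv _ hd.1.isUnit, mul_nonsing_inv _ hd.2.isUnit]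
      exact fromBlocks_one
  obtain ⟨h1, h2, h3⟩ := key h
  obtain ⟨h4, h5, h6⟩ := key h'
  refine ⟨(((h.mul h').mul h1).mul h4).congr (by rw [bd_mul, bd_mul, bd_mul]), ?_, ?_⟩ <;>
    simp only [det_mul, det_nonsing_inv, Ring.inverse_eq_inv'] <;> field_simp

theorem comm_le_SS : ⁅C0 π, C0 π⁆ ≤ SS π :=
  Subgroup.commutator_le.2 fun _ ⟨_, _, h⟩ _ ⟨_, _, h'⟩ => ⟨_, _, rep_comm h h'⟩

theorem alpha_of (f : C0 π →* A5) (hf : ∀ u v, f u = f v ↔ x1 π u = x1 π v) (h : (x2 π).ker.map f = ⊤)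
    (g : G) (A B : M2 K) (r : Rep π g (bd A B)) :
    ∃ (k : G) (c : K), Rep π k (bd (c • A) 1) ∧ (c • A).det = 1 := by
  have key : ∀ u ∈ (x2 π).ker, ∃ A, Rep π (u : G) (bd A 1) := fun u hu => by
    obtain ⟨A, B, r⟩ := u.2
    obtain ⟨t, ht, rfl⟩ := scalar_of_map (rep_x2 r) hu
    exact ⟨t⁻¹ • A, (r.smul (inv_ne_zero ht)).congr (by simp [fromBlocks_smul, smul_smul, ht])⟩
  have le : ⁅(x2 π).ker, (x2 π).ker⁆ ≤ (S1 π).subgroupOf (C0 π) :=
    Subgroup.commutator_le.2 fun u hu v hv => by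
      obtain ⟨A, h⟩ := key u hu
      obtain ⟨A', h'⟩ := key v hv
      obtain ⟨h1, h2, -⟩ := rep_comm h h'
      exact ⟨_, h1.congr (by simp), h2⟩
  obtain ⟨k, hk, e⟩ := (map_comm_top f h).ge (Subgroup.mem_top (f ⟨g, _, _, r⟩))
  obtain ⟨A', r', d⟩ := le hk
  obtain ⟨c, -, rfl⟩ := (rep_of_map_eq (rep_x1 (g := ⟨g, _, _, r⟩) r) ((hf _ _).1 e)).unique (rep_x1 r')
  exact ⟨k, c, r', d⟩

theorem sq_neg (h2 : (2 : K) ≠ 0) {H : Type*} [Group H] {ψ : H →* PGL(2, K)} {h : H} (r : Rep ψ h A)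
    (d : A.det = 1) (e : ψ h ^ 2 = 1) (n : ψ h ≠ 1) : A * A = -1 := by
  obtain ⟨t, -, ht⟩ := scalar_of_map_pow r e
  have := congrArg det ht
  rw [det_pow, d, det_smul, det_one, Fintype.card_fin, one_pow, mul_one, sq] at this
  rw [sq] at ht
  rcases mul_self_eq_one_iff.1 this.symm with rfl | rfl
  · rcases sq_eq_one_cases h2 (ht.trans (one_smul _ _)) with rfl | rfl | e
    · exact absurd (map_eq_one (c := 1) (r.congr (by simp))) n
    · exact absurd (map_eq_one (c := -1) (r.congr (by simp))) n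
    · exact absurd (by linear_combination e - d) h2
  · simpa using ht

theorem beta_of_ker [Finite G] [IsAlgClosed K] (hπ : Function.Injective π) (h2 : (2 : K) ≠ 0) (hr : NR π)
    (hz : z ^ 2 = 1) (h1 : z ≠ 1) (rz : Rep π z zz) (f : C0 π →* A5) (hs : Function.Surjective f)
    (f1 : ∀ u, f u = 1 ↔ x1 π u = 1) (f2 : ∀ u, f u = 1 ↔ x2 π u = 1) : Beta π z := by
  have fZ : ∀ u : C0 π, f u = 1 ↔ (u : G) ∈ Zc π z := fun u => by
    rw [mem_Zc_iff_x h2 rz, ← f1, ← f2, and_self]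
  have hL : ∀ u : C0 π, u ∈ commutator (C0 π) ↔ (u : G) ∈ ⁅C0 π, C0 π⁆ := fun u => by
    rw [← Subgroup.map_subtype_commutator]
    exact ⟨fun h => ⟨u, h, rfl⟩, fun ⟨v, h, e⟩ => Subtype.ext e ▸ h⟩
  have dec : ∀ u : C0 π, ∃ l ∈ commutator (C0 π), f l = f u := fun u =>
    (map_comm_top f (Subgroup.map_top_of_surjective f hs)).ge (Subgroup.mem_top _)
  have cen : ∀ u c : C0 π, f c = 1 → u * c = c * u := fun u c hc =>
    Subtype.ext ((((mem_C0_iff h2 rz).1 u.2).zc ((fZ c).1 hc)).comm hπ)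
  have neg : ∀ (l : C0 π) A B, Rep π (l : G) (bd A B) → A.det = 1 → B.det = 1 → f l ^ 2 = 1 → f l ≠ 1 →
      A * A = -1 ∧ B * B = -1 := fun l A B r a b e n => by
    rw [← map_pow] at e
    exact ⟨sq_neg h2 (rep_x1 r) a (by rw [← map_pow, ← f1, e]) (mt (f1 l).2 n),
      sq_neg h2 (rep_x2 r) b (by rw [← map_pow, ← f2, e]) (mt (f2 l).2 n)⟩
  have sq : ∀ l ∈ commutator (C0 π), f l ^ 2 = 1 → l * l = 1 := fun l hl e => by
    obtain ⟨A, B, r, a, b⟩ := comm_le_SS ((hL l).1 hl)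
    refine Subtype.ext ?_
    by_cases n : f l = 1
    · obtain ⟨s, -, rfl⟩ := scalar_of_map (rep_x1 r) ((f1 l).1 n)
      obtain ⟨t, -, rfl⟩ := scalar_of_map (rep_x2 r) ((f2 l).1 n)
      simp only [det_smul, det_one, Fintype.card_fin, mul_one, pow_two] at a b
      exact Rep.eq_one' hπ ((r.mul r).congr (by simp [bd_mul, smul_smul, a, b]))
    · obtain ⟨h3, h4⟩ := neg l A B r a b e n
      exact Rep.eq_one hπ (c := -1) ((r.mul r).congr (by rw [bd_mul, h3, h4]; simp [← fromBlocks_one, fromBlocks_neg]))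
  have zC : z ∈ C0 π := ⟨_, _, rz⟩
  have fz : f ⟨z, zC⟩ = 1 := (fZ _).2 (self_mem_Zc z)
  have zL : (⟨z, zC⟩ : C0 π) ∉ commutator (C0 π) := fun hzL => by
    obtain ⟨P⟩ : Nonempty (Sylow 2 A5) := inferInstance
    have p2 : ∀ x ∈ (P : Subgroup A5), x ^ 2 = 1 := fun x hx => by
      obtain ⟨n, hn⟩ := P.isPGroup' ⟨x, hx⟩
      have hn' : x ^ 2 ^ n = 1 := congrArg Subtype.val hn
      have k : ∀ m, Nat.Coprime 2 m → x ^ m = 1 → x ^ 2 = 1 := fun m hm e => by
        rw [(pow_eq_one_iff_of_coprime (hm.pow_left n)).1 ⟨hn', e⟩, one_pow]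
      rcases a5_pow x with e | e | e
      exacts [e, k 3 (by decide) e, k 5 (by decide) e]
    obtain ⟨W, hW, iW⟩ : ∃ W : Subgroup (C0 π), (∀ u, u ∈ W ↔ f u ∈ (P : Subgroup A5)) ∧ Odd W.index :=
      ⟨(P : Subgroup A5).comap f, fun _ => Iff.rfl, by
        rw [Subgroup.index_comap_of_surjective _ hs]
        exact Nat.odd_iff.2 (Nat.two_dvd_ne_zero.1 P.not_dvd_index)⟩
    have cm : ∀ u v : W, u * v = v * u := fun u v => by
      obtain ⟨l, hl, e⟩ := dec u
      obtain ⟨m, hm, e'⟩ := dec v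
      have hu := (hW _).1 u.2
      have hv := (hW _).1 v.2
      have ll := sq l hl (p2 _ (e ▸ hu))
      have mm := sq m hm (p2 _ (e' ▸ hv))
      have lm := sq _ (mul_mem hl hm) (p2 _ (by rw [map_mul, e, e']; exact mul_mem hu hv))
      have c1 : Commute l m := by
        change l * m = m * l
        rw [← inv_eq_of_mul_eq_one_right lm, _root_.mul_inv_rev, inv_eq_of_mul_eq_one_right ll,
          inv_eq_of_mul_eq_one_right mm]
      have c2 : ∀ x, Commute x ((u : C0 π) * l⁻¹) := fun x => cen _ _ (by simp [e])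
      have c3 : ∀ x, Commute x ((v : C0 π) * m⁻¹) := fun x => cen _ _ (by simp [e'])
      have := ((c2 _).symm.mul_left ((c3 l).mul_right c1))
      refine Subtype.ext ?_
      simpa using this.eq
    letI : CommGroup W := { (inferInstance : Group W) with mul_comm := cm }
    have t1 : MonoidHom.transfer (MonoidHom.id W) ⟨z, zC⟩ = 1 :=
      Abelianization.commutator_subset_ker _ hzL
    rw [MonoidHom.transfer_eq_pow _ _ fun n g _ => by
      rw [mul_assoc, ← (Commute.pow_right (cen g _ fz) n).eq, inv_mul_cancel_left]] at t1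
    obtain ⟨j, hj⟩ := iW
    have t2 : z ^ W.index = 1 := congrArg (fun x : W => ((x : C0 π) : G)) t1
    rw [hj, pow_succ, pow_mul, hz, one_pow, one_mul] at t2
    exact h1 t2
  have disj : ∀ l ∈ commutator (C0 π), f l = 1 → l = 1 := fun l hl e => by
    rcases Zc_sq hπ h2 hz h1 (hr z) ((fZ l).1 e) (by
      rw [pow_two]; exact congrArg Subtype.val (sq l hl (by rw [e, one_pow]))) with h | h
    · exact Subtype.ext h
    · exact absurd ((show l = ⟨z, zC⟩ from Subtype.ext h) ▸ hl) zL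
  have le : ⁅C0 π, C0 π⁆ ≤ C0 π := Subgroup.commutator_le_self _
  refine ⟨hz, h1, ?_, ?_, ?_, ?_⟩ <;> rw [Lz, Cz_eq_C0 h2 rz]
  · refine ⟨MulEquiv.ofBijective (f.comp (Subgroup.inclusion le)) ⟨(injective_iff_map_eq_one _).2 fun l e =>
      Subtype.ext (congrArg Subtype.val (disj _ ((hL _).2 l.2) e) :), fun x => ?_⟩⟩
    obtain ⟨u, rfl⟩ := hs x
    obtain ⟨l, hl, e⟩ := dec u
    exact ⟨⟨l, (hL l).1 hl⟩, e⟩
  · intro g hg
    obtain ⟨l, hl, e⟩ := dec ⟨g, hg⟩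
    exact ⟨_, (fZ (⟨g, hg⟩ * l⁻¹)).1 (by simp [e]), l, (hL l).1 hl, by simp⟩
  · intro c hc hl
    exact congrArg Subtype.val (disj ⟨c, le hl⟩ ((hL _).2 hl) ((fZ _).2 hc))
  · intro t ht s hs' t2 s2 t1 s1 ts e
    refine (com_or_anti s2 e).resolve_left fun cm => ts ?_
    obtain ⟨A, B, r, a, b⟩ := comm_le_SS ht
    obtain ⟨A', B', r', a', b'⟩ := comm_le_SS hs'
    have n : ∀ u (hu : u ∈ ⁅C0 π, C0 π⁆), u ^ 2 = 1 → u ≠ 1 → f ⟨u, le hu⟩ ^ 2 = 1 ∧ f ⟨u, le hu⟩ ≠ 1 :=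
      fun u hu u2 u1 => ⟨by rw [← map_pow, show (⟨u, le hu⟩ : C0 π) ^ 2 = 1 from Subtype.ext u2, map_one],
        fun e => u1 (congrArg Subtype.val (disj _ ((hL _).2 hu) e))⟩
    have h3 := (neg ⟨t, le ht⟩ A B r a b (n t ht t2 t1).1 (n t ht t2 t1).2).1
    have h4 := (neg ⟨s, le hs'⟩ A' B' r' a' b' (n s hs' s2 s1).1 (n s hs' s2 s1).2).1
    have h5 : A * A' = A' * A := by
      have := cm.eq r r'
      rw [bd_mul, bd_mul] at this
      exact (fromBlocks_inj.1 this).1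
    have h6 : A * A' * (A * A') = 1 := by
      rw [mul_assoc, ← mul_assoc A', ← h5, mul_assoc A, ← mul_assoc, h3, h4]; simp
    have rr : Rep (x1 π) (⟨t, le ht⟩ * ⟨s, le hs'⟩) (A * A') := (rep_x1 (g := ⟨t, le ht⟩) r).mul (rep_x1 r')
    have h7 : x1 π (⟨t, le ht⟩ * ⟨s, le hs'⟩) = 1 := by
      rcases sq_eq_one_cases h2 h6 with k | k | k
      · exact map_eq_one (c := 1) (rr.congr (by simp [k]))
      · exact map_eq_one (c := -1) (rr.congr (by simp [k]))
      · rw [det_mul, a, a'] at k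
        exact absurd (by linear_combination k) h2
    have h8 : t * s = 1 := congrArg Subtype.val (disj _ ((hL _).2 (mul_mem ht hs')) ((f1 _).2 h7))
    rw [eq_inv_of_mul_eq_one_left h8, inv_eq_of_mul_eq_one_right (by rw [← pow_two, s2])]

theorem exists_f {H : Type*} [Group H] {ψ : H →* PGL(2, K)} (e : ψ.range ≃* A5) :
    ∃ f : H →* A5, Function.Surjective f ∧ ∀ u v, f u = f v ↔ ψ u = ψ v :=
  ⟨e.toMonoidHom.comp ψ.rangeRestrict, e.surjective.comp ψ.rangeRestrict_surjective, fun _ _ =>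
    e.injective.eq_iff.trans Subtype.ext_iff⟩

variable [Finite G] [IsAlgClosed K]

theorem beta0 (p : ℕ) [Fact p.Prime] [CharP K p] (hx : Cx π) (hp : p ≠ 2) (h2 : (2 : K) ≠ 0) (hr : NR π)
    (hz : z ^ 2 = 1) (h1 : z ≠ 1) (rz : Rep π z zz) (hs : ¬ Group.IsSolvable (x1 π).range) : Beta π z := by
  obtain ⟨e⟩ := (solv_of_dk (dk1 p hx hp le_rfl)).resolve_left hs
  obtain ⟨f, fs, hf⟩ := exists_f e
  have f1 : ∀ u, f u = 1 ↔ x1 π u = 1 := fun u => by simpa using hf u 1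
  rcases ((x2 π).normal_ker.map f fs).eq_bot_or_eq_top with h | h
  · have le : ∀ u, x2 π u = 1 → f u = 1 := fun u hu => h.le (Subgroup.mem_map_of_mem f hu)
    have hs2 : ¬ Group.IsSolvable (x2 π).range := fun _ => hs (by
      have : Group.IsSolvable A5 := Group.isSolvable_of_surjective
        (f := (x2 π).rangeRestrict.liftOfSurjective (x2 π).rangeRestrict_surjective
          ⟨f, fun u hu => le u (congrArg Subtype.val hu)⟩) fun a => by
          obtain ⟨u, rfl⟩ := fs a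
          exact ⟨(x2 π).rangeRestrict u, MonoidHom.liftOfRightInverse_comp_apply ..⟩
      exact Group.isSolvable_of_isSolvable_injective (f := e.toMonoidHom) e.injective)
    obtain ⟨e'⟩ := (solv_of_dk (dk2 p hx hp le_rfl)).resolve_left hs2
    obtain ⟨f', fs', hf'⟩ := exists_f e'
    have f2 : ∀ u, f' u = 1 ↔ x2 π u = 1 := fun u => by simpa using hf' u 1
    have k : f'.ker = f.ker := by
      refine Subgroup.eq_of_le_of_card_ge (fun u hu => le u ((f2 u).1 hu)) (le_of_eq ?_)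
      have i1 := f.ker.card_mul_index
      have i2 := f'.ker.card_mul_index
      rw [Subgroup.index_ker, MonoidHom.range_eq_top.2 fs] at i1
      rw [Subgroup.index_ker, MonoidHom.range_eq_top.2 fs'] at i2
      exact Nat.eq_of_mul_eq_mul_right Nat.card_pos (i1.trans i2.symm)
    exact beta_of_ker hx.inj h2 hr hz h1 rz f fs f1 fun u => by
      rw [← f2, ← MonoidHom.mem_ker, ← k, MonoidHom.mem_ker]
  · exact (not_alpha p hx hp h2 hr hz h1 rz e (alpha_of f hf h)).elim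

omit [Finite G] [IsAlgClosed K] in
theorem solv_cent (hπ : Function.Injective π) (h2 : (2 : K) ≠ 0) (hz : z ^ 2 = 1) (rz : Rep π z zz)
    (s1 : Group.IsSolvable (x1 π).range) (s2 : Group.IsSolvable (x2 π).range) :
    Group.IsSolvable (Subgroup.centralizer ({z} : Set G)) := by
  have : Group.IsSolvable (Zc π z) := Group.isSolvable_of_comm fun a b =>
    Subtype.ext ((Com.zc (Zc_le_Cz z a.2) b.2).comm hπ)
  have l1 : Zc π z ≤ C0 π := Cz_eq_C0 h2 rz ▸ Zc_le_Cz z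
  have : Group.IsSolvable (C0 π) := Group.isSolvable_of_ker_le_range (Subgroup.inclusion l1)
    ((x1 π).rangeRestrict.prod (x2 π).rangeRestrict) fun u hu =>
      ⟨⟨u, (mem_Zc_iff_x h2 rz u).2 ⟨congrArg (fun x => x.1.1) hu, congrArg (fun x => x.2.1) hu⟩⟩, rfl⟩
  have l2 : C0 π ≤ Subgroup.centralizer {z} := fun g hg =>
    Subgroup.mem_centralizer_singleton_iff.2 (((mem_C0_iff h2 rz).1 hg).comm hπ)
  refine Group.isSolvable_of_ker_le_range (Subgroup.inclusion l2) Abelianization.of ?_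
  rw [Abelianization.ker_of, commutator_def, Subgroup.commutator_le]
  intro a _ b _
  refine ⟨⟨⁅a.1, b.1⁆, (mem_C0_iff h2 rz).2 ?_⟩, rfl⟩
  rw [commutatorElement_def]
  rcases com_or_anti (π := π) hz (Subgroup.mem_centralizer_singleton_iff.1 a.2) with c | c <;>
    rcases com_or_anti (π := π) hz (Subgroup.mem_centralizer_singleton_iff.1 b.2) with d | d
  exacts [((c.mul d).mul c.inv).mul d.inv, ((c.mul_anti d).mul_com c.inv).mul_anti d.inv,
    ((c.mul_com d).mul_anti c.inv).mul d.inv, ((c.mul_anti d).mul_anti c.inv).mul_anti d.inv]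

end BA

variable {G K : Type*} [Group G] [Finite G] [Field K] [IsAlgClosed K] {π : G →* PG4 K}

theorem beta_of (p : ℕ) [Fact p.Prime] [CharP K p] (hx : Cx π) (hp : p ≠ 2) (hr : NR π) {z : G} (h2 : z ^ 2 = 1)
    (h1 : z ≠ 1) (hs : ¬ Group.IsSolvable (Subgroup.centralizer ({z} : Set G))) : Beta π z := by
  have hK : (2 : K) ≠ 0 := fun e => hp ((Nat.prime_dvd_prime_iff_eq Fact.out Nat.prime_two).1
    ((CharP.cast_eq_zero_iff K p 2).1 (by exact_mod_cast e)))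
  obtain ⟨B, rz⟩ := inv_nf hx.inj hK h2 h1 (hr z)
  refine BA.beta_cb (D := B) ?_
  by_cases s1 : Group.IsSolvable (x1 (cb π B)).range
  · refine BA.beta_cb (BA.beta0 p ((hx.cb B).cb swG) hp hK ((hr.cb B).cb swG) h2 h1 rz.swG_zz ?_)
    rw [range_x1_swG]
    exact fun s2 => hs (BA.solv_cent (hx.cb B).inj hK h2 rz s1 s2)
  · exact BA.beta0 p (hx.cb B) hp hK (hr.cb B) h2 h1 rz s1

end CfsgLib.D4
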