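import Mathlib
import Cfsg.Agent.Lib.AltAut.Basic
import Cfsg.Agent.Lib.Tech.SylowIn

/-! Facts on subgroups isomorphic to `A₅`.  See `plans/D4.md`. -/

set_option autoImplicit false

namespace CfsgLib.D4.BB

open Equiv Equiv.Perm Subgroup
open scoped commutatorElement

abbrev P5 := Perm (Fin 5)

theorem p_four : ∀ a : P5, sign a = 1 → a * a * (a * a) = 1 → a * a = 1 := by decide +kernel

theorem p_comm : ∀ a : P5, sign a = 1 → a * a = 1 → a ≠ 1 →
    ∃ t : P5, sign t = 1 ∧ t * t = 1 ∧ t ≠ 1 ∧ t ≠ a ∧ t * a = a * t := by decide +kernel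

theorem p_cent : ∀ a : P5, sign a = 1 → a * a = 1 → a ≠ 1 → ∀ b : P5, b * a = a * b → sign b = 1 →
    b ≠ 1 → b ≠ a → ∀ c : P5, c * a = a * c → sign c = 1 →
      c = 1 ∨ c = a ∨ c = b ∨ c = a * b := by decide +kernel

set_option synthInstance.maxSize 2000 in
theorem p_rot : ∀ a : P5, sign a = 1 → a * a = 1 → a ≠ 1 → ∀ b : P5, b * a = a * b → sign b = 1 →
    b ≠ 1 → b ≠ a → ∃ c : P5, sign c = 1 ∧ c * a * c⁻¹ = b ∧ c * b * c⁻¹ = a * b := by
  decide +kernel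

theorem p_odd : ∀ s : P5, sign s ≠ 1 → s * s = 1 →
    ∃ t : P5, sign t = 1 ∧ t * t = 1 ∧ s * t * s⁻¹ ≠ t ∧
      t * (s * t * s⁻¹) = s * t * s⁻¹ * t := by decide +kernel

theorem p_inv : ∃ t : P5, sign t = 1 ∧ t * t = 1 ∧ t ≠ 1 :=
  ⟨swap 0 1 * swap 2 3, by decide +kernel⟩

variable {G : Type*} [Group G] {L : Subgroup G}

/-- a subgroup isomorphic to `A₅` -/
abbrev A5 (L : Subgroup G) : Prop := Nonempty (L ≃* alternatingGroup (Fin 5))

theorem exists_j (h : A5 L) : ∃ j : L →* P5, Function.Injective j ∧ (∀ x, sign (j x) = 1) ∧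
    (∀ p, sign p = 1 → ∃ x, j x = p) ∧
    ∀ g : G, (∀ x ∈ L, g * x * g⁻¹ ∈ L) →
      ∃ s : P5, ∀ x y : L, (y : G) = g * x * g⁻¹ → j y = s * j x * s⁻¹ := by
  obtain ⟨e⟩ := h
  haveI : Finite L := Finite.of_equiv _ e.symm.toEquiv
  refine ⟨(alternatingGroup (Fin 5)).subtype.comp e.toMonoidHom,
    Subtype.val_injective.comp e.injective, fun x => mem_alternatingGroup.1 (e x).2,
    fun p hp => ⟨e.symm ⟨p, mem_alternatingGroup.2 hp⟩, by simp⟩, fun g hg => ?_⟩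
  have hn : g ∈ normalizer (L : Set G) := mem_normalizer_fintype hg
  obtain ⟨s, hs⟩ := (AltAut.conjNormal_bijective (α := Fin 5) (by simp) (by simp)).2
    (MulAut.congr e (L.normalizerMonoidHom ⟨g, hn⟩))
  refine ⟨s, fun x y hy => ?_⟩
  have h1 := congrArg (fun σ : MulAut (alternatingGroup (Fin 5)) => ((σ (e x) : _) : P5)) hs
  have h2 : L.normalizerMonoidHom ⟨g, hn⟩ x = y := Subtype.ext hy.symm
  simp only [MulAut.conjNormal_apply, MulAut.congr_apply, MulEquiv.trans_apply,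
    MulEquiv.symm_apply_apply, h2] at h1
  exact h1.symm

theorem A5.four (h : A5 L) {a : G} (ha : a ∈ L) (e : a ^ 4 = 1) : a ^ 2 = 1 := by
  obtain ⟨j, hj, hs, -, -⟩ := exists_j h
  have h1 : (⟨a, ha⟩ : L) * ⟨a, ha⟩ * (⟨a, ha⟩ * ⟨a, ha⟩) = 1 :=
    Subtype.ext (by simpa [pow_succ, mul_assoc] using e)
  have h2 := p_four _ (hs ⟨a, ha⟩) (by rw [← map_mul, ← map_mul, h1, map_one])
  rw [← map_mul, ← map_one j] at h2
  simpa [sq] using congrArg Subtype.val (hj h2)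

theorem A5.two (h : A5 L) {a : G} (ha : a ∈ L) {k : ℕ} (e : a ^ 2 ^ k = 1) : a ^ 2 = 1 := by
  induction k with
  | zero => simp at e; simp [e]
  | succ k ih =>
    rcases k with _ | k
    · simpa using e
    · apply ih
      have := h.four (L.pow_mem ha (2 ^ k)) (by rw [← pow_mul, ← e]; congr 1; ring)
      rw [← pow_mul] at this
      rw [← this]; congr 1

theorem A5.exists_comm (h : A5 L) {a : G} (ha : a ∈ L) (e : a * a = 1) (h1 : a ≠ 1) :
    ∃ t ∈ L, t * t = 1 ∧ t ≠ 1 ∧ t ≠ a ∧ t * a = a * t := by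
  obtain ⟨j, hj, hs, ho, -⟩ := exists_j h
  obtain ⟨t, ht, t2, t1, ta, tc⟩ := p_comm _ (hs ⟨a, ha⟩)
    (by rw [← map_mul, ← map_one j]; exact congrArg j (Subtype.ext e))
    (fun e => h1 (congrArg Subtype.val (hj (e.trans (map_one j).symm))))
  obtain ⟨x, rfl⟩ := ho t ht
  rw [← map_mul, ← map_one j] at t2
  rw [← map_mul, ← map_mul] at tc
  refine ⟨x, x.2, congrArg Subtype.val (hj t2), fun e => t1 ?_, fun e => ta ?_,
    congrArg Subtype.val (hj tc)⟩
  · rw [← map_one j]; exact congrArg j (Subtype.ext e)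
  · exact congrArg j (Subtype.ext e)

theorem A5.cent (h : A5 L) {a b c : G} (ha : a ∈ L) (hb : b ∈ L) (hc : c ∈ L) (e : a * a = 1)
    (a1 : a ≠ 1) (b1 : b ≠ 1) (ba : b ≠ a) (eb : b * a = a * b) (ec : c * a = a * c) :
    c = 1 ∨ c = a ∨ c = b ∨ c = a * b := by
  obtain ⟨j, hj, hs, -, -⟩ := exists_j h
  have := p_cent _ (hs ⟨a, ha⟩)
    (by rw [← map_mul, ← map_one j]; exact congrArg j (Subtype.ext e))
    (fun e => a1 (congrArg Subtype.val (hj (e.trans (map_one j).symm)))) (j ⟨b, hb⟩)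
    (by rw [← map_mul, ← map_mul]; exact congrArg j (Subtype.ext eb)) (hs _)
    (fun e => b1 (congrArg Subtype.val (hj (e.trans (map_one j).symm))))
    (fun e => ba (congrArg Subtype.val (hj e))) (j ⟨c, hc⟩)
    (by rw [← map_mul, ← map_mul]; exact congrArg j (Subtype.ext ec)) (hs _)
  rw [← map_mul, ← map_one j] at this
  rcases this with e | e | e | e
  exacts [.inl (congrArg Subtype.val (hj e)), .inr (.inl (congrArg Subtype.val (hj e))),
    .inr (.inr (.inl (congrArg Subtype.val (hj e)))),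
    .inr (.inr (.inr (congrArg Subtype.val (hj e))))]

theorem A5.rot (h : A5 L) {a b : G} (ha : a ∈ L) (hb : b ∈ L) (e : a * a = 1)
    (a1 : a ≠ 1) (b1 : b ≠ 1) (ba : b ≠ a) (eb : b * a = a * b) :
    ∃ c ∈ L, c * a * c⁻¹ = b ∧ c * b * c⁻¹ = a * b := by
  obtain ⟨j, hj, hs, ho, -⟩ := exists_j h
  obtain ⟨c, hc, e1, e2⟩ := p_rot _ (hs ⟨a, ha⟩)
    (by rw [← map_mul, ← map_one j]; exact congrArg j (Subtype.ext e))
    (fun e => a1 (congrArg Subtype.val (hj (e.trans (map_one j).symm)))) (j ⟨b, hb⟩)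
    (by rw [← map_mul, ← map_mul]; exact congrArg j (Subtype.ext eb)) (hs _)
    (fun e => b1 (congrArg Subtype.val (hj (e.trans (map_one j).symm))))
    (fun e => ba (congrArg Subtype.val (hj e)))
  obtain ⟨x, rfl⟩ := ho c hc
  simp only [← map_inv, ← map_mul] at e1 e2
  exact ⟨x, x.2, congrArg Subtype.val (hj e1), congrArg Subtype.val (hj e2)⟩

theorem A5.exists_inv (h : A5 L) : ∃ t ∈ L, t * t = 1 ∧ t ≠ 1 := by
  obtain ⟨j, hj, -, ho, -⟩ := exists_j h
  obtain ⟨t, ht, t2, t1⟩ := p_inv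
  obtain ⟨x, rfl⟩ := ho t ht
  rw [← map_mul, ← map_one j] at t2
  exact ⟨x, x.2, congrArg Subtype.val (hj t2),
    fun e => t1 (by rw [← map_one j]; exact congrArg j (Subtype.ext e))⟩

theorem A5.center (h : A5 L) {a : G} (ha : a ∈ L) (e : ∀ x ∈ L, a * x = x * a) : a = 1 := by
  obtain ⟨j, hj, -, ho, -⟩ := exists_j h
  have : j ⟨a, ha⟩ = 1 := AltAut.eq_one_of_commute (by simp) fun g hg => by
    obtain ⟨x, rfl⟩ := ho g (mem_alternatingGroup.1 hg)
    rw [← map_mul, ← map_mul]; exact congrArg j (Subtype.ext (e x x.2))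
  exact congrArg Subtype.val (hj (this.trans (map_one j).symm))

theorem A5.card (h : A5 L) : Nat.card L = 60 := by
  obtain ⟨e⟩ := h
  rw [Nat.card_congr e.toEquiv, nat_card_alternatingGroup]
  simp [Nat.factorial]

theorem A5.simple (h : A5 L) : IsSimpleGroup L :=
  let ⟨e⟩ := h; e.isSimpleGroup

theorem A5.not_solvable (h : A5 L) : ¬ IsSolvable L := by
  intro hs
  haveI := h.simple
  have hc := IsSimpleGroup.comm_iff_isSolvable.2 hs
  obtain ⟨t, ht, -, t1⟩ := h.exists_inv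
  exact t1 (h.center ht fun x hx => congrArg Subtype.val (hc ⟨t, ht⟩ ⟨x, hx⟩))

theorem A5.perfect (h : A5 L) : ⁅L, L⁆ = L := by
  haveI := h.simple
  have : commutator L = ⊤ := by
    refine (IsSimpleGroup.eq_bot_or_eq_top_of_normal (commutator L) inferInstance).resolve_left ?_
    intro e
    obtain ⟨t, ht, -, t1⟩ := h.exists_inv
    refine t1 (h.center ht fun x hx => ?_)
    have : ⁅(⟨t, ht⟩ : L), (⟨x, hx⟩ : L)⁆ ∈ commutator L :=
      commutator_mem_commutator (mem_top _) (mem_top _)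
    rw [e, mem_bot, commutatorElement_eq_one_iff_mul_comm] at this
    exact congrArg Subtype.val this
  have h2 := congrArg (Subgroup.map L.subtype) this
  rwa [commutator_def, map_commutator, ← MonoidHom.range_eq_map, range_subtype] at h2

/-- an outer automorphism can be adjusted to an involution -/
theorem A5.outer1 (h : A5 L) {g : G} (hg : ∀ x ∈ L, g * x * g⁻¹ ∈ L) :
    (∃ l ∈ L, ∀ x ∈ L, l * g * x = x * (l * g)) ∨
      ∃ l ∈ L, ∀ x ∈ L, (l * g) * (l * g) * x = x * ((l * g) * (l * g)) := by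
  obtain ⟨j, hj, -, ho, hc⟩ := exists_j h
  obtain ⟨s, hs⟩ := hc g hg
  have key : ∀ l x : L, ∃ y : L, (y : G) = l * g * x * (l * g)⁻¹ ∧
      j y = j l * s * j x * (j l * s)⁻¹ := fun l x => by
    refine ⟨l * ⟨_, hg x x.2⟩ * l⁻¹, by simp [mul_assoc], ?_⟩
    rw [map_mul, map_mul, map_inv, hs x ⟨_, hg x x.2⟩ rfl]; group
  by_cases e : sign s = 1
  · obtain ⟨l, hl⟩ := ho s⁻¹ (by simpa using e)
    refine .inl ⟨l, l.2, fun x hx => ?_⟩
    obtain ⟨y, hy, e⟩ := key l ⟨x, hx⟩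
    rw [hl] at e
    have : y = ⟨x, hx⟩ := hj (by simpa using e)
    rw [this] at hy
    exact mul_inv_eq_iff_eq_mul.1 hy.symm
  · obtain ⟨l, hl⟩ := ho (swap 0 1 * s⁻¹) (by
      rcases Int.units_eq_one_or (sign s) with e' | e'
      · exact absurd e' e
      · simp [e'])
    refine .inr ⟨l, l.2, fun x hx => ?_⟩
    obtain ⟨y, hy, e1⟩ := key l ⟨x, hx⟩
    obtain ⟨y', hy', e2⟩ := key l y
    rw [e1, hl] at e2
    have : y' = ⟨x, hx⟩ := hj (by rw [e2]; simp [mul_assoc])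
    rw [this, hy] at hy'
    have h3 : x = (l * g) * (l * g) * x * ((l * g) * (l * g))⁻¹ := hy'.trans (by group)
    exact mul_inv_eq_iff_eq_mul.1 h3.symm

theorem A5.outer2 (h : A5 L) {g : G} (hg : ∀ x ∈ L, g * x * g⁻¹ ∈ L)
    (h2 : ∀ x ∈ L, g * g * x = x * (g * g)) :
    (∃ l ∈ L, ∀ x ∈ L, l * g * x = x * (l * g)) ∨
      ∃ t ∈ L, t * t = 1 ∧ g * t * g⁻¹ ≠ t ∧ t * (g * t * g⁻¹) = g * t * g⁻¹ * t := by
  obtain ⟨j, hj, -, ho, hc⟩ := exists_j h
  obtain ⟨s, hs⟩ := hc g hg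
  by_cases e : sign s = 1
  · obtain ⟨l, hl⟩ := ho s⁻¹ (by simpa using e)
    refine .inl ⟨l, l.2, fun x hx => ?_⟩
    have : l * ⟨_, hg x hx⟩ * l⁻¹ = ⟨x, hx⟩ := hj (by
      rw [map_mul, map_mul, map_inv, hs ⟨x, hx⟩ ⟨_, hg x hx⟩ rfl, hl]; group)
    have h3 : (l : G) * (g * x * g⁻¹) * (l : G)⁻¹ = x := congrArg Subtype.val this
    rw [← mul_inv_eq_iff_eq_mul]
    exact Eq.trans (by group) h3
  · have hss : s * s = 1 := AltAut.eq_one_of_commute (by simp) fun p hp => by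
      obtain ⟨x, rfl⟩ := ho p (mem_alternatingGroup.1 hp)
      have e1 := hs x ⟨_, hg x x.2⟩ rfl
      have e2 := hs ⟨_, hg x x.2⟩ x (by
        have := h2 x x.2
        rw [← mul_inv_eq_iff_eq_mul] at this
        exact this.symm.trans (by simp [mul_assoc]))
      rw [e1] at e2
      rw [← mul_inv_eq_iff_eq_mul]
      exact (e2.trans (by group)).symm
    obtain ⟨t, ht, t2, t1, tc⟩ := p_odd s e hss
    obtain ⟨x, rfl⟩ := ho t ht
    rw [← hs x ⟨_, hg x x.2⟩ rfl] at t1 tc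
    rw [← map_mul, ← map_one j] at t2
    rw [← map_mul, ← map_mul] at tc
    exact .inr ⟨x, x.2, congrArg Subtype.val (hj t2), fun e => t1 (congrArg j (Subtype.ext e)),
      congrArg Subtype.val (hj tc)⟩

/-- growing a `2`-subgroup inside a Sylow subgroup -/
theorem exists_r [Finite G] {T : Subgroup G} (hT : IsPGroup 2 T) : ∃ S : Sylow 2 G, T ≤ S ∧
    ((S : Subgroup G) = T ∨ ∃ r ∈ S, r ∉ T ∧ r * r ∈ T ∧ r ∈ normalizer (T : Set G)) := by
  obtain ⟨S, hS⟩ := hT.exists_le_sylow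
  refine ⟨S, hS, ?_⟩
  rcases hS.eq_or_lt with e | hlt
  · exact .inl e.symm
  obtain ⟨x, hx, hxT, hn⟩ := Tech.exists_mem_normalizer_of_lt S.isPGroup' hlt
  obtain ⟨k, hk⟩ := S.isPGroup' ⟨x, hx⟩
  have hk' : x ^ 2 ^ k ∈ T := by
    have : x ^ 2 ^ k = 1 := congrArg Subtype.val hk
    rw [this]; exact T.one_mem
  clear hk
  right
  induction k generalizing x with
  | zero => exact absurd (by simpa using hk') hxT
  | succ k ih =>
    by_cases h : x * x ∈ T
    · exact ⟨x, hx, hxT, h, hn⟩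
    · exact ih (x * x) (mul_mem hx hx) h (mul_mem hn hn) (by rw [← sq, ← pow_mul, ← pow_succ']; exact hk')

end CfsgLib.D4.BB
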