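import Cfsg.Agent.Lib.D4.Basic0
import Cfsg.Agent.S0215

/-! Basic calculus of involutions in `PGL₄(K)`.  See `plans/D4.md`. -/

set_option autoImplicit false

namespace CfsgLib.D4

open Matrix Cfsg Cfsg.Geo CfsgLib.Asch
open scoped MatrixGroups commutatorElement

variable {G K : Type*} [Group G] [Field K] {π : G →* PG4 K} {a b c g r w y z : G} {M N : M4 K}

/-! ### reflections and involutions -/

theorem Refl.conj (h : Refl π r) (k : G) : Refl π (k * r * k⁻¹) := by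
  obtain ⟨v, φ, h0, h⟩ := h
  obtain ⟨C, x, rfl, hC⟩ := exists_rep π k
  refine ⟨_, _, (dot_cj x v φ).trans h0, ((rep_of_eq hC).conj h).congr ?_⟩
  rw [← cj_one_add_vecMulVec, cj_apply, coe_units_inv]

theorem Refl.sq (hπ : Function.Injective π) (h : Refl π r) : r ^ 2 = 1 := by
  obtain ⟨v, φ, h0, h⟩ := h
  refine Rep.eq_one' hπ ((h.pow 2).congr ?_)
  rw [pow_two, add_mul, mul_add, mul_add, vecMulVec_sq, h0]
  simp only [one_mul, mul_one]
  module

theorem Refl.ne_one (h2 : (2 : K) ≠ 0) (h : Refl π r) : r ≠ 1 := by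
  rintro rfl
  obtain ⟨v, φ, h0, h⟩ := h
  obtain ⟨c, -, e⟩ := h.scalar_of_one
  have h1 : vecMulVec v φ = (c - 1) • 1 := by rw [sub_smul, ← e]; simp
  have e1 : ∀ i j, v i * φ j = (c - 1) * (1 : M4 K) i j := fun i j => congrFun (congrFun h1 i) j
  have h3 : (c - 1) * (c - 1) = 0 := by
    have a := e1 (.inl 0) (.inl 0)
    have b := e1 (.inr 0) (.inr 0)
    have d := e1 (.inl 0) (.inr 0)
    simp only [one_apply_eq, mul_one, ne_eq, reduceCtorEq, not_false_eq_true, one_apply_ne,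
      mul_zero] at a b d
    linear_combination (v (.inr 0) * φ (.inl 0)) * d - (c - 1) * a - (v (.inl 0) * φ (.inl 0)) * b
  rw [mul_self_eq_zero.1 h3, zero_smul] at h1
  have := congrArg trace h1
  rw [trace_vecMulVec, dotProduct_comm, h0, trace_zero] at this
  exact h2 (neg_eq_zero.1 this)

theorem Refl.exists_rep (h : Refl π r) : ∃ M, Rep π r M ∧ M * M = 1 ∧ M.trace = 2 ∧ M.det = -1 := by
  obtain ⟨v, φ, h0, h⟩ := h
  refine ⟨_, h, ?_, ?_, ?_⟩
  · rw [add_mul, mul_add, mul_add, vecMulVec_sq, h0]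
    simp only [one_mul, mul_one]
    module
  · rw [trace_add, trace_vecMulVec, dotProduct_comm, h0, trace_one]
    norm_num
  · rw [vecMulVec_eq Unit, det_one_add_replicateCol_mul_replicateRow, h0]
    norm_num

theorem Refl.not_anti (h2 : (2 : K) ≠ 0) (h : Refl π r) : ¬ Anti π r g := by
  intro h'
  obtain ⟨M, hM, -, e, -⟩ := h.exists_rep
  exact h2 (e ▸ h'.trace h2 hM)

theorem Refl.com (hπ : Function.Injective π) (h2 : (2 : K) ≠ 0) (h : Refl π r)
    (e : g * r = r * g) : Com π g r := by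
  exact (com_or_anti (h.sq hπ) e).resolve_right fun h' => h.not_anti h2 h'.symm

theorem not_refl_of_trace (h2 : (2 : K) ≠ 0) (h : Rep π g M) (h0 : M.trace = 0) : ¬ Refl π g := by
  intro h'
  obtain ⟨N, hN, -, e, -⟩ := h'.exists_rep
  obtain ⟨c, -, rfl⟩ := h.unique hN
  rw [trace_smul, h0, smul_zero] at e
  exact h2 e.symm

theorem exists_d2 (h2 : (2 : K) ≠ 0) {A : M2 K} (hA : A * A = 1) (hd : A.det = -1) :
    ∃ P : GL (Fin 2) K, cj P⁻¹ A = d2 1 (-1) := by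
  have e := fun i j => congrFun (congrFun hA i) j
  have e00 := e 0 0
  have e01 := e 0 1
  have e10 := e 1 0
  have e11 := e 1 1
  rw [det_fin_two] at hd
  simp [mul_apply, Fin.sum_univ_two, -mul_eq_zero] at e00 e01 e10 e11
  have ht : A 1 1 = -A 0 0 := by
    have : (A 0 0 + A 1 1) ^ 2 = 0 := by linear_combination e00 + e11 + 2 * hd
    linear_combination (pow_eq_zero_iff two_ne_zero).1 this
  have key : ∀ P : M2 K, P.det ≠ 0 → A * P = P * d2 1 (-1) → ∃ P : GL (Fin 2) K,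
      cj P⁻¹ A = d2 1 (-1) := fun P hP e => ⟨.mkOfDetNeZero P hP, by
    rw [cj_apply, inv_inv, mul_assoc]
    exact (Units.inv_mul_eq_iff_eq_mul _).2 e⟩
  by_cases h1 : 1 + A 0 0 = 0
  · refine key !![A 0 1, 1 - A 0 0; 1 - A 0 0, -A 1 0] ?_ ?_
    · rw [det_fin_two_of]
      refine fun e => mul_ne_zero h2 h2 ?_
      linear_combination -e - e00 + 2 * h1
    · ext i j
      fin_cases i <;> fin_cases j <;> simp [mul_apply, Fin.sum_univ_two, ht] <;>
        first | ring1 | linear_combination e00 | linear_combination -e00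
  · refine key !![1 + A 0 0, -A 0 1; A 1 0, 1 + A 0 0] ?_ ?_
    · rw [det_fin_two_of]
      refine fun e => mul_ne_zero h2 h1 ?_
      linear_combination e - e00
    · ext i j
      fin_cases i <;> fin_cases j <;> simp [mul_apply, Fin.sum_univ_two, ht] <;>
        first | ring1 | linear_combination e00 | linear_combination -e00

theorem sq_eq_one_cases (h2 : (2 : K) ≠ 0) {A : M2 K} (hA : A * A = 1) :
    A = 1 ∨ A = -1 ∨ A.det = -1 := by
  have hd : A.det * A.det = 1 := by rw [← det_mul, hA, det_one]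
  refine or_assoc.1 ((mul_self_eq_one_iff.1 hd).imp_left fun hd => ?_)
  have e := fun i j => congrFun (congrFun hA i) j
  have e00 := e 0 0
  have e01 := e 0 1
  have e10 := e 1 0
  have e11 := e 1 1
  rw [det_fin_two] at hd
  simp [mul_apply, Fin.sum_univ_two, -mul_eq_zero] at e00 e01 e10 e11
  have ht : A 0 0 + A 1 1 ≠ 0 := fun e => h2 (by linear_combination A 0 0 * e - e00 - hd)
  have b0 : A 0 1 = 0 := (mul_eq_zero.1 (by linear_combination e01)).resolve_left ht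
  have c0 : A 1 0 = 0 := (mul_eq_zero.1 (by linear_combination e10)).resolve_left ht
  have d0 : A 1 1 = A 0 0 := by
    have : (A 0 0 + A 1 1) * (A 1 1 - A 0 0) = 0 := by linear_combination e11 - e00
    linear_combination (mul_eq_zero.1 this).resolve_left ht
  have : A 0 0 * A 0 0 = 1 := by linear_combination e00 - A 1 0 * b0
  refine (mul_self_eq_one_iff.1 this).imp (fun e => ?_) fun e => ?_ <;> ext i j <;>
    fin_cases i <;> fin_cases j <;> simp [b0, c0, d0, e]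

theorem refl_of_left (h2 : (2 : K) ≠ 0) {A : M2 K} (hA : A * A = 1) (hd : A.det = -1)
    (h : Rep π r (bd A 1)) : Refl π r := by
  obtain ⟨P, hP⟩ := exists_d2 h2 hA hd
  have := h.bdG P 1
  rw [hP, map_one] at this
  refine (refl_cb _).1 ⟨Pi.single (.inl 1) 1, Pi.single (.inl 1) (-2), by simp, this.congr ?_⟩
  ext (x | x) (y | y) <;> fin_cases x <;> fin_cases y <;> simp [vecMulVec_apply]
  norm_num

theorem refl_of_right (h2 : (2 : K) ≠ 0) {A : M2 K} (hA : A * A = 1) (hd : A.det = -1)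
    (h : Rep π r (bd 1 A)) : Refl π r := by
  exact (refl_cb _).1 (refl_of_left h2 hA hd h.swG)

theorem refl_of_rank (hg : Rep π g M) (hM : M * M = 1) (h1 : M ≠ 1) (hr : (M - 1).rank ≤ 1) :
    Refl π g := by
  obtain ⟨v, φ, e⟩ := exists_vecMulVec_of_rank hr
  obtain rfl : M = 1 + vecMulVec v φ := by rw [← e]; abel
  refine ⟨v, φ, ?_, hg⟩
  have h0 : vecMulVec v φ ≠ 0 := fun e => h1 (by simp [e])
  rw [add_mul, mul_add, mul_add, vecMulVec_sq, one_mul, one_mul, mul_one, add_assoc, add_eq_left,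
    ← add_assoc, ← two_smul K, ← add_smul, smul_eq_zero] at hM
  linear_combination hM.resolve_right h0

theorem comm_zz (h2 : (2 : K) ≠ 0) (e : M * zz = zz * M) : M = bd M.toBlocks₁₁ M.toBlocks₂₂ := by
  rw [← fromBlocks_toBlocks M] at e
  simp only [fromBlocks_multiply, fromBlocks_inj, mul_one, mul_zero, add_zero, mul_neg, zero_add,
    one_mul, zero_mul, neg_mul, true_and, and_true] at e
  have k : ∀ X : M2 K, X = -X → X = 0 := fun X e => by
    rwa [eq_neg_iff_add_eq_zero, ← two_smul K, smul_eq_zero, or_iff_right h2] at e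
  conv_lhs => rw [← fromBlocks_toBlocks M, k _ e.1.symm, k _ e.2]

theorem anti_zz (h2 : (2 : K) ≠ 0) (e : M * zz = -(zz * M)) : M = ad M.toBlocks₁₂ M.toBlocks₂₁ := by
  rw [← fromBlocks_toBlocks M] at e
  simp only [fromBlocks_multiply, fromBlocks_neg, fromBlocks_inj, mul_one, mul_zero, add_zero,
    mul_neg, zero_add, one_mul, zero_mul, neg_mul, neg_neg, true_and] at e
  have k : ∀ X : M2 K, X = -X → X = 0 := fun X e => by
    rwa [eq_neg_iff_add_eq_zero, ← two_smul K, smul_eq_zero, or_iff_right h2] at e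
  conv_lhs => rw [← fromBlocks_toBlocks M, k _ e.1, k _ e.2.symm]

theorem bd_comm_zz (A B : M2 K) : bd A B * zz = zz * bd A B := by simp [fromBlocks_multiply]

theorem inv_nf [IsAlgClosed K] (hπ : Function.Injective π) (h2 : (2 : K) ≠ 0) (hg : g ^ 2 = 1)
    (h1 : g ≠ 1) (hr : ¬ Refl π g) : ∃ B, Rep (cb π B) g zz := by
  obtain ⟨M, hM, e⟩ := exists_rep_pow π two_pos hg
  rw [sq] at e
  have n1 : M ≠ 1 := fun e => h1 ((e ▸ hM).eq_one' hπ)
  have hM' : Rep π g (-M) := (hM.smul (neg_ne_zero.2 one_ne_zero)).congr (by simp)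
  have n2 : -M ≠ 1 := fun e => h1 ((e ▸ hM').eq_one' hπ)
  have r1 : ¬ (M - 1).rank ≤ 1 := fun r => hr (refl_of_rank hM e n1 r)
  have r2 : ¬ (-M - 1).rank ≤ 1 := fun r => hr (refl_of_rank hM' (by simpa using e) n2 r)
  set U := LinearMap.ker (M - 1).mulVecLin
  set W := LinearMap.ker (-M - 1).mulVecLin
  have l1 : LinearMap.range (-M - 1).mulVecLin ≤ U := by
    rw [LinearMap.range_le_ker_iff, ← mulVecLin_mul,
      show (M - 1) * (-M - 1) = 0 by noncomm_ring [e], mulVecLin_zero]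
  have l2 : LinearMap.range (M - 1).mulVecLin ≤ W := by
    rw [LinearMap.range_le_ker_iff, ← mulVecLin_mul,
      show (-M - 1) * (M - 1) = 0 by noncomm_ring [e], mulVecLin_zero]
  have mU : ∀ v ∈ U, M *ᵥ v = v := fun v hv => by
    simpa [U, sub_mulVec, sub_eq_zero] using hv
  have mW : ∀ v ∈ W, M *ᵥ v = -v := fun v hv => by
    simpa [W, sub_mulVec, neg_mulVec, sub_eq_zero, neg_eq_iff_eq_neg] using hv
  have hd : Disjoint U W := Submodule.disjoint_def.2 fun v hu hw => by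
    have := (mU v hu).symm.trans (mW v hw)
    rwa [eq_neg_iff_add_eq_zero, ← two_smul K, smul_eq_zero, or_iff_right h2] at this
  have d0 := Submodule.finrank_add_finrank_le_of_disjoint hd
  have d1 := Submodule.finrank_mono l1
  have d2 := Submodule.finrank_mono l2
  have : Module.finrank K (I4 → K) = 4 := by simp
  unfold Matrix.rank at r1 r2
  let b1 := Module.finBasisOfFinrankEq K U (n := 2) (by omega)
  let b2 := Module.finBasisOfFinrankEq K W (n := 2) (by omega)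
  have li := (b1.linearIndependent.map' U.subtype (by simp)).sum_type
    (b2.linearIndependent.map' W.subtype (by simp)) (hd.mono
      (Submodule.span_le.2 (by rintro _ ⟨i, rfl⟩; exact (b1 i).2))
      (Submodule.span_le.2 (by rintro _ ⟨i, rfl⟩; exact (b2 i).2)))
  obtain ⟨B, hB⟩ := (linearIndependent_cols_iff_isUnit
    (A := (Matrix.of (Sum.elim (U.subtype ∘ b1) (W.subtype ∘ b2)))ᵀ)).1 li
  refine ⟨B, hM.cb_of B ?_⟩
  rw [hB]
  ext i (j | j)
  · have := congrFun (mU _ (b1 j).2) i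
    simpa [mul_apply, mulVec, dotProduct, one_apply] using this
  · have := congrFun (mW _ (b2 j).2) i
    simpa [mul_apply, mulVec, dotProduct, one_apply] using this

theorem trace_eq_zero [IsAlgClosed K] (hπ : Function.Injective π) (h2 : (2 : K) ≠ 0)
    (hg : g ^ 2 = 1) (h1 : g ≠ 1) (hr : ¬ Refl π g) (hM : Rep π g M) : M.trace = 0 := by
  obtain ⟨B, hB⟩ := inv_nf hπ h2 hg h1 hr
  obtain ⟨c, -, rfl⟩ := (rep_cb_iff.1 hB).unique hM
  rw [trace_smul, trace_cj]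
  simp [trace]

theorem mem_C0_iff (h2 : (2 : K) ≠ 0) (hz : Rep π z zz) : g ∈ C0 π ↔ Com π g z := by
  refine ⟨fun ⟨A, B, h⟩ => ⟨_, _, h, hz, bd_comm_zz A B⟩, fun h => ?_⟩
  obtain ⟨M, hM⟩ := exists_rep π g
  exact ⟨_, _, hM.congr (comm_zz h2 (h.eq hM hz))⟩

theorem Cz_eq_C0 (h2 : (2 : K) ≠ 0) (hz : Rep π z zz) : Cz π z = C0 π := by
  ext g
  exact (mem_C0_iff h2 hz).symm

theorem anti_iff (h2 : (2 : K) ≠ 0) (hz : Rep π z zz) : Anti π g z ↔ ∃ A B, Rep π g (ad A B) := by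
  refine ⟨fun h => ?_, fun ⟨A, B, h⟩ => ⟨_, _, h, hz, by simp [fromBlocks_multiply, fromBlocks_neg]⟩⟩
  obtain ⟨M, hM⟩ := exists_rep π g
  exact ⟨_, _, hM.congr (anti_zz h2 (h.eq hM hz))⟩

theorem mem_Zc_iff (h2 : (2 : K) ≠ 0) (hz : Rep π z zz) :
    g ∈ Zc π z ↔ ∃ t : K, Rep π g (bd (t • 1) 1) := by
  refine ⟨fun h => ?_, fun ⟨t, h⟩ M Z N hM hZ e => ?_⟩
  · obtain ⟨A, B, hM⟩ := (mem_C0_iff h2 hz).2 (Zc_le_Cz z h)
    have k := fun i j => h _ _ (bd (single i j 1) (single i j 1)) hM hz (bd_comm_zz _ _)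
    simp only [bd_mul, fromBlocks_inj, true_and] at k
    obtain ⟨a, rfl⟩ := (mem_range_scalar_iff_commute_single' (M := A)).2 fun i j => (k i j).1
    obtain ⟨b, rfl⟩ := (mem_range_scalar_iff_commute_single' (M := B)).2 fun i j => (k i j).2
    have hb : b ≠ 0 := fun e => hM.det_ne (by simp [e])
    refine ⟨b⁻¹ * a, (hM.smul (inv_ne_zero hb)).congr (bd_eq_smul.2 ⟨?_, ?_⟩).symm⟩ <;>
      simp [scalar_apply, ← smul_one_eq_diagonal, smul_smul, hb]
  · obtain ⟨c, -, rfl⟩ := h.unique hM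
    obtain ⟨d, hd, rfl⟩ := hz.unique hZ
    rw [mul_smul_comm, smul_mul_assoc] at e
    rw [comm_zz h2 (smul_right_injective _ hd e)]
    simp [bd_mul]

theorem mem_Zc_iff_x (h2 : (2 : K) ≠ 0) (hz : Rep π z zz) (g : C0 π) :
    (g : G) ∈ Zc π z ↔ x1 π g = 1 ∧ x2 π g = 1 := by
  rw [mem_Zc_iff h2 hz]
  refine ⟨fun ⟨t, h⟩ => ⟨?_, ?_⟩, fun ⟨h1, h3⟩ => ?_⟩
  · have ht : t ≠ 0 := fun e => (rep_x1 h).ne_zero (by simp [e])
    simpa using (rep_x1 h).map_eq ((rep_one _).smul ht)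
  · simpa using (rep_x2 h).map_eq (rep_one _)
  · obtain ⟨A, B, h⟩ := g.2
    obtain ⟨x, rfl, e⟩ := rep_x1 h
    obtain ⟨y, rfl, e'⟩ := rep_x2 h
    rw [h1, ← ProjGenLinGroup.mk_one, mk_eq_mk_iff_smul] at e
    rw [h3, ← ProjGenLinGroup.mk_one, mk_eq_mk_iff_smul] at e'
    obtain ⟨a, -, e⟩ := e
    obtain ⟨b, hb, e'⟩ := e'
    refine ⟨b⁻¹ * a, (h.smul (inv_ne_zero hb)).congr (bd_eq_smul.2 ⟨?_, ?_⟩).symm⟩ <;>
      simp [e, e', smul_smul, hb]

theorem refl_blocks (h2 : (2 : K) ≠ 0) (hz : Rep π z zz) (hr : Refl π r) (hc : Com π r z) :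
    ∃ A : M2 K, A * A = 1 ∧ A.det = -1 ∧ (Rep π r (bd A 1) ∨ Rep π r (bd 1 A)) := by
  obtain ⟨v, φ, h0, h⟩ := hr
  have e1 : (1 + vecMulVec v φ) * (1 + vecMulVec v φ) = 1 := by
    rw [add_mul, mul_add, mul_add, vecMulVec_sq, h0]
    simp only [one_mul, mul_one]
    module
  have e2 : (1 + vecMulVec v φ).det = -1 := by
    rw [vecMulVec_eq Unit, det_one_add_replicateCol_mul_replicateRow, h0]
    norm_num
  have e := comm_zz h2 (hc.eq h hz)
  have k : ∀ i j, v (.inl i) * φ (.inr j) = 0 := fun i j => by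
    simpa [vecMulVec_apply] using congrFun (congrFun e (.inl i)) (.inr j)
  have : (1 + vecMulVec v φ).toBlocks₂₂ = 1 ∨ (1 + vecMulVec v φ).toBlocks₁₁ = 1 := by
    by_cases hv : ∀ i, v (.inl i) = 0
    · refine Or.inr ?_
      ext i j
      simp [toBlocks₁₁, vecMulVec_apply, hv, one_apply]
    · push Not at hv
      obtain ⟨i, hi⟩ := hv
      refine Or.inl ?_
      ext a j
      simp [toBlocks₂₂, vecMulVec_apply, (mul_eq_zero.1 (k i j)).resolve_left hi, one_apply]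
  rw [e] at e1 e2 h
  generalize (1 + vecMulVec v φ).toBlocks₁₁ = A, (1 + vecMulVec v φ).toBlocks₂₂ = B at *
  rw [bd_mul, ← fromBlocks_one, fromBlocks_inj] at e1
  rw [det_bd] at e2
  rcases this with t | t <;> rw [t] at e2 h
  · exact ⟨_, e1.1, by simpa using e2, Or.inl h⟩
  · exact ⟨_, e1.2.2.2, by simpa using e2, Or.inr h⟩

theorem frame_com [IsAlgClosed K] (hπ : Function.Injective π) (h2 : (2 : K) ≠ 0) (hz : Rep π z zz)
    (hy : y ^ 2 = 1) (h1 : y ≠ 1) (hne : y ≠ z) (hr : ¬ Refl π y) (hc : Com π y z) :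
    ∃ P Q, Rep (cb π (bdG P Q)) y (dg 1 (-1) 1 (-1)) := by
  obtain ⟨M, hM, e⟩ := exists_rep_pow π two_pos hy
  have e' := comm_zz h2 (hc.eq hM hz)
  generalize M.toBlocks₁₁ = A, M.toBlocks₂₂ = B at e'
  subst e'
  rw [sq, bd_mul, ← fromBlocks_one, fromBlocks_inj] at e
  have hN : Rep π y (bd (-A) (-B)) :=
    (hM.smul (neg_ne_zero.2 one_ne_zero)).congr (bd_eq_smul.2 ⟨by simp, by simp⟩).symm
  have dn : ∀ X : M2 K, (-X).det = X.det := fun X => by simp [det_neg]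
  rcases sq_eq_one_cases h2 e.1 with rfl | rfl | hA <;>
    rcases sq_eq_one_cases h2 e.2.2.2 with rfl | rfl | hB
  · exact absurd ((hM.congr fromBlocks_one).eq_one' hπ) h1
  · exact absurd (hM.eq hπ hz) hne
  · exact absurd (refl_of_right h2 e.2.2.2 hB hM) hr
  · exact absurd (Rep.eq hπ (by simpa using hN) hz) hne
  · exact absurd (Rep.eq_one' hπ (by simpa using hN)) h1
  · exact absurd (refl_of_right (A := -B) h2 (by simpa using e.2.2.2) (by rwa [dn])
      (by simpa using hN)) hr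
  · exact absurd (refl_of_left h2 e.1 hA hM) hr
  · exact absurd (refl_of_left (A := -A) h2 (by simpa using e.1) (by rwa [dn])
      (by simpa using hN)) hr
  · obtain ⟨P, hP⟩ := exists_d2 h2 e.1 hA
    obtain ⟨Q, hQ⟩ := exists_d2 h2 e.2.2.2 hB
    exact ⟨P, Q, (hM.bdG P Q).congr (by rw [hP, hQ])⟩

theorem frame_anti [IsAlgClosed K] (h2 : (2 : K) ≠ 0) (hz : Rep π z zz) (hy : y ^ 2 = 1)
    (hc : Anti π y z) : ∃ Q, Rep (cb π (bdG 1 Q)) y (ad 1 1) := by
  obtain ⟨M, hM, e⟩ := exists_rep_pow π two_pos hy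
  have e' := anti_zz h2 (hc.eq hM hz)
  generalize M.toBlocks₁₂ = A, M.toBlocks₂₁ = B at e'
  subst e'
  rw [sq, fromBlocks_multiply, ← fromBlocks_one, fromBlocks_inj] at e
  simp only [zero_mul, zero_add, mul_zero, add_zero, true_and] at e
  refine ⟨⟨B, A, e.2, e.1⟩, (hM.bdG_ad 1 _).congr ?_⟩
  simp [e.1]

/-- elements of `Zc` are polynomials in a representative -/
theorem Zc_poly [IsAlgClosed K] (hπ : Function.Injective π) (h2 : (2 : K) ≠ 0) (hz : z ^ 2 = 1)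
    (h1 : z ≠ 1) (hr : ¬ Refl π z) (hc : c ∈ Zc π z) {Z : M4 K} (hZ : Rep π z Z) :
    ∃ s t : K, Rep π c (s • 1 + t • Z) := by
  obtain ⟨B, hB⟩ := inv_nf hπ h2 hz h1 hr
  obtain ⟨t, ht⟩ := (mem_Zc_iff h2 hB).1 ((Zc_cb B).ge hc)
  obtain ⟨u, -, e⟩ := (hZ.cb B).unique hB
  refine ⟨(t + 1) / 2, (t - 1) / 2 * u, (rep_cb_iff.1 ht).congr ?_⟩
  have : bd (t • 1) 1 = ((t + 1) / 2) • (1 : M4 K) + ((t - 1) / 2) • zz := by
    ext (x | x) (y | y) <;> fin_cases x <;> fin_cases y <;> simp <;> field_simp <;> ring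
  rw [this, e, map_add, map_smul, map_smul, map_smul, map_one, cj_cj_inv, smul_smul]

theorem Zc_cyclic [IsAlgClosed K] [Finite G] (hπ : Function.Injective π) (h2 : (2 : K) ≠ 0)
    (hz : z ^ 2 = 1) (h1 : z ≠ 1) (hr : ¬ Refl π z) : IsCyclic (Zc π z) := by
  obtain ⟨B, hB⟩ := inv_nf hπ h2 hz h1 hr
  rw [← Zc_cb B]
  choose t ht using fun c : Zc (cb π B) z => (mem_Zc_iff h2 hB).1 c.2
  have u : ∀ {g : G} {a b : K}, Rep (cb π B) g (bd (a • 1) 1) → Rep (cb π B) g (bd (b • 1) 1) →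
      a = b := fun h h' => by
    obtain ⟨c, -, e⟩ := h.unique h'
    rw [bd_eq_smul] at e
    have e1 := congrFun (congrFun e.1 0) 0
    have e2 := congrFun (congrFun e.2 0) 0
    simp at e1 e2
    rw [e1, ← e2, one_mul]
  refine isCyclic_of_injective_ringHom (R := K) ⟨⟨t, ?_⟩, fun a b => ?_⟩ fun a b e => ?_
  · exact u (ht 1) ((rep_one _).congr (by simp))
  · exact u (ht _) (((ht a).mul (ht b)).congr (by simp [bd_mul, smul_smul, mul_comm]))
  · exact Subtype.ext ((ht a).eq (cb_injective hπ B) ((show t a = t b from e) ▸ ht b))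

theorem Zc_sq [IsAlgClosed K] (hπ : Function.Injective π) (h2 : (2 : K) ≠ 0) (hz : z ^ 2 = 1)
    (h1 : z ≠ 1) (hr : ¬ Refl π z) (hc : c ∈ Zc π z) (e : c ^ 2 = 1) : c = 1 ∨ c = z := by
  obtain ⟨B, hB⟩ := inv_nf hπ h2 hz h1 hr
  obtain ⟨t, ht⟩ := (mem_Zc_iff h2 hB).1 ((Zc_cb B).ge hc)
  obtain ⟨s, -, e'⟩ := ht.scalar_of_pow e
  rw [sq, bd_mul, ← fromBlocks_one, bd_eq_smul] at e'
  have e1 := congrFun (congrFun e'.1 0) 0
  have e2 := congrFun (congrFun e'.2 0) 0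
  simp at e1 e2
  rcases mul_self_eq_one_iff.1 (e1.trans e2.symm) with rfl | rfl
  · exact Or.inl (Rep.eq_one' (cb_injective hπ B) (by simpa using ht))
  · exact Or.inr (hB.eq_of_smul (cb_injective hπ B) (c := -1)
      (ht.congr (by simp [fromBlocks_neg]))).symm

theorem Zc_anti [IsAlgClosed K] (hπ : Function.Injective π) (h2 : (2 : K) ≠ 0) (hz : z ^ 2 = 1)
    (h1 : z ≠ 1) (hr : ¬ Refl π z) (hc : c ∈ Zc π z) (hw : Anti π w z) : w * c * w⁻¹ = c⁻¹ := by
  obtain ⟨B, hB⟩ := inv_nf hπ h2 hz h1 hr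
  obtain ⟨t, ht⟩ := (mem_Zc_iff h2 hB).1 ((Zc_cb B).ge hc)
  obtain ⟨X, Y, hw⟩ := (anti_iff h2 hB).1 ((anti_cb B).2 hw)
  rw [mul_inv_eq_iff_eq_mul, eq_inv_mul_iff_mul_eq]
  refine (hw.eq_of_smul (cb_injective hπ B) (c := t) ((ht.mul (hw.mul ht)).congr ?_)).symm
  simp [fromBlocks_multiply, fromBlocks_smul]

theorem Zc_four (hπ : Function.Injective π) (h2 : (2 : K) ≠ 0) (hz : Rep π z zz)
    (hc : c ∈ Zc π z) (e : c ^ 2 = z) : ∃ i : K, i ^ 2 = -1 ∧ Rep π c (dg i i 1 1) := by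
  obtain ⟨t, ht⟩ := (mem_Zc_iff h2 hz).1 hc
  obtain ⟨s, -, e'⟩ := hz.unique (e ▸ ht.pow 2)
  rw [sq, bd_mul, bd_eq_smul] at e'
  have e1 := congrFun (congrFun e'.1 0) 0
  have e2 := congrFun (congrFun e'.2 0) 0
  simp at e1 e2
  exact ⟨t, by linear_combination e1 + e2, ht.congr (by rw [dg, d2_smul, d2_one])⟩

/-- the fourth root of `y` in the frame of `z` and `y` -/
theorem Zc_four' (hπ : Function.Injective π) (h2 : (2 : K) ≠ 0) (hy : Rep π y (dg 1 (-1) 1 (-1)))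
    (hc : c ∈ Zc π y) (e : c ^ 2 = y) : ∃ i : K, i ^ 2 = -1 ∧ Rep π c (dg i 1 i 1) := by
  obtain ⟨i, hi, h⟩ := Zc_four (cb_injective hπ _) h2 (hy.s23.congr zz_eq.symm) ((Zc_cb _).ge hc) e
  exact ⟨i, hi, cb_s23_s23 (π := π) ▸ h.s23⟩

/-! ### the `Z*`-theorem -/

theorem Cx.exists_conj_mem [Finite G] (h : Cx π) (S : Sylow 2 G) (hz : z ^ 2 = 1) (h1 : z ≠ 1)
    (hS : z ∈ S) : ∃ k : G, k * z * k⁻¹ ∈ S ∧ k * z * k⁻¹ ≠ z := by
  by_contra! hc
  have : Fact (Nat.Prime 2) := ⟨Nat.prime_two⟩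
  have ho : orderOf z = 2 := orderOf_eq_prime hz h1
  obtain ⟨N, hN, h2, h3⟩ := Cfsg.Agent.S0215.result S z ho hS hc
  have := h.simple
  rcases hN.eq_bot_or_eq_top with rfl | rfl
  · have : z ∈ Subgroup.center G := Subgroup.mem_center_iff.2 fun g => by
      have := Subgroup.mem_bot.1 (h3 g)
      rw [mul_inv_eq_one, mul_inv_eq_iff_eq_mul] at this
      exact this.symm
    rcases (inferInstance : (Subgroup.center G).Normal).eq_bot_or_eq_top with e | e
    · exact h1 (Subgroup.mem_bot.1 (e ▸ this))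
    · exact h.nonab ⟨⟨fun a b => (Subgroup.mem_center_iff.1 (e ▸ Subgroup.mem_top b) a)⟩⟩
  · rw [Subgroup.card_top] at h2
    exact h2.not_two_dvd_nat (ho ▸ orderOf_dvd_natCard z)

theorem Cx.exists_partner [Finite G] (h : Cx π) (hz : z ^ 2 = 1) (h1 : z ≠ 1) :
    ∃ y, IsConj z y ∧ y ≠ z ∧ y * z = z * y := by
  have : Fact (Nat.Prime 2) := ⟨Nat.prime_two⟩
  have ho : orderOf z = 2 := orderOf_eq_prime hz h1
  obtain ⟨S, hS⟩ := (IsPGroup.of_card (p := 2) (G := Subgroup.zpowers z) (n := 1)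
    (by simp [ho])).exists_le_sylow
  have hS := hS (Subgroup.mem_zpowers z)
  let T : Subgroup S := Subgroup.centralizer {⟨z, hS⟩}
  by_cases hT : T = ⊤
  · obtain ⟨k, h2, h3⟩ := h.exists_conj_mem S hz h1 hS
    refine ⟨_, isConj_iff.2 ⟨k, rfl⟩, h3, ?_⟩
    exact congrArg Subtype.val (Subgroup.mem_centralizer_singleton_iff.1
      (show (⟨_, h2⟩ : S) ∈ T from hT ▸ trivial))
  · have := S.2.isNilpotent
    obtain ⟨n, hn, hn'⟩ := SetLike.exists_of_lt
      (Group.normalizerCondition_of_isNilpotent T (lt_top_iff_ne_top.2 hT))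
    have hzT : (⟨z, hS⟩ : S) ∈ T := Subgroup.mem_centralizer_singleton_iff.2 rfl
    refine ⟨_, isConj_iff.2 ⟨n, rfl⟩, fun e => hn' ?_, ?_⟩
    · exact Subgroup.mem_centralizer_singleton_iff.2 (Subtype.ext (mul_inv_eq_iff_eq_mul.1 e))
    · exact congrArg Subtype.val (Subgroup.mem_centralizer_singleton_iff.1
        ((Subgroup.mem_normalizer_iff.1 hn _).1 hzT))

end CfsgLib.D4
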