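import Cfsg.Agent.Lib.D4.Defs

/-! Change of basis, commuting and anticommuting elements in `PGL₄(K)`.  See `plans/D4.md`. -/

set_option autoImplicit false

namespace CfsgLib.D4

open Matrix Cfsg Cfsg.Geo CfsgLib.Asch
open scoped MatrixGroups commutatorElement

variable {G K : Type*} [Group G] [Field K] {π : G →* PG4 K} {a b c g r w y z : G} {M N : M4 K}

/-! ### change of basis -/

theorem refl_cb (B : GL I4 K) : Refl (cb π B) g ↔ Refl π g := by
  have key : ∀ {π : G →* PG4 K} (B : GL I4 K), Refl (cb π B) g → Refl π g :=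
    fun B ⟨v, φ, h0, h⟩ => by
      rw [rep_cb_iff, cj_one_add_vecMulVec] at h
      exact ⟨_, _, by rw [dot_cj, h0], h⟩
  refine ⟨key B, fun ⟨v, φ, h0, h⟩ => ?_⟩
  have := h.cb B
  rw [cj_one_add_vecMulVec] at this
  exact ⟨_, _, by rw [dot_cj, h0], this⟩

theorem NR.cb (h : NR π) (B : GL I4 K) : NR (cb π B) := by
  exact fun g e => h g ((refl_cb B).1 e)

theorem Cx.cb (h : Cx π) (B : GL I4 K) : Cx (cb π B) := by
  refine ⟨h.simple, h.nonab, cb_injective h.inj B, ?_, fun g v φ h0 hr => ?_⟩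
  · rw [eq_top_iff]
    intro M _
    have : cj B M ∈ Submodule.span K {M | ∃ g, Rep π g M} := h.irr ▸ Submodule.mem_top
    have := Submodule.mem_map_of_mem (f := (cj B⁻¹).toLinearMap) this
    rw [Submodule.map_span] at this
    simp only [AlgEquiv.toLinearMap_apply, cj_inv_cj] at this
    refine Submodule.span_mono ?_ this
    rintro _ ⟨N, ⟨g, hg⟩, rfl⟩
    exact ⟨g, hg.cb B⟩
  · rw [rep_cb_iff, cj_one_add_vecMulVec] at hr
    have := h.nt g _ _ (by rw [dot_cj, h0]) hr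
    rw [← Matrix.vecMulVec_mul, ← Matrix.mul_vecMulVec, ← cj_apply] at this
    exact (cj B).injective (this.trans (map_zero _).symm)

theorem cb_cb (B C : GL I4 K) : cb (cb π B) C = cb π (B * C) := by
  ext g
  simp [cb, mul_assoc]

theorem com_cb (B : GL I4 K) : Com (cb π B) a b ↔ Com π a b := by
  refine ⟨fun ⟨A, C, h1, h2, e⟩ => ⟨_, _, rep_cb_iff.1 h1, rep_cb_iff.1 h2, ?_⟩,
    fun ⟨A, C, h1, h2, e⟩ => ⟨_, _, h1.cb B, h2.cb B, ?_⟩⟩ <;> rw [← map_mul, e, map_mul]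

theorem anti_cb (B : GL I4 K) : Anti (cb π B) a b ↔ Anti π a b := by
  refine ⟨fun ⟨A, C, h1, h2, e⟩ => ⟨_, _, rep_cb_iff.1 h1, rep_cb_iff.1 h2, ?_⟩,
    fun ⟨A, C, h1, h2, e⟩ => ⟨_, _, h1.cb B, h2.cb B, ?_⟩⟩ <;> rw [← map_mul, e, map_neg, map_mul]

theorem Cz_cb (B : GL I4 K) : Cz (cb π B) z = Cz π z := by
  ext g
  exact com_cb B

theorem Zc_cb (B : GL I4 K) : Zc (cb π B) z = Zc π z := by
  ext g
  refine ⟨fun h M Z N hM hZ e => (cj B⁻¹).injective ?_, fun h M Z N hM hZ e => (cj B).injective ?_⟩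
  · rw [map_mul, map_mul]
    exact h _ _ _ (hM.cb B) (hZ.cb B) (by rw [← map_mul, e, map_mul])
  · rw [map_mul, map_mul]
    exact h _ _ _ (rep_cb_iff.1 hM) (rep_cb_iff.1 hZ) (by rw [← map_mul, e, map_mul])

theorem Rep.bdG {A B : M2 K} (h : Rep π g (bd A B)) (P Q : GL (Fin 2) K) :
    Rep (D4.cb π (bdG P Q)) g (bd (cj P⁻¹ A) (cj Q⁻¹ B)) := by
  refine h.cb_of _ ?_
  simp [D4.bdG, fromBlocks_multiply, cj_apply, ← mul_assoc]

theorem Rep.bdG_ad {A B : M2 K} (h : Rep π g (ad A B)) (P Q : GL (Fin 2) K) :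
    Rep (D4.cb π (D4.bdG P Q)) g (ad ((P⁻¹ : GL (Fin 2) K) * A * Q) ((Q⁻¹ : GL (Fin 2) K) * B * P)) := by
  refine h.cb_of _ ?_
  simp [D4.bdG, fromBlocks_multiply, ← mul_assoc]

theorem Rep.bdG_zz (h : Rep π z zz) (P Q : GL (Fin 2) K) : Rep (D4.cb π (D4.bdG P Q)) z zz := by
  simpa using h.bdG P Q

theorem Rep.swG {A B : M2 K} (h : Rep π g (bd A B)) : Rep (D4.cb π swG) g (bd B A) := by
  refine h.cb_of _ ?_
  simp [D4.swG, fromBlocks_multiply]

theorem Rep.swG_ad {A B : M2 K} (h : Rep π g (ad A B)) : Rep (D4.cb π D4.swG) g (ad B A) := by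
  refine h.cb_of _ ?_
  simp [D4.swG, fromBlocks_multiply]

theorem Rep.swG_zz (h : Rep π z zz) : Rep (D4.cb π D4.swG) z zz := by
  refine (h.swG.smul (neg_ne_zero.2 one_ne_zero)).congr ?_
  simp [fromBlocks_neg]

theorem cb_swG_swG : cb (cb π swG) swG = π := by
  have : (swG : GL I4 K) * swG = 1 := Units.ext (by simp [swG, fromBlocks_multiply])
  rw [cb_cb, this]
  ext g
  simp [cb]

theorem range_x1_swG : (x1 (cb π swG)).range = (x2 π).range := by
  ext x
  constructor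
  · rintro ⟨g, rfl⟩
    obtain ⟨A, B, h⟩ := g.2
    have h' := h.swG
    rw [cb_swG_swG] at h'
    obtain ⟨u, hu, e⟩ := rep_x1 h
    obtain ⟨v, hv, e'⟩ := rep_x2 (π := π) (g := ⟨g, _, _, h'⟩) h'
    exact ⟨_, by rw [e', e, Units.ext (hv.trans hu.symm)]⟩
  · rintro ⟨g, rfl⟩
    obtain ⟨A, B, h⟩ := g.2
    obtain ⟨u, hu, e⟩ := rep_x2 h
    obtain ⟨v, hv, e'⟩ := rep_x1 (π := cb π swG) (g := ⟨g, _, _, h.swG⟩) h.swG
    exact ⟨_, by rw [e', e, Units.ext (hv.trans hu.symm)]⟩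

/-- permutation of the basis -/
def permG (σ : Equiv.Perm I4) : GL I4 K :=
  ⟨(1 : M4 K).submatrix id σ, (1 : M4 K).submatrix σ id,
    by simp,
    by simpa using submatrix_mul_equiv (1 : M4 K) 1 σ (Equiv.refl _) σ⟩

theorem Rep.permG (h : Rep π g M) (σ : Equiv.Perm I4) :
    Rep (D4.cb π (permG σ)) g (M.submatrix σ σ) := by
  refine h.cb_of _ ?_
  have h1 := submatrix_mul_equiv M (1 : M4 K) id (Equiv.refl _) σ
  have h2 := submatrix_mul_equiv (1 : M4 K) M id σ σ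
  simp only [mul_one, one_mul] at h1 h2
  exact h1.trans h2.symm

/-- the exchange of the second and the third basis vector -/
abbrev s23 : Equiv.Perm I4 := Equiv.swap (.inl 1) (.inr 0)

omit [Field K] in
theorem submatrix_s23 (a b c d e f g h i j k l m n o p : K) :
    (fromBlocks !![a, b; c, d] !![e, f; g, h] !![i, j; k, l] !![m, n; o, p]).submatrix s23 s23 =
      fromBlocks !![a, e; i, m] !![b, f; j, n] !![c, g; k, o] !![d, h; l, p] := by
  ext (x | x) (y | y) <;> fin_cases x <;> fin_cases y <;> rfl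

theorem dg_s23 (a b c d : K) : (dg a b c d).submatrix s23 s23 = dg a c b d := by
  ext (x | x) (y | y) <;> fin_cases x <;> fin_cases y <;> rfl

theorem Rep.s23 {a b c d : K} (h : Rep π g (dg a b c d)) :
    Rep (D4.cb π (D4.permG D4.s23)) g (dg a c b d) := (h.permG D4.s23).congr (dg_s23 ..)

theorem cb_s23_s23 : cb (cb π (permG s23)) (permG s23) = π := by
  have : (permG s23 : GL I4 K) * permG s23 = 1 := Units.ext (by
    have := submatrix_mul_equiv (1 : M4 K) ((1 : M4 K).submatrix s23 s23) id s23 id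
    ext (x | x) (y | y) <;> fin_cases x <;> fin_cases y <;>
      simp [permG, mul_apply, one_apply, Equiv.swap_apply_def])
  rw [cb_cb, this]
  ext g
  simp [cb]

theorem d2_one : (d2 1 1 : M2 K) = 1 := one_fin_two.symm

theorem d2_smul (t : K) : (d2 t t : M2 K) = t • 1 := by
  ext i j; fin_cases i <;> fin_cases j <;> simp

theorem zz_eq : (zz : M4 K) = dg 1 1 (-1) (-1) := by
  rw [dg, d2_one, d2_smul, neg_smul, one_smul]

theorem dg_eq_diagonal (a b c d : K) : dg a b c d = diagonal (Sum.elim ![a, b] ![c, d]) := by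
  ext (x | x) (y | y) <;> fin_cases x <;> fin_cases y <;> simp

/-! ### commuting and anticommuting -/

theorem Com.symm (h : Com π a b) : Com π b a := by
  obtain ⟨A, B, h1, h2, e⟩ := h
  exact ⟨B, A, h2, h1, e.symm⟩

theorem Anti.symm (h : Anti π a b) : Anti π b a := by
  obtain ⟨A, B, h1, h2, e⟩ := h
  exact ⟨B, A, h2, h1, by rw [e, neg_neg]⟩

theorem Com.comm (hπ : Function.Injective π) (h : Com π a b) : a * b = b * a := by
  obtain ⟨A, B, h1, h2, e⟩ := h
  exact h1.commute hπ h2 e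

theorem Anti.comm (hπ : Function.Injective π) (h : Anti π a b) : a * b = b * a := by
  obtain ⟨A, B, h1, h2, e⟩ := h
  exact ((h2.mul h1).eq_of_smul hπ (c := -1) ((h1.mul h2).congr (by simp [e]))).symm

theorem Com.not_anti (h2 : (2 : K) ≠ 0) (h : Com π a b) : ¬ Anti π a b := by
  intro h'
  obtain ⟨A, B, h1, h3, e⟩ := h
  have e' := h'.eq h1 h3
  rw [← e, eq_neg_iff_add_eq_zero, ← two_smul K, smul_eq_zero] at e'
  exact e'.elim h2 (h1.mul h3).ne_zero

theorem com_self (a : G) : Com π a a := by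
  obtain ⟨A, h⟩ := exists_rep π a
  exact ⟨A, A, h, h, rfl⟩

theorem com_or_anti (hz : z ^ 2 = 1) (e : g * z = z * g) : Com π g z ∨ Anti π g z := by
  obtain ⟨A, hA⟩ := exists_rep π g
  obtain ⟨Z, hZ⟩ := exists_rep π z
  obtain ⟨c, -, hc⟩ := hA.comm_smul hZ e
  obtain ⟨s, hs, e2⟩ := hZ.scalar_of_pow hz
  have h1 : A * (Z * Z) = (c * c) • (Z * Z * A) := by
    rw [← mul_assoc, hc, smul_mul_assoc, mul_assoc, hc, mul_smul_comm, smul_smul, mul_assoc]
  rw [← sq Z, e2, mul_smul_comm, smul_mul_assoc, mul_one, one_mul, smul_smul] at h1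
  have h3 : c * c = 1 := by
    have := smul_left_injective K hA.ne_zero h1
    exact mul_right_cancel₀ hs (this.symm.trans (one_mul _).symm)
  rcases mul_self_eq_one_iff.1 h3 with rfl | rfl
  · exact Or.inl ⟨A, Z, hA, hZ, by simpa using hc⟩
  · exact Or.inr ⟨A, Z, hA, hZ, by simpa using hc⟩

theorem com_of_odd {n : ℕ} (hn : Odd n) (ha : a ^ n = 1) (e : a * b = b * a) : Com π a b := by
  obtain ⟨A, hA⟩ := exists_rep π a
  obtain ⟨B, hB⟩ := exists_rep π b
  obtain ⟨c, h4, hc⟩ := hA.comm_smul hB e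
  obtain ⟨s, hs, e2⟩ := hA.scalar_of_pow ha
  have h1 : ∀ k : ℕ, A ^ k * B = c ^ k • (B * A ^ k) := fun k => by
    induction k with
    | zero => simp
    | succ k ih => rw [pow_succ', mul_assoc, ih, mul_smul_comm, ← mul_assoc, hc, smul_mul_assoc,
        smul_smul, mul_assoc, pow_succ c]
  have h2 := h1 n
  rw [e2, mul_smul_comm, smul_mul_assoc, mul_one, one_mul, smul_smul] at h2
  have h3 : c ^ n = 1 := by
    have := smul_left_injective K hB.ne_zero h2
    exact mul_right_cancel₀ hs (this.symm.trans (one_mul _).symm)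
  have h5 : c = 1 := by
    have := (pow_gcd_eq_one (a := c)).2 ⟨h3, h4⟩
    have hc : Nat.gcd n (Fintype.card I4) = 1 := by
      have : Fintype.card I4 = 2 ^ 2 := by simp
      rw [this]
      exact Nat.Coprime.pow_right 2 (Nat.coprime_two_right.2 hn)
    rwa [hc, pow_one] at this
  exact ⟨A, B, hA, hB, by simpa [h5] using hc⟩

theorem Com.mul (h1 : Com π a z) (h2 : Com π b z) : Com π (a * b) z := by
  exact (Cz π z).mul_mem h1 h2

theorem Com.inv (h : Com π a z) : Com π a⁻¹ z := by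
  exact (Cz π z).inv_mem h

theorem Com.mul_anti (h1 : Com π a z) (h2 : Anti π b z) : Anti π (a * b) z := by
  obtain ⟨A, Z, hA, hZ, e⟩ := h1
  obtain ⟨B, hB⟩ := exists_rep π b
  exact ⟨_, Z, hA.mul hB, hZ, by rw [mul_assoc, h2.eq hB hZ, mul_neg, ← mul_assoc, e, mul_assoc]⟩

theorem Anti.mul_com (h1 : Anti π a z) (h2 : Com π b z) : Anti π (a * b) z := by
  obtain ⟨A, Z, hA, hZ, e⟩ := h1
  obtain ⟨B, hB⟩ := exists_rep π b
  exact ⟨_, Z, hA.mul hB, hZ, by rw [mul_assoc, h2.eq hB hZ, ← mul_assoc, e, neg_mul, mul_assoc]⟩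

theorem Anti.mul_anti (h1 : Anti π a z) (h2 : Anti π b z) : Com π (a * b) z := by
  obtain ⟨A, Z, hA, hZ, e⟩ := h1
  obtain ⟨B, hB⟩ := exists_rep π b
  exact ⟨_, Z, hA.mul hB, hZ, by
    rw [mul_assoc, h2.eq hB hZ, mul_neg, ← mul_assoc, e, neg_mul, neg_neg, mul_assoc]⟩

theorem Anti.inv (h : Anti π a z) : Anti π a⁻¹ z := by
  obtain ⟨A, Z, hA, hZ, e⟩ := h
  refine ⟨A⁻¹, Z, hA.inv, hZ, ?_⟩
  have e' : Z * A = -(A * Z) := by rw [e, neg_neg]
  rw [← mul_one (A⁻¹ * Z), ← hA.mul_inv, ← mul_assoc, mul_assoc _ Z, e', mul_neg, ← mul_assoc,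
    hA.inv_mul, one_mul, neg_mul]

theorem Com.conj (h : Com π a b) (k : G) : Com π (k * a * k⁻¹) (k * b * k⁻¹) := by
  obtain ⟨A, B, hA, hB, e⟩ := h
  obtain ⟨C, hC⟩ := exists_rep π k
  refine ⟨_, _, hC.conj hA, hC.conj hB, ?_⟩
  have : ∀ X : M4 K, C⁻¹ * (C * X) = X := fun X => by rw [← mul_assoc, hC.inv_mul, one_mul]
  simp only [mul_assoc, this]
  rw [← mul_assoc A, e, mul_assoc]

theorem Anti.conj (h : Anti π a b) (k : G) : Anti π (k * a * k⁻¹) (k * b * k⁻¹) := by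
  obtain ⟨A, B, hA, hB, e⟩ := h
  obtain ⟨C, hC⟩ := exists_rep π k
  refine ⟨_, _, hC.conj hA, hC.conj hB, ?_⟩
  have : ∀ X : M4 K, C⁻¹ * (C * X) = X := fun X => by rw [← mul_assoc, hC.inv_mul, one_mul]
  simp only [mul_assoc, this]
  rw [← mul_assoc A, e, neg_mul, mul_neg, mul_assoc]

/-- an anticommuting partner forces trace zero -/
theorem Anti.trace (h2 : (2 : K) ≠ 0) (h : Anti π a b) (ha : Rep π a M) : M.trace = 0 := by
  obtain ⟨B, hB⟩ := exists_rep π b
  have e := h.eq ha hB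
  have : M.trace = -M.trace := by
    conv_lhs => rw [← mul_one M, ← hB.mul_inv, ← mul_assoc, e, neg_mul, trace_neg, trace_mul_comm,
      ← mul_assoc, hB.inv_mul, one_mul]
  rw [eq_neg_iff_add_eq_zero, ← two_mul, mul_eq_zero] at this
  exact this.resolve_left h2

theorem conj_mem_Cz (h : g ∈ Cz π z) (k : G) : k * g * k⁻¹ ∈ Cz π (k * z * k⁻¹) := by
  exact Com.conj h k

theorem conj_mem_Zc (h : g ∈ Zc π z) (k : G) : k * g * k⁻¹ ∈ Zc π (k * z * k⁻¹) := by
  intro M Z N hM hZ e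
  obtain ⟨C, hC⟩ := exists_rep π k
  have h1 := hC.inv.mul (hM.mul hC)
  have h2 := hC.inv.mul (hZ.mul hC)
  simp only [mul_assoc, inv_mul_cancel_left, inv_mul_cancel, mul_one] at h1 h2
  have t : ∀ X : M4 K, C * (C⁻¹ * X) = X := fun X => by rw [← mul_assoc, hC.mul_inv, one_mul]
  have := h _ _ (C⁻¹ * (N * C)) h1 h2 (by simp only [mul_assoc, t]; rw [← mul_assoc N, e, mul_assoc])
  simp only [mul_assoc, t] at this
  have := congrArg (fun X => C * X * C⁻¹) this
  simpa only [mul_assoc, t, hC.mul_inv, mul_one] using this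

theorem conj_mem_Lz (h : g ∈ Lz π z) (k : G) : k * g * k⁻¹ ∈ Lz π (k * z * k⁻¹) := by
  have : (Lz π z).map (MulAut.conj k).toMonoidHom ≤ Lz π (k * z * k⁻¹) := by
    rw [Subgroup.map_commutator]
    refine Subgroup.commutator_mono ?_ ?_ <;> rintro _ ⟨x, hx, rfl⟩ <;> exact conj_mem_Cz hx k
  exact this ⟨g, h, rfl⟩

theorem self_mem_Zc (z : G) : z ∈ Zc π z := by
  intro M Z N hM hZ e
  obtain ⟨c, -, rfl⟩ := hZ.unique hM
  rw [mul_smul_comm, smul_mul_assoc, e]

theorem Zc_le_Cz (z : G) : Zc π z ≤ Cz π z := by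
  intro g hg
  obtain ⟨M, hM⟩ := exists_rep π g
  obtain ⟨Z, hZ⟩ := exists_rep π z
  exact ⟨M, Z, hM, hZ, (hg M Z Z hM hZ rfl).symm⟩

theorem Com.zc (h : Com π g z) (hc : c ∈ Zc π z) : Com π g c := by
  obtain ⟨A, Z, hA, hZ, e⟩ := h
  obtain ⟨C, hC⟩ := exists_rep π c
  exact ⟨A, C, hA, hC, hc C Z A hC hZ e⟩

/-! ### irreducibility -/

theorem Cx.scalar (h : Cx π) {s : Set G} (hs : Subgroup.closure s = ⊤) {Z : M4 K}
    (hZ : ∀ g ∈ s, ∃ M, Rep π g M ∧ Z * M = M * Z) : ∃ c : K, Z = c • 1 := by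
  have h1 : ∀ g ∈ Subgroup.closure s, ∀ M, Rep π g M → Z * M = M * Z := fun g hg => by
    induction hg using Subgroup.closure_induction with
    | mem g hg =>
      intro M hM
      obtain ⟨N, hN, e⟩ := hZ g hg
      obtain ⟨c, -, rfl⟩ := hN.unique hM
      rw [mul_smul_comm, smul_mul_assoc, e]
    | one => intro M hM; obtain ⟨c, -, rfl⟩ := hM.scalar_of_one; simp
    | mul a b _ _ ha hb =>
      intro M hM
      obtain ⟨A, hA⟩ := exists_rep π a
      obtain ⟨B, hB⟩ := exists_rep π b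
      obtain ⟨c, -, rfl⟩ := (hA.mul hB).unique hM
      rw [mul_smul_comm, smul_mul_assoc, ← mul_assoc, ha A hA, mul_assoc, hb B hB, mul_assoc]
    | inv a _ ha =>
      intro M hM
      have h1 := hM.inv
      rw [inv_inv] at h1
      rw [← mul_one (M * Z), ← hM.inv_mul, ← mul_assoc, mul_assoc M, ha _ h1, ← mul_assoc,
        hM.mul_inv, one_mul]
  have h2 : ∀ M ∈ Submodule.span K {M | ∃ g, Rep π g M}, Z * M = M * Z := fun M hM => by
    induction hM using Submodule.span_induction with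
    | mem M hM => exact hM.elim fun g hg => h1 g (hs ▸ trivial) M hg
    | zero => simp
    | add _ _ _ _ ha hb => rw [mul_add, add_mul, ha, hb]
    | smul _ _ _ ha => rw [mul_smul_comm, smul_mul_assoc, ha]
  obtain ⟨c, hc⟩ := (mem_range_scalar_iff_commute_single' (M := Z)).2 fun i j =>
    (h2 _ (h.irr ▸ trivial)).symm
  exact ⟨c, by rw [← hc, scalar_apply, smul_one_eq_diagonal]⟩

theorem Cx.irr_sub [Finite G] (h : Cx π) {s : Set G} (hs : Subgroup.closure s = ⊤)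
    (W : Submodule K (I4 → K)) (hW : ∀ g ∈ s, ∃ M, Rep π g M ∧ ∀ v ∈ W, M *ᵥ v ∈ W) :
    W = ⊥ ∨ W = ⊤ := by
  have h1 : ∀ g ∈ Subgroup.closure s, ∃ M, Rep π g M ∧ ∀ v ∈ W, M *ᵥ v ∈ W := fun g hg => by
    induction hg using Subgroup.closure_induction with
    | mem g hg => exact hW g hg
    | one => exact ⟨1, rep_one π, by simp⟩
    | mul a b _ _ ha hb =>
      obtain ⟨A, hA, ha⟩ := ha
      obtain ⟨B, hB, hb⟩ := hb
      exact ⟨_, hA.mul hB, fun v hv => mulVec_mulVec v A B ▸ ha _ (hb v hv)⟩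
    | inv a _ ha =>
      obtain ⟨A, hA, ha⟩ := ha
      have e : a⁻¹ = a ^ (orderOf a - 1) := by
        rw [inv_eq_iff_mul_eq_one, ← pow_succ', Nat.sub_add_cancel (orderOf_pos a), pow_orderOf_eq_one]
      refine ⟨_, e ▸ hA.pow _, ?_⟩
      induction orderOf a - 1 with
      | zero => simp
      | succ n ih => exact fun v hv => pow_succ A n ▸ mulVec_mulVec v _ A ▸ ih _ (ha v hv)
  have h2 : ∀ M ∈ Submodule.span K {M | ∃ g, Rep π g M}, ∀ v ∈ W, M *ᵥ v ∈ W := fun M hM v hv => by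
    induction hM using Submodule.span_induction with
    | mem M hM =>
      obtain ⟨g, hg⟩ := hM
      obtain ⟨N, hN, e⟩ := h1 g (hs ▸ trivial)
      obtain ⟨c, -, rfl⟩ := hN.unique hg
      exact smul_mulVec c N v ▸ W.smul_mem c (e v hv)
    | zero => simp
    | add _ _ _ _ ha hb => exact add_mulVec _ _ v ▸ W.add_mem ha hb
    | smul c A _ ha => exact smul_mulVec c A v ▸ W.smul_mem c ha
  refine (eq_or_ne W ⊥).imp_right fun h0 => eq_top_iff.2 fun u _ => ?_
  obtain ⟨v, hv, h0⟩ := (Submodule.ne_bot_iff W).1 h0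
  obtain ⟨i, hi⟩ := Function.ne_iff.1 h0
  have := h2 (vecMulVec u (Pi.single i (v i)⁻¹)) (h.irr ▸ trivial) v hv
  rwa [vecMulVec_mulVec, single_dotProduct, inv_mul_cancel₀ hi, MulOpposite.op_one, one_smul] at this

theorem Cx.not_solvable (h : Cx π) : ¬ Group.IsSolvable G := by
  intro hs
  have := h.simple
  exact h.nonab ⟨⟨IsSimpleGroup.comm_iff_isSolvable.2 hs⟩⟩

theorem Cx.perfect (h : Cx π) : commutator G = ⊤ := by
  have := h.simple
  refine (IsSimpleGroup.eq_bot_or_eq_top_of_normal _ inferInstance).resolve_left fun e => ?_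
  rw [commutator_eq_bot_iff_center_eq_top] at e
  exact h.nonab ⟨⟨fun a b => (Subgroup.mem_center_iff.1 (e ▸ Subgroup.mem_top b) a)⟩⟩

theorem exists_vecMulVec_of_rank {ι : Type} [Fintype ι] [DecidableEq ι] {A : Matrix ι ι K}
    (h : A.rank ≤ 1) : ∃ v φ : ι → K, A = vecMulVec v φ := by
  obtain ⟨v, hv⟩ := finrank_le_one_iff.1 h
  choose φ hφ using fun j => hv ⟨_, Pi.single j 1, rfl⟩
  refine ⟨v, φ, ?_⟩
  ext i j
  have := congrFun (congrArg Subtype.val (hφ j)) i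
  simp only [SetLike.val_smul, Pi.smul_apply, smul_eq_mul, mulVecLin_apply, mulVec_single_one,
    col_apply] at this
  rw [vecMulVec_apply, ← this, mul_comm]

theorem exists_vecMulVec_two {A : M2 K} (h : A.det = 0) : ∃ v φ : Fin 2 → K, A = vecMulVec v φ := by
  refine exists_vecMulVec_of_rank (Nat.le_of_lt_succ ?_)
  obtain ⟨v, hv, e⟩ := exists_mulVec_eq_zero_iff.2 h
  have h1 := A.mulVecLin.finrank_range_add_finrank_ker
  have h2 : 0 < Module.finrank K (LinearMap.ker A.mulVecLin) :=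
    Module.finrank_pos_iff_exists_ne_zero.2 ⟨⟨v, e⟩, fun e => hv (congrArg Subtype.val e)⟩
  rw [Module.finrank_fin_fun] at h1
  unfold Matrix.rank
  omega

theorem vecMulVec_sq {ι : Type} [Fintype ι] (v φ : ι → K) :
    vecMulVec v φ * vecMulVec v φ = (φ ⬝ᵥ v) • vecMulVec v φ := by
  rw [vecMulVec_mul_vecMulVec, vecMulVec_smul]

theorem Cx.eq_zero_of_vecMulVec (h : Cx π) {v φ : I4 → K} (e : N = vecMulVec v φ) (hN : N * N = 0)
    (hg : Rep π g (1 + N)) : N = 0 := by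
  subst e
  rw [vecMulVec_sq, smul_eq_zero] at hN
  exact hN.elim (fun e => h.nt g v φ e hg) id

theorem bd_vecMulVec_left (v φ : Fin 2 → K) :
    bd (vecMulVec v φ) 0 = vecMulVec (Sum.elim v 0) (Sum.elim φ 0) := by
  ext (x | x) (y | y) <;> simp [vecMulVec_apply]

theorem bd_vecMulVec_right (v φ : Fin 2 → K) :
    bd 0 (vecMulVec v φ) = vecMulVec (Sum.elim 0 v) (Sum.elim 0 φ) := by
  ext (x | x) (y | y) <;> simp [vecMulVec_apply]

theorem one_add_bd (A B : M2 K) : 1 + bd A B = bd (1 + A) (1 + B) := by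
  rw [← fromBlocks_one, fromBlocks_add]
  simp

/-- a unipotent block matrix with one trivial block is trivial -/
theorem Cx.eq_zero_left (h : Cx π) {A : M2 K} (hA : A * A = 0) (hg : Rep π g (bd (1 + A) 1)) :
    A = 0 := by
  obtain ⟨v, φ, rfl⟩ := exists_vecMulVec_two (A := A)
    (by simpa using congrArg det hA)
  have := h.eq_zero_of_vecMulVec (bd_vecMulVec_left v φ) (by rw [bd_mul, hA]; simp)
    (hg.congr (by rw [one_add_bd, add_zero]))
  rw [← fromBlocks_zero, fromBlocks_inj] at this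
  exact this.1

theorem Cx.eq_zero_right (h : Cx π) {A : M2 K} (hA : A * A = 0) (hg : Rep π g (bd 1 (1 + A))) :
    A = 0 := by
  exact (h.cb swG).eq_zero_left hA hg.swG

/-- a square-zero matrix of rank at most one -/
theorem Cx.eq_zero_of_rank (h : Cx π) (hN : N * N = 0) (hg : Rep π g (1 + N)) (hr : N.rank ≤ 1) :
    N = 0 := by
  obtain ⟨v, φ, e⟩ := exists_vecMulVec_of_rank hr
  exact h.eq_zero_of_vecMulVec e hN hg

end CfsgLib.D4
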