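import Cfsg.Agent.Lib.D4.Mono

/-! Elements of order five normalising a `2`-group.  See `plans/D4.md`. -/

set_option autoImplicit false

namespace CfsgLib.D4

open Matrix Cfsg Cfsg.Geo CfsgLib.Asch
open scoped MatrixGroups commutatorElement

variable {G K : Type*} [Group G] [Finite G] [Field K] [IsAlgClosed K] {π : G →* PG4 K}

namespace C10

omit [Finite G]

theorem eq_one {T : Subgroup G} (hT : IsPGroup 2 T) {u : G} (hu : u ∈ T) (h5 : u ^ 5 = 1) : u = 1 := by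
  obtain ⟨k, hk⟩ := hT ⟨u, hu⟩
  exact orderOf_eq_one_iff.1 (Nat.eq_one_of_dvd_coprimes (Nat.Coprime.pow_right k (by norm_num))
    (orderOf_dvd_of_pow_eq_one h5) (orderOf_dvd_of_pow_eq_one (congrArg Subtype.val hk : u ^ 2 ^ k = 1)))

theorem step {T : Subgroup G} (hT : IsPGroup 2 T) {x t : G} (h5 : x ^ 5 = 1) (hu : t⁻¹ * (x * t * x⁻¹) ∈ T)
    (e : Commute x (t⁻¹ * (x * t * x⁻¹))) : x * t = t * x := by
  obtain ⟨u, hu'⟩ : ∃ u, u = t⁻¹ * (x * t * x⁻¹) := ⟨_, rfl⟩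
  rw [← hu'] at hu e
  have k : x * t = t * u * x := by rw [hu']; group
  have : ∀ n : ℕ, x ^ n * t = t * u ^ n * x ^ n := fun n => by
    induction n with
    | zero => simp
    | succ n ih => rw [pow_succ', mul_assoc, ih, ← mul_assoc, ← mul_assoc, k, mul_assoc _ x, (e.pow_right n).eq]; group
  have := this 5
  rw [h5, one_mul, mul_one, left_eq_mul] at this
  rw [k, eq_one hT hu this, mul_one]

omit [IsAlgClosed K] in
theorem anti_sq {ρ : G →* PGL(2, K)} (hρ : Function.Injective ρ) {g : G} {A : M2 K} (h : Rep ρ g A)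
    (e : A 0 0 = 0 ∧ A 1 1 = 0) : g * g = 1 :=
  Rep.eq_one hρ (c := A 0 1 * A 1 0) ((h.mul h).congr (by
    ext i j; fin_cases i <;> fin_cases j <;> simp [mul_apply, e, mul_comm]))

omit [IsAlgClosed K] in
theorem diag_sq {ρ : G →* PGL(2, K)} (hρ : Function.Injective ρ) {g u : G} {A : M2 K} (hu : Rep ρ u (d2 1 (-1)))
    (h : Rep ρ g A) (e : A 0 1 = 0 ∧ A 1 0 = 0) (hg : g * g = 1) : g = 1 ∨ g = u := by
  obtain ⟨c, -, k⟩ := Rep.scalar_of_one (hg ▸ h.mul h)
  have k0 := congrFun (congrFun k 0) 0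
  have k1 := congrFun (congrFun k 1) 1
  simp [mul_apply, e] at k0 k1
  refine (mul_self_eq_mul_self_iff.1 (k1.trans k0.symm)).imp (fun k => Rep.eq_one hρ (c := A 0 0) (h.congr ?_))
    fun k => (hu.eq_of_smul hρ (c := A 0 0) (h.congr ?_)).symm <;>
  · ext i j; fin_cases i <;> fin_cases j <;> simp [e, k]

theorem pgl {ρ : G →* PGL(2, K)} (hρ : Function.Injective ρ) (h2 : (2 : K) ≠ 0) {X : Subgroup G} [Finite X]
    (hX : IsPGroup 2 X) {a : G} (h5 : a ^ 5 = 1) (hn : ∀ y ∈ X, a * y * a⁻¹ ∈ X) {y : G} (hy : y ∈ X) :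
    a * y = y * a := by
  by_cases h : 1 < Nat.card (⊤ : Subgroup X)
  swap
  · rw [Subgroup.card_top, Finite.one_lt_card_iff_nontrivial, not_nontrivial_iff_subsingleton] at h
    rw [show y = 1 from congrArg Subtype.val (h.elim ⟨y, hy⟩ 1), mul_one, one_mul]
  obtain ⟨⟨u, hu⟩, -, h1, u2, hc⟩ := Sect.exists_central hX ⊤ h
  replace h1 : u ≠ 1 := fun e => h1 (Subtype.ext e)
  replace u2 : u * u = 1 := congrArg Subtype.val u2
  replace hc : ∀ g ∈ X, g * u = u * g := fun g hg => congrArg Subtype.val (hc ⟨g, hg⟩)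
  obtain ⟨P, hP⟩ := Mono.frame hρ h2 (sq u ▸ u2) h1
  replace hρ := cb_injective hρ P
  generalize cb ρ P = τ at hP hρ
  have da : ∀ g, g * u = u * g → ∃ A, Rep τ g A ∧ DA A := fun g e =>
    (exists_rep τ g).imp fun A hA => ⟨hA, Mono.da_of_comm h2 hP hA e⟩
  have a6 : a = a ^ 6 := by rw [pow_succ, h5, one_mul]
  have au : a * u = u * a := by
    by_contra hne
    have v2 : a * u * a⁻¹ * (a * u * a⁻¹) = 1 := by rw [conj_mul, u2]; group
    have vw : Commute (a * u * a⁻¹) (a * (a * u * a⁻¹) * a⁻¹) := by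
      rw [Commute, SemiconjBy, conj_mul, conj_mul, hc _ (hn u hu)]
    have w2 : a * (a * u * a⁻¹) * a⁻¹ * (a * (a * u * a⁻¹) * a⁻¹) = 1 := by rw [conj_mul, v2]; group
    have n1 : a * u * a⁻¹ ≠ u := fun e => hne (mul_inv_eq_iff_eq_mul.1 e)
    obtain ⟨V, hV, e | e⟩ := da _ (hc _ (hn u hu))
    · exact (diag_sq hρ hP hV e v2).elim (fun k => h1 (conj_eq_one_iff.1 k)) n1
    obtain ⟨W, hW, e' | e'⟩ := da _ (hc _ (hn _ (hn u hu)))
    · refine (diag_sq hρ hP hW e' w2).elim (fun k => h1 (conj_eq_one_iff.1 (conj_eq_one_iff.1 k))) fun k => hne ?_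
      have : Commute (a ^ 2) u := mul_inv_eq_iff_eq_mul.1 (Eq.trans (by simp [sq, mul_assoc]) k)
      simpa [← pow_mul, ← a6] using (this.pow_left 3).eq
    rcases diag_sq hρ hP (hV.mul hW) (by simp [mul_apply, e, e'])
      (by rw [vw.symm.mul_mul_mul_comm, v2, w2, mul_one]) with k | k
    · exact n1 (conj_injective (mul_left_cancel (k.trans v2.symm)))
    · have k1 : a * (a * u * a⁻¹) * a⁻¹ = a * u * a⁻¹ * u := by
        conv_rhs => rw [← k, ← mul_assoc, k, v2, one_mul]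
      have : Commute (a ^ 3) u := mul_inv_eq_iff_eq_mul.1 (by
        calc _ = a * (a * (a * u * a⁻¹) * a⁻¹) * a⁻¹ := by simp [pow_succ, mul_assoc]
          _ = u := by rw [k1, ← conj_mul, ← vw.eq, k])
      exact hne (by simpa [← pow_mul, ← a6] using (this.pow_left 2).eq)
  have a1 : a * a ∈ X → a * y = y * a := fun h => by
    have : a * a = 1 := eq_one hX h (by rw [← sq, ← pow_mul, mul_comm, pow_mul, h5, one_pow])
    rw [a6, show 6 = 2 * 3 from rfl, pow_mul, sq, this, one_pow, mul_one, one_mul]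
  obtain ⟨A, hA, e | e⟩ := da a au
  · obtain ⟨Y, hY, e' | e'⟩ := da y (hc y hy)
    · exact hA.commute hρ hY (by ext i j; fin_cases i <;> fin_cases j <;> simp [mul_apply, e, e', mul_comm])
    · have k := anti_sq hρ (hY.mul hA.inv) (by simp [mul_apply, inv_def, adjugate_fin_two, e, e'])
      have := mul_mem (hn y hy) hy
      rw [show a * y * a⁻¹ * y = a * (y * a⁻¹ * (y * a⁻¹)) * a by group, k, mul_one] at this
      exact a1 this
  · exact a1 (anti_sq hρ hA e ▸ one_mem X)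

end C10

theorem not_c10 (hx : Cx π) (h2 : (2 : K) ≠ 0) (hr : NR π) : ¬ C10 G := by
  rintro ⟨z, x, T, z2, z1, h5, xz, hT, hz, hn, t, ht, hne⟩
  obtain ⟨B, hB⟩ := inv_nf hx.inj h2 z2 z1 (hr z)
  have hi := cb_injective hx.inj B
  generalize cb π B = ρ at hB hi
  have xc : Com ρ x z := com_of_odd (by decide) h5 xz
  have x0 := (mem_C0_iff h2 hB).2 xc
  have k : ∀ t ∈ T, Com ρ t z → x * t = t * x := fun t ht hc => by
    have t0 := (mem_C0_iff h2 hB).2 hc
    have : ∀ f : C0 ρ →* PGL(2, K), f (⟨t, t0⟩⁻¹ * (⟨x, x0⟩ * ⟨t, t0⟩ * ⟨x, x0⟩⁻¹)) = 1 := fun f => by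
      have : Finite ((T.comap (C0 ρ).subtype).map f) := Finite.of_surjective _ (f.subgroupMap_surjective _)
      have := C10.pgl (ρ := MonoidHom.id _) Function.injective_id h2 (hT.comap_subtype.map f) (a := f ⟨x, x0⟩)
        (by rw [← map_pow, show (⟨x, x0⟩ : C0 ρ) ^ 5 = 1 from Subtype.ext h5, map_one]) (by
          rintro _ ⟨y, hy, rfl⟩
          exact ⟨⟨x, x0⟩ * y * ⟨x, x0⟩⁻¹, hn _ hy, by simp⟩) (y := f ⟨t, t0⟩) ⟨_, ht, rfl⟩
      rw [map_mul, map_mul, map_mul, map_inv, map_inv, this]; group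
    exact C10.step hT h5 (mul_mem (inv_mem ht) (hn t ht))
      ((xc.zc ((mem_Zc_iff_x h2 hB _).2 ⟨this _, this _⟩)).comm hi)
  refine hne ((com_or_anti (π := ρ) z2 (hz t ht)).elim (k t ht) fun h => ?_)
  have hu := mul_mem (inv_mem ht) (hn t ht)
  exact C10.step hT h5 hu (k _ hu (h.inv.mul_anti ((xc.mul_anti h).mul_com xc.inv)))

end CfsgLib.D4
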