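import Cfsg.Agent.Lib.D4.QD3
import Cfsg.Agent.Lib.Dickson.Main
import Cfsg.Agent.Lib.Fgs.SymSolv

/-! The groups induced on the two coordinate lines.  See `plans/D4.md`. -/

set_option autoImplicit false

namespace CfsgLib.D4

open Matrix Cfsg Cfsg.Geo CfsgLib.Asch
open scoped MatrixGroups commutatorElement

variable {G K : Type*} [Group G] [Finite G] [Field K] [IsAlgClosed K] {π : G →* PG4 K}

namespace DKp

open CfsgLib.Dickson CfsgLib.Dickson.P1

omit [IsAlgClosed K] in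
theorem sq_zero {N : M2 K} (h : IsNilpotent N) : N * N = 0 := by
  have h1 : N.trace = 0 := (Matrix.isNilpotent_trace_of_isNilpotent h).eq_zero
  have h2 : N.det = 0 := by
    obtain ⟨n, hn⟩ := h
    have := congrArg Matrix.det hn
    rw [det_pow, det_zero] at this
    exact pow_eq_zero_iff (by rintro rfl; simp at this) |>.1 this
  rw [trace_fin_two] at h1
  rw [det_fin_two] at h2
  ext i j
  fin_cases i <;> fin_cases j <;> simp [Matrix.mul_apply, Fin.sum_univ_two]
  · linear_combination N 0 0 * h1 - h2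
  · linear_combination N 0 1 * h1
  · linear_combination N 1 0 * h1
  · linear_combination N 1 1 * h1 - h2

omit [IsAlgClosed K] in
theorem mul_zero' (h2 : (2 : K) ≠ 0) {N N' : M2 K} (h : N * N = 0) (h' : N' * N' = 0) (c : N * N' = N' * N) :
    N * N' = 0 := by
  have := sq_zero (Commute.isNilpotent_add c ⟨2, by rw [sq, h]⟩ ⟨2, by rw [sq, h']⟩)
  rw [add_mul, mul_add, mul_add, h, h', ← c, zero_add, add_zero, ← two_smul K] at this
  exact (smul_eq_zero.1 this).resolve_left h2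

omit [IsAlgClosed K] in
theorem unip (p : ℕ) [Fact p.Prime] [CharP K p] {A : M2 K} {k : ℕ} (h : A ^ p ^ k = 1) : (A - 1) * (A - 1) = 0 :=
  sq_zero ⟨p ^ k, by rw [sub_pow_char_pow_of_commute _ _ (Commute.one_right A), h, one_pow, sub_self]⟩

omit [IsAlgClosed K] in
theorem bd_pow (A B : M2 K) (n : ℕ) : bd A B ^ n = bd (A ^ n) (B ^ n) := by
  induction n with
  | zero => simp
  | succ n ih => rw [pow_succ, ih, bd_mul, pow_succ, pow_succ]

omit [Finite G] in
theorem rep_p (p : ℕ) [hp : Fact p.Prime] [CharP K p] {g : G} (hg : g ∈ C0 π) {k : ℕ} (h : g ^ p ^ k = 1) :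
    ∃ N N' : M2 K, N * N = 0 ∧ N' * N' = 0 ∧ Rep π g (bd (1 + N) (1 + N')) := by
  obtain ⟨M, hM, e⟩ := exists_rep_pow π (pow_pos hp.out.pos k) h
  obtain ⟨A, B, hA⟩ := hg
  obtain ⟨c, -, rfl⟩ := hA.unique hM
  rw [show c • bd A B = bd (c • A) (c • B) from (bd_eq_smul.2 ⟨rfl, rfl⟩).symm] at hM e
  rw [bd_pow, ← fromBlocks_one, fromBlocks_inj] at e
  exact ⟨_, _, unip p e.1, unip p e.2.2.2, by rwa [add_sub_cancel, add_sub_cancel]⟩

omit [IsAlgClosed K] in
theorem one_add_bd (N N' : M2 K) : bd (1 + N) (1 + N') = 1 + bd N N' := by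
  rw [← fromBlocks_one, fromBlocks_add]; simp

omit [IsAlgClosed K] in
theorem exists_lift (p : ℕ) [Fact p.Prime] {U : Subgroup PGL(2, K)} (hU : U ≤ (x1 π).range) (h : IsPGroup p U) :
    ∃ V : Subgroup G, IsPGroup p V ∧ ∀ u ∈ U, ∃ g : C0 π, (g : G) ∈ V ∧ x1 π g = u := by
  let f : U.comap (x1 π) →* U := ((x1 π).comp (U.comap (x1 π)).subtype).codRestrict U fun g => g.2
  have hf : Function.Surjective f := fun u => by
    obtain ⟨g, hg⟩ := hU u.2
    exact ⟨⟨g, by rw [Subgroup.mem_comap, hg]; exact u.2⟩, Subtype.ext hg⟩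
  obtain ⟨S⟩ := (inferInstance : Nonempty (Sylow p (U.comap (x1 π))))
  have h1 := (S.mapSurjective hf).is_maximal' (h.to_subgroup ⊤) le_top
  refine ⟨((S : Subgroup _).map (U.comap (x1 π)).subtype).map (C0 π).subtype, (S.isPGroup'.map _).map _, fun u hu => ?_⟩
  have h2 : (⟨u, hu⟩ : U) ∈ (S.mapSurjective hf : Subgroup U) := by rw [← h1]; exact Subgroup.mem_top _
  rw [Sylow.coe_mapSurjective] at h2
  obtain ⟨g, hg, e⟩ := h2
  exact ⟨g, ⟨_, ⟨g, hg, rfl⟩, rfl⟩, congrArg Subtype.val e⟩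

omit [Finite G] [IsAlgClosed K] in
theorem eq_pm {H : Type*} [Group H] {ρ : H →* PGL(2, K)} {g : H} {A : M2 K} (h : Rep ρ g A) :
    ∃ hd, ρ g = pm (A 0 0) (A 0 1) (A 1 0) (A 1 1) hd := by
  obtain ⟨x, rfl, e⟩ := h
  exact ⟨_, e.trans (mk_eq_pm x)⟩

omit [IsAlgClosed K] in
theorem fixV_iff {X : Subgroup PGL(2, K)} : FixV X ↔ ∃ x : P1 K, ∀ g ∈ X, g • x = x := by
  constructor
  · rintro ⟨v, hv, h⟩
    by_cases h1 : v 1 = 0
    · refine ⟨inf, fun g hg => ?_⟩
      obtain ⟨y, rfl⟩ := ProjGenLinGroup.mk_surjective g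
      obtain ⟨c, hc⟩ := h y hg
      have h0 : v 0 ≠ 0 := fun h0 => hv (by ext i; fin_cases i <;> simp [h0, h1])
      have := congrFun hc 1
      simp [mulVec, dotProduct, Fin.sum_univ_two, h1, h0] at this
      rw [mk_eq_pm, pm_smul_inf_eq_inf, this]
    · refine ⟨pt (v 0 / v 1), fun g hg => ?_⟩
      obtain ⟨y, rfl⟩ := ProjGenLinGroup.mk_surjective g
      obtain ⟨c, hc⟩ := h y hg
      have e0 := congrFun hc 0
      have e1 := congrFun hc 1
      simp only [mulVec, dotProduct, Fin.sum_univ_two, Pi.smul_apply, smul_eq_mul] at e0 e1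
      rw [mk_eq_pm, pm_smul_pt_eq_pt]
      field_simp
      linear_combination v 1 * e0 - v 0 * e1
  · rintro ⟨x, h⟩
    rcases eq_inf_or x with rfl | ⟨z, rfl⟩
    · refine ⟨![1, 0], by simp, fun y hy => ⟨y 0 0, ?_⟩⟩
      have := h _ hy
      rw [mk_eq_pm, pm_smul_inf_eq_inf] at this
      ext i
      fin_cases i <;> simp [mulVec, dotProduct, Fin.sum_univ_two, this]
    · refine ⟨![z, 1], by simp, fun y hy => ⟨y 1 0 * z + y 1 1, ?_⟩⟩
      have := h _ hy
      rw [mk_eq_pm, pm_smul_pt_eq_pt] at this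
      ext i
      fin_cases i <;> simp [mulVec, dotProduct, Fin.sum_univ_two]
      linear_combination this

omit [IsAlgClosed K] in
theorem da_iff {a b c d : K} {h} : DA !![a, b; c, d] ↔
    (pm a b c d h • (inf : P1 K) = inf ∧ pm a b c d h • (pt 0 : P1 K) = pt 0) ∨
      (pm a b c d h • (inf : P1 K) = pt 0 ∧ pm a b c d h • (pt 0 : P1 K) = inf) := by
  rw [pm_smul_inf_eq_inf, pm_smul_pt_eq_pt, pm_smul_inf_eq_pt, pm_smul_pt_eq_inf]
  simp [DA, and_comm]

omit [IsAlgClosed K] in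
theorem da_cj (B y : GL (Fin 2) K) : DA (cj B⁻¹ (y : M2 K)) ↔
    (ProjGenLinGroup.mk y • ProjGenLinGroup.mk B • (inf : P1 K) = ProjGenLinGroup.mk B • inf ∧
      ProjGenLinGroup.mk y • ProjGenLinGroup.mk B • (pt 0 : P1 K) = ProjGenLinGroup.mk B • pt 0) ∨
    (ProjGenLinGroup.mk y • ProjGenLinGroup.mk B • (inf : P1 K) = ProjGenLinGroup.mk B • pt 0 ∧
      ProjGenLinGroup.mk y • ProjGenLinGroup.mk B • (pt 0 : P1 K) = ProjGenLinGroup.mk B • inf) := by
  rw [cj_coe, eta_fin_two ((B⁻¹ * y * B⁻¹⁻¹ : GL (Fin 2) K) : M2 K), da_iff (h := gl_det_ne _), ← mk_eq_pm]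
  simp only [inv_inv, map_mul, map_inv, mul_smul, inv_smul_eq_iff]

theorem solv_stab (x : P1 K) : Group.IsSolvable (MulAction.stabilizer PGL(2, K) x) := by
  obtain ⟨χ, hχ⟩ := exists_multiplier x
  haveI : Group.IsSolvable χ.toHomUnits.ker := Group.isSolvable_of_comm fun a b => Subtype.ext (Subtype.ext
    (pgl_unip_comm ((hχ _).1 (congrArg Units.val a.2)) ((hχ _).1 (congrArg Units.val b.2))))
  exact Group.isSolvable_of_ker_le_range χ.toHomUnits.ker.subtype χ.toHomUnits (by simp)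

end DKp

theorem card_p_le (p : ℕ) [Fact p.Prime] [CharP K p] (hx : Cx π) (hp : p ≠ 2) {U : Subgroup PGL(2, K)}
    (hU : U ≤ (x1 π).range) (h : IsPGroup p U) : Nat.card U ≤ 3 ∧ (p ≠ 3 → U = ⊥) := by
  have h2 : (2 : K) ≠ 0 := fun h2 => hp ((Nat.prime_dvd_prime_iff_eq Fact.out Nat.prime_two).1
    ((CharP.cast_eq_zero_iff K p 2).1 (by exact_mod_cast h2)))
  by_cases hb : U = ⊥
  · exact ⟨by simp [hb], fun _ => hb⟩
  obtain ⟨V, hV, hl⟩ := DKp.exists_lift p hU h
  obtain ⟨⟨u, hu⟩, hu1⟩ := Subgroup.ne_bot_iff_exists_ne_one.1 hb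
  obtain ⟨g, hg, rfl⟩ := hl u hu
  obtain ⟨k, hk⟩ := hV ⟨g, hg⟩
  replace hk : (g : G) ^ p ^ k = 1 := congrArg Subtype.val hk
  obtain ⟨N, N', h3, h4, hN⟩ := DKp.rep_p p g.2 hk
  have hN1 := rep_x1 hN
  have h0 : bd N N' ≠ 0 := fun e => hu1 (Subtype.ext (by
    rw [← fromBlocks_zero, fromBlocks_inj] at e
    rw [e.1, add_zero] at hN1
    exact (hN1.map_eq (rep_one _)).trans (map_one _)))
  have hsq : bd N N' * bd N N' = 0 := by rw [bd_mul, h3, h4]; exact fromBlocks_zero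
  refine ⟨?_, fun h5 => absurd ?_ h5⟩
  · have : (U : Set PGL(2, K)) ⊆ {1, x1 π g, (x1 π g)⁻¹} := by
      intro u' hu'
      obtain ⟨g', hg', rfl⟩ := hl u' hu'
      obtain ⟨k', hk'⟩ := hV ⟨g', hg'⟩
      obtain ⟨M, M', h5, h6, hM⟩ := DKp.rep_p p g'.2 (congrArg Subtype.val hk')
      have hc := (com_of_odd (π := π) ((Fact.out : p.Prime).odd_of_ne_two hp).pow hk
        (p_comm p hx hp hV _ hg _ hg')).eq hN hM
      rw [bd_mul, bd_mul, fromBlocks_inj] at hc
      have c1 : N * M = M * N := by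
        have := hc.1
        simp only [add_mul, mul_add, one_mul, mul_one] at this
        rw [← sub_eq_zero] at this ⊢; rw [← this]; abel
      have c2 : N' * M' = M' * N' := by
        have := hc.2.2.2
        simp only [add_mul, mul_add, one_mul, mul_one] at this
        rw [← sub_eq_zero] at this ⊢; rw [← this]; abel
      have hM1 := rep_x1 hM
      rcases qd p hx hp (DKp.one_add_bd N N' ▸ hN) (DKp.one_add_bd M M' ▸ hM) hsq
        (by rw [bd_mul, h5, h6]; exact fromBlocks_zero)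
        (by rw [bd_mul, DKp.mul_zero' h2 h3 h5 c1, DKp.mul_zero' h2 h4 h6 c2]; exact fromBlocks_zero)
        (by rw [bd_mul, ← c1, ← c2, DKp.mul_zero' h2 h3 h5 c1, DKp.mul_zero' h2 h4 h6 c2]; exact fromBlocks_zero) h0
        with e | e | e
      · rw [← fromBlocks_zero, fromBlocks_inj] at e
        rw [e.1, add_zero] at hM1
        exact .inl ((hM1.map_eq (rep_one _)).trans (map_one _))
      · rw [fromBlocks_inj] at e
        rw [e.1] at hM1
        exact .inr (.inl (hM1.map_eq hN1))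
      · rw [fromBlocks_neg, fromBlocks_inj] at e
        rw [e.1] at hM1
        refine .inr (.inr ((hM1.map_eq (hN1.inv' ?_)).trans (map_inv _ _)))
        rw [add_mul, mul_add, mul_add, mul_neg N, h3]; simp
    rw [← SetLike.coe_sort_coe, Nat.card_coe_set_eq]
    refine (Set.ncard_le_ncard this (Set.toFinite _)).trans ((Set.ncard_insert_le _ _).trans
      (Nat.succ_le_succ ((Set.ncard_insert_le _ _).trans (by simp))))
  · rw [DKp.one_add_bd] at hN
    generalize bd N N' = Z at hN h0 hsq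
    have h6 : Rep π (g * g) (1 + (2 : K) • Z) := (hN.mul hN).congr (by
      rw [add_mul, mul_add, mul_add, hsq, two_smul]; simp [add_assoc])
    rcases qd p hx hp hN h6 hsq (by simp [hsq]) (by simp [hsq]) (by simp [hsq]) h0 with e | e | e
    · exact absurd ((smul_eq_zero.1 e).resolve_left h2) h0
    · rw [two_smul, add_eq_left] at e
      exact absurd e h0
    · have : (3 : K) • Z = 0 := by rw [show (3 : K) = 2 + 1 by norm_num, add_smul, e, one_smul, neg_add_cancel]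
      exact (Nat.prime_dvd_prime_iff_eq Fact.out Nat.prime_three).1
        ((CharP.cast_eq_zero_iff K p 3).1 (by exact_mod_cast (smul_eq_zero.1 this).resolve_right h0))

theorem DKp.card_U (p : ℕ) [Fact p.Prime] [CharP K p] (hx : Cx π) (hp : p ≠ 2) {X : Subgroup PGL(2, K)} [Finite X]
    (hX : X ≤ (x1 π).range) (h : Dickson.Mob X (Dickson.P1 K) p) (x : Dickson.P1 K) :
    Nat.card (h.U x) ≤ 3 ∧ (h.U x ≠ ⊥ → p = 3) := by
  obtain ⟨h1, h2⟩ := card_p_le p hx hp (U := (h.U x).map X.subtype) ((Subgroup.map_subtype_le _).trans hX)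
    ((h.isPGroup_U x).map _)
  rw [Subgroup.card_map_of_injective X.subtype_injective] at h1
  exact ⟨h1, fun h3 => by_contra fun h4 => h3 ((Subgroup.map_eq_bot_iff_of_injective _ X.subtype_injective).1 (h2 h4))⟩

theorem DKp.dk0 (p : ℕ) [Fact p.Prime] [CharP K p] (hx : Cx π) (hp : p ≠ 2) {X : Subgroup PGL(2, K)} [Finite X]
    (hX : X ≤ (x1 π).range) : Dickson.FixPt X (Dickson.P1 K) ∨ Dickson.FixPair X (Dickson.P1 K) ∨
      Dickson.Platonic X 3 12 ∨ Dickson.Platonic X 4 24 ∨ Dickson.Platonic X 5 60 := by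
  have h := (Dickson.mob_pgl (K := K) p).subgroup X
  by_cases hU : ∀ x, h.U x = ⊥
  · exact h.regular hU
  push Not at hU
  obtain ⟨x, hU⟩ := hU
  obtain ⟨h1, h2⟩ := DKp.card_U p hx hp hX h x
  obtain rfl := h2 hU
  rcases h.irregular hU with h3 | ⟨-, h3⟩ | ⟨y, q, d, N, e, I⟩
  · exact .inl ⟨x, h3⟩
  · exact .inr (.inl h3)
  obtain rfl : q = 3 := le_antisymm (I.card_U ▸ h1) I.three_le
  have hu : ∀ g : X, (∃ z ∈ MulAction.orbit X x, Dickson.IsUnip z g) → g ^ 3 = 1 := fun g ⟨z, _, hz⟩ =>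
    h.unip_pow z g (isOfFinOrder_of_finite g) hz
  rcases I.cases with ⟨rfl, t, rfl | rfl, h4, h5⟩ | hc
  · obtain rfl : d = 2 := by omega
    obtain rfl : e = 4 := by omega
    refine .inr (.inr (.inr (.inl ⟨I.card_G, fun g => ?_⟩)))
    rcases I.pow_cases g with h6 | h6 | h6
    exacts [.inr (.inl (hu g h6)), .inl h6, .inr (.inr h6)]
  · obtain rfl : d = 1 := by omega
    obtain rfl : e = 2 := by omega
    refine .inr (.inr (.inl ⟨I.card_G, fun g => ?_⟩))
    rcases I.pow_cases g with h6 | h6 | h6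
    exacts [.inr (.inl (hu g h6)), .inl (by rw [pow_one] at h6; rw [h6, one_pow]), .inl h6]
  · exact .inr (.inr (.inr (.inr (I.platonic hc).2)))

omit [IsAlgClosed K] in
theorem DKp.fin {X : Subgroup PGL(2, K)} (hX : X ≤ (x1 π).range) : Finite X :=
  haveI : Finite (x1 π).range := Finite.of_surjective _ (x1 π).rangeRestrict_surjective
  Finite.of_injective _ (Subgroup.inclusion_injective hX)

theorem dk1 (p : ℕ) [Fact p.Prime] [CharP K p] (hx : Cx π) (hp : p ≠ 2) {X : Subgroup PGL(2, K)}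
    (hX : X ≤ (x1 π).range) : DK X := by
  haveI := DKp.fin hX
  rcases DKp.dk0 p hx hp hX with ⟨x, h⟩ | ⟨x, y, hxy, -, h⟩ | h | h | h
  · exact .inl (DKp.fixV_iff.2 ⟨x, fun g hg => h ⟨g, hg⟩⟩)
  · obtain ⟨k, rfl, rfl⟩ := Dickson.exists_smul_two hxy
    obtain ⟨B, rfl⟩ := ProjGenLinGroup.mk_surjective k
    exact .inr (.inl ⟨B, fun g hg => (DKp.da_cj B g).2 (h ⟨_, hg⟩)⟩)
  · exact .inr (.inr (.inl h.A4))
  · exact .inr (.inr (.inr (.inl h.S4)))
  · exact .inr (.inr (.inr (.inr h.A5)))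

theorem dk2 (p : ℕ) [Fact p.Prime] [CharP K p] (hx : Cx π) (hp : p ≠ 2) {X : Subgroup PGL(2, K)}
    (hX : X ≤ (x2 π).range) : DK X := dk1 p (hx.cb swG) hp (range_x1_swG (π := π) ▸ hX)

theorem solv_of_dk {X : Subgroup PGL(2, K)} (h : DK X) :
    Group.IsSolvable X ∨ Nonempty (X ≃* alternatingGroup (Fin 5)) := by
  rcases h with h | ⟨B, h⟩ | ⟨⟨e⟩⟩ | ⟨⟨e⟩⟩ | h
  · obtain ⟨x, h⟩ := DKp.fixV_iff.1 h
    haveI := DKp.solv_stab x
    exact .inl (Group.isSolvable_of_isSolvable_injective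
      (Subgroup.inclusion_injective (show X ≤ MulAction.stabilizer _ x from h)))
  · left
    obtain ⟨x, y, key⟩ : ∃ x y : Dickson.P1 K, ∀ g ∈ X, (g • x = x ∧ g • y = y) ∨ (g • x = y ∧ g • y = x) :=
      ⟨_, _, fun g hg => by
        obtain ⟨y, rfl⟩ := ProjGenLinGroup.mk_surjective g
        exact (DKp.da_cj B y).1 (h y hg)⟩
    haveI := DKp.solv_stab x
    have h1 : commutator X ≤ (MulAction.stabilizer _ x).subgroupOf X := by
      rw [_root_.commutator, Subgroup.commutator_le]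
      intro a _ b _
      show ((a : PGL(2, K)) * b * (a : PGL(2, K))⁻¹ * (b : PGL(2, K))⁻¹) • x = x
      have h2 : ((a : PGL(2, K)) * b) • x = ((b : PGL(2, K)) * a) • x ∧
          ((a : PGL(2, K)) * b) • y = ((b : PGL(2, K)) * a) • y := by
        rcases key a a.2 with ⟨e1, e2⟩ | ⟨e1, e2⟩ <;> rcases key b b.2 with ⟨e3, e4⟩ | ⟨e3, e4⟩ <;>
          simp [mul_smul, e1, e2, e3, e4]
      rw [mul_assoc, ← _root_.mul_inv_rev, mul_smul]
      rcases key _ (inv_mem (mul_mem b.2 a.2)) with ⟨e, -⟩ | ⟨e, -⟩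
      · rw [e, h2.1]; exact (inv_smul_eq_iff.1 e).symm
      · rw [e, h2.2]; exact (inv_smul_eq_iff.1 e).symm
    haveI : Group.IsSolvable (commutator X) := Group.isSolvable_of_isSolvable_injective
      (f := ((X.subtype.comp (commutator X).subtype).codRestrict (MulAction.stabilizer _ x) fun g => h1 g.2))
      fun a b e => by
        have e' := congrArg Subtype.val e
        exact Subtype.ext (Subtype.ext e')
    exact Group.isSolvable_of_ker_le_range (commutator X).subtype Abelianization.of (by simp)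
  · haveI := Fgs.isSolvable_alt_four
    exact .inl (Group.isSolvable_of_isSolvable_injective (f := e.toMonoidHom) e.injective)
  · haveI := Fgs.isSolvable_perm_fin_four
    exact .inl (Group.isSolvable_of_isSolvable_injective (f := e.toMonoidHom) e.injective)
  · exact .inr h

/-- an element of order four determines a frame unless the group is `S₄` -/
theorem dk4 (p : ℕ) [Fact p.Prime] [CharP K p] (hx : Cx π) (hp : p ≠ 2) {c : G} {i : K} (hi : i ^ 2 = -1) {B : M2 K}
    (hc : Rep π c (bd (d2 i 1) B)) : (∀ g A C, Rep π g (bd A C) → DA A) ∨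
      Nonempty ((x1 π).range ≃* Equiv.Perm (Fin 4)) := by
  have h2 : (2 : K) ≠ 0 := fun h2 => hp ((Nat.prime_dvd_prime_iff_eq Fact.out Nat.prime_two).1
    ((CharP.cast_eq_zero_iff K p 2).1 (by exact_mod_cast h2)))
  haveI := DKp.fin (le_refl (x1 π).range)
  have i0 : i ≠ 0 := by rintro rfl; simp at hi
  have i1 : i ≠ 1 := by rintro rfl; exact h2 (by linear_combination hi)
  have hD := rep_x1 (g := ⟨c, _, _, hc⟩) hc
  let D : (x1 π).range := ⟨x1 π ⟨c, _, _, hc⟩, _, rfl⟩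
  have eD : (D : PGL(2, K)) = Dickson.aff i 0 i0 := (DKp.eq_pm hD).2
  have pD : ∀ n : ℕ, D ^ n = 1 ↔ i ^ n = 1 := fun n => by
    rw [Subtype.ext_iff, Subgroup.coe_pow, eD, Dickson.aff_zero_pow, Subgroup.coe_one, Dickson.aff_eq_one_iff]
    simp
  have D2 : D ^ 2 ≠ 1 := fun e => h2 (by linear_combination hi - (pD 2).1 e)
  have f1 : ∀ n : ℕ, D ^ n • (Dickson.P1.inf : Dickson.P1 K) = Dickson.P1.inf := fun n =>
    Dickson.pow_smul_eq_of_fix (by rw [Subgroup.smul_def, eD, Dickson.aff_smul_inf]) n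
  have f2 : ∀ n : ℕ, D ^ n • (Dickson.P1.pt 0 : Dickson.P1 K) = Dickson.P1.pt 0 := fun n =>
    Dickson.pow_smul_eq_of_fix (by rw [Subgroup.smul_def, eD, Dickson.aff_smul_pt]; simp) n
  have h := (Dickson.mob_pgl (K := K) p).subgroup (x1 π).range
  rcases DKp.dk0 p hx hp (le_refl (x1 π).range) with ⟨x, h3⟩ | ⟨x, y, hxy, -, h3⟩ | h3 | h3 | h3
  · have hU : h.U x = ⊥ := by
      by_contra hU
      have h4 := h.relIndex_lt_card_U hU
      have h5 := h.card_dvd_relIndex (Subgroup.zpowers D) (fun g _ => h3 g) fun g hg hu => by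
        obtain ⟨n, rfl⟩ := (mem_powers_iff_mem_zpowers.2 hg : g ∈ Submonoid.powers D)
        by_cases e : x = Dickson.P1.inf
        · exact hu.eq_one (by rw [e]; exact Dickson.P1.pt_ne_inf 0) (f2 n)
        · exact hu.eq_one (Ne.symm e) (f1 n)
      rw [Nat.card_zpowers, orderOf_eq_prime_pow (p := 2) (n := 1) D2
        ((pD _).2 (by linear_combination (i ^ 2 - 1) * hi))] at h5
      have h6 := (DKp.card_U p hx hp le_rfl h x).1
      have h7 := h.card_U_mul_relIndex x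
      have h8 := Nat.le_of_dvd (Nat.pos_of_ne_zero fun e => by
        rw [e, mul_zero] at h7; exact Nat.card_pos.ne h7) h5
      omega
    refine .inl fun g A C hg => ?_
    have hA := rep_x1 (g := ⟨g, _, _, hg⟩) hg
    have h4 : x1 π ⟨g, _, _, hg⟩ * D = D * x1 π ⟨g, _, _, hg⟩ :=
      congrArg Subtype.val (h.comm_of_U_eq_bot hU (h3 ⟨_, ⟨g, _, _, hg⟩, rfl⟩) (h3 D))
    obtain ⟨hd, e⟩ := DKp.eq_pm hA
    rw [eD, e, Dickson.aff, Dickson.pm_mul, Dickson.pm_mul,
      Dickson.pm_eq_pm_iff] at h4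
    obtain ⟨u, e1, e2, e3, e4⟩ := h4
    by_cases u1 : u = 1
    · subst u1
      exact .inl ⟨(mul_eq_zero.1 (show (i - 1) * A 0 1 = 0 by linear_combination e2)).resolve_left (sub_ne_zero.2 i1),
        (mul_eq_zero.1 (show (i - 1) * A 1 0 = 0 by linear_combination -e3)).resolve_left (sub_ne_zero.2 i1)⟩
    · exact .inr ⟨(mul_eq_zero.1 (show (i * (u - 1)) * A 0 0 = 0 by linear_combination -e1)).resolve_left
        (mul_ne_zero i0 (sub_ne_zero.2 u1)),
        (mul_eq_zero.1 (show (u - 1) * A 1 1 = 0 by linear_combination -e4)).resolve_left (sub_ne_zero.2 u1)⟩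
  · have h4 : D ^ 2 • x = x ∧ D ^ 2 • y = y := by
      rw [pow_two, mul_smul, mul_smul]
      rcases h3 D with ⟨e1, e2⟩ | ⟨e1, e2⟩ <;> simp [e1, e2]
    refine .inl fun g A C hg => ?_
    obtain ⟨hd, e⟩ := DKp.eq_pm (rep_x1 (g := ⟨g, _, _, hg⟩) hg)
    have h5 := h3 ⟨_, ⟨g, _, _, hg⟩, rfl⟩
    simp only [Subgroup.smul_def, e] at h5
    rw [eta_fin_two A, DKp.da_iff (h := hd)]
    rcases h.fix_cases D2 (Dickson.P1.inf_ne_pt 0) (f1 2) (f2 2) h4.1 with rfl | rfl <;>
      rcases h.fix_cases D2 (Dickson.P1.inf_ne_pt 0) (f1 2) (f2 2) h4.2 with rfl | rfl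
    · exact absurd rfl hxy
    · exact h5
    · exact h5.imp And.symm And.symm
    · exact absurd rfl hxy
  · exfalso
    rcases h3.2 D with e | e | e
    · exact D2 e
    all_goals exact h2 (by linear_combination (i - 1) * ((pD 3).1 e) + (1 - i ^ 2 + i) * hi)
  · exact .inr h3.S4
  · exfalso
    rcases h3.2 D with e | e | e
    · exact D2 e
    · exact h2 (by linear_combination (i - 1) * ((pD 3).1 e) + (1 - i ^ 2 + i) * hi)
    · exact i1 (by linear_combination (pD 5).1 e - i * (i ^ 2 - 1) * hi)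

end CfsgLib.D4
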