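import Mathlib
import Cfsg.Agent.Lib.Asch.UnitaryB
import Cfsg.Prelude.Def_SporadicB

/-!
Vocabulary for the classification of the quasisimple irreducible subgroups of `SL_4(q)` without
transvections.  See `plans/D4.md`.
-/

set_option autoImplicit false

namespace CfsgLib.D4

open Matrix Cfsg Cfsg.Geo CfsgLib.Asch
open scoped MatrixGroups commutatorElement

/-! ### Projective representations -/

section Rep

variable {G K : Type*} {ι : Type} [Group G] [Field K] [Fintype ι] [DecidableEq ι]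

/-- The matrix `M` represents the projective transformation `π g`. -/
def Rep (π : G →* ProjGenLinGroup ι K) (g : G) (M : Matrix ι ι K) : Prop :=
  ∃ x : GL ι K, (x : Matrix ι ι K) = M ∧ π g = ProjGenLinGroup.mk x

variable {π : G →* ProjGenLinGroup ι K} {g h : G} {M N : Matrix ι ι K}

theorem mk_eq_mk_iff_smul {x y : GL ι K} :
    ProjGenLinGroup.mk x = ProjGenLinGroup.mk y ↔ ∃ c : K, c ≠ 0 ∧ (y : Matrix ι ι K) = c • (x : Matrix ι ι K) := by
  rw [ProjGenLinGroup.mk_eq_mk_iff]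
  constructor
  · rintro ⟨c, rfl⟩
    refine ⟨c, c.ne_zero, ?_⟩
    simp [GeneralLinearGroup.scalar, Matrix.scalar_apply, ← Matrix.smul_one_eq_diagonal]
  · rintro ⟨c, hc, e⟩
    refine ⟨Units.mk0 c hc, Units.ext ?_⟩
    simp [GeneralLinearGroup.scalar, Matrix.scalar_apply, ← Matrix.smul_one_eq_diagonal, e]

theorem exists_rep (π : G →* ProjGenLinGroup ι K) (g : G) : ∃ M, Rep π g M := by
  obtain ⟨x, hx⟩ := ProjGenLinGroup.mk_surjective (π g)
  exact ⟨x, x, rfl, hx.symm⟩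

theorem rep_of_eq {x : GL ι K} (h : π g = ProjGenLinGroup.mk x) : Rep π g x := ⟨x, rfl, h⟩

theorem Rep.det_ne (h : Rep π g M) : M.det ≠ 0 := by
  obtain ⟨x, rfl, -⟩ := h
  exact (Matrix.isUnits_det_units x).ne_zero

theorem Rep.isUnit_det (h : Rep π g M) : IsUnit M.det := (Ne.isUnit h.det_ne)

theorem Rep.mul_inv (h : Rep π g M) : M * M⁻¹ = 1 := Matrix.mul_nonsing_inv M h.isUnit_det

theorem Rep.inv_mul (h : Rep π g M) : M⁻¹ * M = 1 := Matrix.nonsing_inv_mul M h.isUnit_det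

theorem Rep.ne_zero [Nonempty ι] (h : Rep π g M) : M ≠ 0 := fun e => h.det_ne (by simp [e])

theorem rep_one (π : G →* ProjGenLinGroup ι K) : Rep π 1 1 := ⟨1, rfl, by simp⟩

theorem Rep.mul (h1 : Rep π g M) (h2 : Rep π h N) : Rep π (g * h) (M * N) := by
  obtain ⟨x, rfl, hx⟩ := h1
  obtain ⟨y, rfl, hy⟩ := h2
  exact ⟨x * y, rfl, by rw [map_mul, map_mul, hx, hy]⟩

theorem Rep.inv (h : Rep π g M) : Rep π g⁻¹ M⁻¹ := by
  obtain ⟨x, rfl, hx⟩ := h
  exact ⟨x⁻¹, by simp, by rw [map_inv, map_inv, hx]⟩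

/-- any right inverse represents the inverse -/
theorem Rep.inv' (h : Rep π g M) (e : M * N = 1) : Rep π g⁻¹ N := by
  have := h.inv
  rwa [Matrix.inv_eq_right_inv e] at this

theorem Rep.pow (h : Rep π g M) (n : ℕ) : Rep π (g ^ n) (M ^ n) := by
  induction n with
  | zero => simpa using rep_one π
  | succ n ih => rw [pow_succ, pow_succ]; exact ih.mul h

theorem Rep.smul (h : Rep π g M) {c : K} (hc : c ≠ 0) : Rep π g (c • M) := by
  obtain ⟨x, rfl, hx⟩ := h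
  refine ⟨sc ι (Units.mk0 c hc) * x, by simp [coe_sc], ?_⟩
  rw [hx, mk_eq_mk_iff_smul]
  exact ⟨c, hc, by simp [coe_sc]⟩

theorem Rep.congr (h : Rep π g M) (e : M = N) : Rep π g N := e ▸ h

/-- the representing matrix is unique up to a scalar -/
theorem Rep.unique (h1 : Rep π g M) (h2 : Rep π g N) : ∃ c : K, c ≠ 0 ∧ N = c • M := by
  obtain ⟨x, rfl, hx⟩ := h1
  obtain ⟨y, rfl, hy⟩ := h2
  exact mk_eq_mk_iff_smul.1 (hx.symm.trans hy)

theorem Rep.map_eq (h1 : Rep π g M) (h2 : Rep π h M) : π g = π h := by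
  obtain ⟨x, rfl, hx⟩ := h1
  obtain ⟨y, e, hy⟩ := h2
  rw [hx, hy, Units.ext e]

theorem Rep.eq (hπ : Function.Injective π) (h1 : Rep π g M) (h2 : Rep π h M) : g = h :=
  hπ (h1.map_eq h2)

theorem Rep.eq_of_smul [Nonempty ι] (hπ : Function.Injective π) (h1 : Rep π g M) {c : K}
    (h2 : Rep π h (c • M)) : g = h := by
  have hc : c ≠ 0 := fun e => h2.ne_zero (by simp [e])
  exact (h1.smul hc).eq hπ h2

theorem Rep.eq_one [Nonempty ι] (hπ : Function.Injective π) {c : K} (h : Rep π g (c • (1 : Matrix ι ι K))) : g = 1 :=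
  ((rep_one π).eq_of_smul hπ h).symm

theorem Rep.eq_one' (hπ : Function.Injective π) (h : Rep π g 1) : g = 1 :=
  h.eq hπ (rep_one π)

theorem Rep.scalar_of_one (h : Rep π 1 M) : ∃ c : K, c ≠ 0 ∧ M = c • (1 : Matrix ι ι K) :=
  (rep_one π).unique h

theorem Rep.scalar_of_pow {n : ℕ} (h : Rep π g M) (hn : g ^ n = 1) :
    ∃ c : K, c ≠ 0 ∧ M ^ n = c • (1 : Matrix ι ι K) := by
  have := h.pow n
  rw [hn] at this
  exact this.scalar_of_one

theorem Rep.conj (h1 : Rep π g M) (h2 : Rep π h N) : Rep π (g * h * g⁻¹) (M * N * M⁻¹) :=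
  (h1.mul h2).mul h1.inv

theorem Rep.commute (hπ : Function.Injective π) (h1 : Rep π g M) (h2 : Rep π h N)
    (e : M * N = N * M) : g * h = h * g :=
  (h1.mul h2).eq hπ (e ▸ h2.mul h1)

/-- commuting elements are represented by matrices commuting up to a root of unity -/
theorem Rep.comm_smul (h1 : Rep π g M) (h2 : Rep π h N) (e : g * h = h * g) :
    ∃ c : K, c ^ Fintype.card ι = 1 ∧ M * N = c • (N * M) := by
  obtain ⟨c, -, hc⟩ := (h2.mul h1).unique (e ▸ h1.mul h2)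
  refine ⟨c, ?_, hc⟩
  have := congrArg Matrix.det hc
  rw [det_smul, det_mul, det_mul, mul_comm N.det] at this
  exact mul_right_cancel₀ (mul_ne_zero h1.det_ne h2.det_ne) (this.symm.trans (one_mul _).symm)

/-- over an algebraically closed field there is a representative of determinant one -/
theorem exists_rep_det_one [IsAlgClosed K] [Nonempty ι] (π : G →* ProjGenLinGroup ι K) (g : G) :
    ∃ M, Rep π g M ∧ M.det = 1 := by
  obtain ⟨M, hM⟩ := exists_rep π g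
  obtain ⟨c, hc⟩ := IsAlgClosed.exists_pow_nat_eq M.det⁻¹ (Fintype.card_pos (α := ι))
  have hc0 : c ≠ 0 := by
    rintro rfl
    exact inv_ne_zero hM.det_ne (by rw [← hc]; simp)
  refine ⟨c • M, hM.smul hc0, ?_⟩
  rw [det_smul, hc, inv_mul_cancel₀ hM.det_ne]

/-- an element of order `n` has a representative of order `n` -/
theorem exists_rep_pow [IsAlgClosed K] (π : G →* ProjGenLinGroup ι K) {n : ℕ} (hn : 0 < n)
    (hg : g ^ n = 1) : ∃ M, Rep π g M ∧ M ^ n = 1 := by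
  obtain ⟨M, hM⟩ := exists_rep π g
  obtain ⟨c, hc, e⟩ := hM.scalar_of_pow hg
  obtain ⟨d, hd⟩ := IsAlgClosed.exists_pow_nat_eq c⁻¹ hn
  have hd0 : d ≠ 0 := by
    rintro rfl
    exact inv_ne_zero hc (by rw [← hd]; simp [hn.ne'])
  refine ⟨d • M, hM.smul hd0, ?_⟩
  rw [smul_pow, e, hd, smul_smul, inv_mul_cancel₀ hc, one_smul]

/-! #### change of basis, base change, restriction -/

/-- the representation in the basis formed by the columns of `B` -/
def cb (π : G →* ProjGenLinGroup ι K) (B : GL ι K) : G →* ProjGenLinGroup ι K :=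
  (MulAut.conj (ProjGenLinGroup.mk B⁻¹)).toMonoidHom.comp π

theorem cb_injective (hπ : Function.Injective π) (B : GL ι K) :
    Function.Injective (cb π B) := (MulAut.conj _).injective.comp hπ

theorem Rep.cb (h : Rep π g M) (B : GL ι K) : Rep (cb π B) g (cj B⁻¹ M) := by
  obtain ⟨x, rfl, hx⟩ := h
  refine ⟨B⁻¹ * x * B⁻¹⁻¹, (cj_coe _ _).symm, ?_⟩
  simp [D4.cb, hx]

theorem rep_cb_iff {B : GL ι K} : Rep (cb π B) g M ↔ Rep π g (cj B M) := by
  constructor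
  · rintro ⟨x, rfl, hx⟩
    refine ⟨B * x * B⁻¹, (cj_coe _ _).symm, ?_⟩
    simp only [D4.cb, MulEquiv.toMonoidHom_eq_coe, MonoidHom.coe_comp, MonoidHom.coe_coe,
      Function.comp_apply, MulAut.conj_apply] at hx
    simp [← hx, mul_assoc]
  · intro h
    simpa using h.cb B

/-- `B⁻¹ M B = N` from `M B = B N` -/
theorem Rep.cb_of (h : Rep π g M) (B : GL ι K) (e : M * (B : Matrix ι ι K) = B * N) :
    Rep (D4.cb π B) g N := by
  refine (h.cb B).congr ?_
  rw [cj_apply, inv_inv, mul_assoc, e, Units.inv_mul_cancel_left]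

theorem cj_one_add_vecMulVec (B : GL ι K) (v φ : ι → K) :
    cj B (1 + vecMulVec v φ) =
      1 + vecMulVec ((B : Matrix ι ι K) *ᵥ v) (φ ᵥ* ((B⁻¹ : GL ι K) : Matrix ι ι K)) := by
  rw [map_add, map_one, cj_apply, Matrix.mul_vecMulVec, Matrix.vecMulVec_mul]

theorem dot_cj (B : GL ι K) (v φ : ι → K) :
    (φ ᵥ* ((B⁻¹ : GL ι K) : Matrix ι ι K)) ⬝ᵥ ((B : Matrix ι ι K) *ᵥ v) = φ ⬝ᵥ v := by
  rw [← Matrix.dotProduct_mulVec, inv_mulVec_mulVec]

theorem rep_comp {H : Type*} [Group H] (f : H →* G) {x : H} : Rep (π.comp f) x M ↔ Rep π (f x) M :=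
  Iff.rfl

/-- `a` and `b` have commuting representatives -/
def Com (π : G →* ProjGenLinGroup ι K) (a b : G) : Prop :=
  ∃ A B, Rep π a A ∧ Rep π b B ∧ A * B = B * A

/-- `a` and `b` have anticommuting representatives -/
def Anti (π : G →* ProjGenLinGroup ι K) (a b : G) : Prop :=
  ∃ A B, Rep π a A ∧ Rep π b B ∧ A * B = -(B * A)

theorem Com.eq {a b : G} (h : Com π a b) (ha : Rep π a M) (hb : Rep π b N) : M * N = N * M := by
  obtain ⟨A, B, hA, hB, e⟩ := h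
  obtain ⟨c, -, rfl⟩ := hA.unique ha
  obtain ⟨d, -, rfl⟩ := hB.unique hb
  simp only [smul_mul_smul_comm, e, mul_comm c]

theorem Anti.eq {a b : G} (h : Anti π a b) (ha : Rep π a M) (hb : Rep π b N) :
    M * N = -(N * M) := by
  obtain ⟨A, B, hA, hB, e⟩ := h
  obtain ⟨c, -, rfl⟩ := hA.unique ha
  obtain ⟨d, -, rfl⟩ := hB.unique hb
  simp only [smul_mul_smul_comm, e, mul_comm c, smul_neg]

/-- the elements whose representatives commute with those of `z` -/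
def Cz (π : G →* ProjGenLinGroup ι K) (z : G) : Subgroup G where
  carrier := {g | Com π g z}
  one_mem' := let ⟨M, hM⟩ := exists_rep π z; ⟨1, M, rep_one π, hM, by simp⟩
  mul_mem' := fun {a b} ⟨A, Z, hA, hZ, e⟩ hb => by
    obtain ⟨B, hB⟩ := exists_rep π b
    exact ⟨A * B, Z, hA.mul hB, hZ, by rw [mul_assoc, hb.eq hB hZ, ← mul_assoc, e, mul_assoc]⟩
  inv_mem' := fun {a} ⟨A, Z, hA, hZ, e⟩ => ⟨A⁻¹, Z, hA.inv, hZ, by
    rw [← mul_one (A⁻¹ * Z), ← hA.mul_inv, ← mul_assoc, mul_assoc _ Z, ← e, ← mul_assoc,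
      hA.inv_mul, one_mul]⟩

theorem mem_Cz {z : G} : g ∈ Cz π z ↔ Com π g z := Iff.rfl

/-- the elements all of whose representatives commute with every matrix commuting with a
representative of `z`; for an involution `z` these act as scalars on both eigenspaces -/
def Zc (π : G →* ProjGenLinGroup ι K) (z : G) : Subgroup G where
  carrier := {g | ∀ M Z N, Rep π g M → Rep π z Z → N * Z = Z * N → N * M = M * N}
  one_mem' := fun M Z N hM _ _ => by
    obtain ⟨c, -, rfl⟩ := hM.scalar_of_one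
    simp
  mul_mem' := fun {a b} ha hb M Z N hM hZ e => by
    obtain ⟨A, hA⟩ := exists_rep π a
    obtain ⟨B, hB⟩ := exists_rep π b
    obtain ⟨c, -, rfl⟩ := (hA.mul hB).unique hM
    rw [mul_smul_comm, smul_mul_assoc, ← mul_assoc, ha A Z N hA hZ e, mul_assoc,
      hb B Z N hB hZ e, mul_assoc]
  inv_mem' := fun {a} ha M Z N hM hZ e => by
    have h1 := hM.inv
    rw [inv_inv] at h1
    have e1 := ha _ Z N h1 hZ e
    rw [← mul_one (M * N), ← hM.inv_mul, ← mul_assoc, mul_assoc M, e1, ← mul_assoc, hM.mul_inv,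
      one_mul]

end Rep

/-! ### Dimension four -/

/-- the index set of the blocks -/
abbrev I4 := Fin 2 ⊕ Fin 2

abbrev M4 (K : Type*) := Matrix I4 I4 K

abbrev M2 (K : Type*) := Matrix (Fin 2) (Fin 2) K

abbrev PG4 (K : Type*) [Field K] := ProjGenLinGroup I4 K

section Four

variable {G K : Type*} [Group G] [Field K]

/-- block diagonal -/
abbrev bd (A B : M2 K) : M4 K := fromBlocks A 0 0 B

/-- block antidiagonal -/
abbrev ad (A B : M2 K) : M4 K := fromBlocks 0 A B 0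

/-- `diag(a, b)` -/
abbrev d2 (a b : K) : M2 K := !![a, 0; 0, b]

/-- `diag(a, b, c, d)` -/
abbrev dg (a b c d : K) : M4 K := bd (d2 a b) (d2 c d)

/-- `diag(1, 1, -1, -1)` -/
abbrev zz : M4 K := bd 1 (-1)

/-- diagonal or antidiagonal -/
def DA (A : M2 K) : Prop := (A 0 1 = 0 ∧ A 1 0 = 0) ∨ (A 0 0 = 0 ∧ A 1 1 = 0)

/-- the monomial matrix `e_j ↦ d_j e_{σ j}` -/
def mon (σ : Equiv.Perm I4) (d : I4 → K) : M4 K := Matrix.of fun i j => if i = σ j then d j else 0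

/-- block diagonal change of basis -/
def bdG (A B : GL (Fin 2) K) : GL I4 K :=
  ⟨bd A B, bd (A⁻¹ : GL (Fin 2) K) (B⁻¹ : GL (Fin 2) K),
    by simp [fromBlocks_multiply], by simp [fromBlocks_multiply]⟩

/-- exchange of the two blocks -/
def swG : GL I4 K := ⟨ad 1 1, ad 1 1, by simp [fromBlocks_multiply], by simp [fromBlocks_multiply]⟩

/-- `g` acts as a reflection (a homology of order two) -/
def Refl (π : G →* PG4 K) (g : G) : Prop :=
  ∃ v φ : I4 → K, φ ⬝ᵥ v = -2 ∧ Rep π g (1 + vecMulVec v φ)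

/-- no reflections -/
def NR (π : G →* PG4 K) : Prop := ∀ g, ¬ Refl π g

/-- The standing hypothesis: a simple group acting faithfully and absolutely irreducibly on
projective `3`-space without elations. -/
structure Cx (π : G →* PG4 K) : Prop where
  simple : IsSimpleGroup G
  nonab : ¬ IsMulCommutative G
  inj : Function.Injective π
  irr : Submodule.span K {M | ∃ g, Rep π g M} = ⊤
  nt : ∀ g (v φ : I4 → K), φ ⬝ᵥ v = 0 → Rep π g (1 + vecMulVec v φ) → vecMulVec v φ = 0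

variable {π : G →* PG4 K}

theorem bd_mul (A B C D : M2 K) : bd A B * bd C D = bd (A * C) (B * D) := by
  simp [fromBlocks_multiply]

theorem det_bd (A B : M2 K) : (bd A B).det = A.det * B.det := det_fromBlocks_zero₂₁ _ _ _

theorem bd_eq_smul {A B C D : M2 K} {c : K} :
    bd A B = c • bd C D ↔ A = c • C ∧ B = c • D := by
  simp [fromBlocks_smul, fromBlocks_inj]

/-- the stabiliser of the two coordinate planes -/
def C0 (π : G →* PG4 K) : Subgroup G where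
  carrier := {g | ∃ A B, Rep π g (bd A B)}
  one_mem' := ⟨1, 1, (rep_one π).congr (by simp)⟩
  mul_mem' := fun ⟨_, _, h⟩ ⟨_, _, h'⟩ => ⟨_, _, (h.mul h').congr (bd_mul ..)⟩
  inv_mem' := fun ⟨A, B, h⟩ => by
    have hd := h.det_ne
    rw [det_bd] at hd
    refine ⟨A⁻¹, B⁻¹, h.inv' ?_⟩
    rw [bd_mul, mul_nonsing_inv _ (Ne.isUnit (left_ne_zero_of_mul hd)),
      mul_nonsing_inv _ (Ne.isUnit (right_ne_zero_of_mul hd))]
    exact fromBlocks_one

theorem exists_x (π : G →* PG4 K) : ∃ x y : C0 π →* PGL(2, K),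
    ∀ (g : C0 π) A B, Rep π g (bd A B) → Rep x g A ∧ Rep y g B := by
  choose A B h using fun g : C0 π => g.2
  have hd : ∀ g, (A g).det ≠ 0 ∧ (B g).det ≠ 0 := fun g =>
    mul_ne_zero_iff.1 (det_bd (A g) (B g) ▸ (h g).det_ne)
  have hm : ∀ a b, ∃ c : K, c ≠ 0 ∧ A a * A b = c • A (a * b) ∧ B a * B b = c • B (a * b) :=
    fun a b => by
    obtain ⟨c, hc, e⟩ := (h (a * b)).unique ((h a).mul (h b))
    rw [bd_mul, bd_eq_smul] at e
    exact ⟨c, hc, e⟩
  refine ⟨MonoidHom.mk' (fun g => ProjGenLinGroup.mk (.mkOfDetNeZero (A g) (hd g).1)) fun a b => ?_,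
    MonoidHom.mk' (fun g => ProjGenLinGroup.mk (.mkOfDetNeZero (B g) (hd g).2)) fun a b => ?_,
    fun g C D e => ?_⟩
  · obtain ⟨c, hc, e, -⟩ := hm a b
    rw [← map_mul, mk_eq_mk_iff_smul]
    exact ⟨c, hc, e⟩
  · obtain ⟨c, hc, -, e⟩ := hm a b
    rw [← map_mul, mk_eq_mk_iff_smul]
    exact ⟨c, hc, e⟩
  · obtain ⟨c, hc, e'⟩ := (h g).unique e
    obtain ⟨rfl, rfl⟩ := bd_eq_smul.1 e'
    exact ⟨Rep.smul (M := A g) ⟨.mkOfDetNeZero (A g) (hd g).1, rfl, rfl⟩ hc,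
      Rep.smul (M := B g) ⟨.mkOfDetNeZero (B g) (hd g).2, rfl, rfl⟩ hc⟩

/-- the action on the first coordinate line -/
noncomputable def x1 (π : G →* PG4 K) : C0 π →* PGL(2, K) := (exists_x π).choose

/-- the action on the second coordinate line -/
noncomputable def x2 (π : G →* PG4 K) : C0 π →* PGL(2, K) := (exists_x π).choose_spec.choose

theorem rep_x1 {g : C0 π} {A B : M2 K} (h : Rep π (g : G) (bd A B)) : Rep (x1 π) g A :=
  ((exists_x π).choose_spec.choose_spec g A B h).1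

theorem rep_x2 {g : C0 π} {A B : M2 K} (h : Rep π (g : G) (bd A B)) : Rep (x2 π) g B :=
  ((exists_x π).choose_spec.choose_spec g A B h).2

/-- `X` fixes a point -/
def FixV (X : Subgroup PGL(2, K)) : Prop := ∃ v : Fin 2 → K, v ≠ 0 ∧
  ∀ x : GL (Fin 2) K, ProjGenLinGroup.mk x ∈ X → ∃ c : K, (x : M2 K) *ᵥ v = c • v

/-- `X` is monomial in a suitable basis -/
def FixP (X : Subgroup PGL(2, K)) : Prop := ∃ B : GL (Fin 2) K,
  ∀ x : GL (Fin 2) K, ProjGenLinGroup.mk x ∈ X → DA (cj B⁻¹ (x : M2 K))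

/-- Dickson's list without the groups over subfields -/
def DK (X : Subgroup PGL(2, K)) : Prop :=
  FixV X ∨ FixP X ∨ Nonempty (X ≃* alternatingGroup (Fin 4)) ∨ Nonempty (X ≃* Equiv.Perm (Fin 4)) ∨
    Nonempty (X ≃* alternatingGroup (Fin 5))

/-- the quadratic elements `1 + N` with `Im N ≤ L ≤ ker N` -/
def AL (π : G →* PG4 K) (L : Submodule K (I4 → K)) : Set (M4 K) :=
  {N | (∃ g, Rep π g (1 + N)) ∧ (∀ v, N *ᵥ v ∈ L) ∧ ∀ v ∈ L, N *ᵥ v = 0}

/-- a plane carrying more than three quadratic elements -/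
def Big (π : G →* PG4 K) (L : Submodule K (I4 → K)) : Prop :=
  Module.finrank K L = 2 ∧ ∃ N ∈ AL π L, ∃ N' ∈ AL π L, N ≠ 0 ∧ N' ≠ 0 ∧ N' ≠ N ∧ N' ≠ -N

/-- the derived group of `Cz π z` -/
abbrev Lz (π : G →* PG4 K) (z : G) : Subgroup G := ⁅Cz π z, Cz π z⁆

/-- the involution `z` has `Cz = Zc × A₅` -/
structure Beta (π : G →* PG4 K) (z : G) : Prop where
  sq : z ^ 2 = 1
  ne : z ≠ 1
  iso : Nonempty (Lz π z ≃* alternatingGroup (Fin 5))
  dec : ∀ g ∈ Cz π z, ∃ c ∈ Zc π z, ∃ l ∈ Lz π z, g = c * l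
  disj : ∀ c ∈ Zc π z, c ∈ Lz π z → c = 1
  anti : ∀ t ∈ Lz π z, ∀ s ∈ Lz π z, t ^ 2 = 1 → s ^ 2 = 1 → t ≠ 1 → s ≠ 1 → t ≠ s →
    t * s = s * t → Anti π t s

/-- what is known on a `2`-central involution if there are reflections -/
structure RA (π : G →* PG4 K) (z : G) : Prop where
  not_refl : ¬ Refl π z
  swap : ∃ w, Anti π w z
  four : ∃ c ∈ Zc π z, c ^ 2 = z
  refl : ∃ r, Refl π r ∧ r * z = z * r

/-- the group induced on an eigenline of `z` is `S₄` -/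
def S4T (π : G →* PG4 K) (z : G) : Prop :=
  ∃ B, Rep (cb π B) z zz ∧ Nonempty ((x1 (cb π B)).range ≃* Equiv.Perm (Fin 4))

/-- a perfect linear group covering `G` -/
structure Lin {P : Type*} [Group P] (π : G →* PG4 K) (q : P →* G) (ρ : P →* GL I4 K) : Prop where
  surj : Function.Surjective q
  perf : commutator P = ⊤
  rep : ∀ x, Rep π (q x) (ρ x)
  inj : Function.Injective ρ
  det : ∀ x, (ρ x : M4 K).det = 1

end Four

/-! ### Traces -/

section Tr

variable {P K ι : Type*} [Group P] [Field K] [Fintype ι] [DecidableEq ι]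

/-- the character -/
abbrev tr (ρ : P →* GL ι K) (x : P) : K := (ρ x : Matrix ι ι K).trace

def RealTr (ρ : P →* GL ι K) : Prop := ∀ x, tr ρ x⁻¹ = tr ρ x

def FrobTr (ρ : P →* GL ι K) (p : ℕ) : Prop := ∀ x, tr ρ x⁻¹ = tr ρ x ^ p

/-- the character takes values in `ℤ[θ]`, `θ² - s θ + n = 0`, and inversion induces `θ ↦ θ'` -/
def QuadTr (ρ : P →* GL ι K) (s n : ℤ) : Prop := ∃ θ θ' : K, θ + θ' = s ∧ θ * θ' = n ∧
  (∃ (x : P) (a b : ℤ), (b : K) ≠ 0 ∧ tr ρ x = a + b * θ) ∧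
    ∀ x : P, ∃ a b : ℤ, tr ρ x = a + b * θ ∧ tr ρ x⁻¹ = a + b * θ'

end Tr

/-! ### Configurations in abstract groups -/

section Wit

variable (G : Type*) [Group G]

/-- a non-abelian `3`-subgroup of class two -/
def Heis0 : Prop := ∃ a b : G, a ^ 9 = 1 ∧ b ^ 9 = 1 ∧ ⁅a, b⁆ ≠ 1 ∧ ⁅a, b⁆ ^ 3 = 1 ∧
  Commute ⁅a, b⁆ a ∧ Commute ⁅a, b⁆ b

/-- the same with real commutator -/
def Heis : Prop := ∃ a b : G, a ^ 9 = 1 ∧ b ^ 9 = 1 ∧ ⁅a, b⁆ ≠ 1 ∧ ⁅a, b⁆ ^ 3 = 1 ∧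
  Commute ⁅a, b⁆ a ∧ Commute ⁅a, b⁆ b ∧ IsConj ⁅a, b⁆ ⁅a, b⁆⁻¹

/-- an elementary abelian group of order nine with fused non-identity elements -/
def E9c : Prop := ∃ a b : G, a ^ 3 = 1 ∧ a ≠ 1 ∧ a * b = b * a ∧ IsConj a a⁻¹ ∧ IsConj a b ∧
  IsConj a (a * b) ∧ IsConj a (a * b⁻¹)

/-- `2³:7` or `2⁴:15` -/
def E87 : Prop := ∃ (a : ℕ → G) (h : G), (∀ i, a (i + 1) = h * a i * h⁻¹) ∧ a 0 ^ 2 = 1 ∧
  (∀ i j, a i * a j = a j * a i) ∧ (a 3 = a 0 * a 1 ∨ a 4 = a 0 * a 1) ∧ a 0 ≠ 1 ∧ a 1 ≠ a 0 ∧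
  a 2 ≠ a 0 ∧ a 2 ≠ a 0 * a 1

/-- an element of prime order `r` with an automiser of order at least five -/
def Aut5 (r : ℕ) : Prop := ∃ x h : G, x ^ r = 1 ∧ h * x * h⁻¹ ∈ Subgroup.zpowers x ∧
  ¬ Commute (h ^ 3) x ∧ ¬ Commute (h ^ 4) x

/-- an element of order five acting on a `2`-group inside the centraliser of an involution -/
def C10 : Prop := ∃ (z x : G) (T : Subgroup G), z ^ 2 = 1 ∧ z ≠ 1 ∧ x ^ 5 = 1 ∧ x * z = z * x ∧
  IsPGroup 2 T ∧ (∀ t ∈ T, t * z = z * t) ∧ (∀ t ∈ T, x * t * x⁻¹ ∈ T) ∧ ∃ t ∈ T, x * t ≠ t * x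

/-- `h` centralises an involution -/
def CI (h : G) : Prop := ∃ t : G, t ^ 2 = 1 ∧ t ≠ 1 ∧ h * t = t * h

/-- an elementary abelian `r²`, `r` odd, three of whose lines centralise involutions -/
def OIw : Prop := ∃ (r : ℕ) (h k : G), r.Prime ∧ r ≠ 2 ∧ h ^ r = 1 ∧ k ^ r = 1 ∧ h ≠ 1 ∧
  h * k = k * h ∧ k ∉ Subgroup.zpowers h ∧ CI G h ∧ CI G k ∧ CI G (h * k)

/-- elements of odd order are real -/
def OddReal : Prop := ∀ g : G, Odd (orderOf g) → IsConj g g⁻¹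

end Wit

/-! ### Alternating matrices -/

section Alt

variable {F : Type*} [Field F]

/-- the Hodge dual -/
def hs (y : Matrix (Fin 4) (Fin 4) F) : Matrix (Fin 4) (Fin 4) F :=
  !![0, y 2 3, -y 1 3, y 1 2; -y 2 3, 0, y 0 3, -y 0 2; y 1 3, -y 0 3, 0, y 0 1;
    -y 1 2, y 0 2, -y 0 1, 0]

/-- the polar form of the Pfaffian -/
def bt (y w : Matrix (Fin 4) (Fin 4) F) : F :=
  y 0 1 * w 2 3 - y 0 2 * w 1 3 + y 0 3 * w 1 2 + y 2 3 * w 0 1 - y 1 3 * w 0 2 + y 1 2 * w 0 3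

/-- seven alternating matrices forming a regular simplex permuted by `H` -/
structure Sev (H : Subgroup (GL (Fin 4) F)) (y : Fin 7 → Matrix (Fin 4) (Fin 4) F) (κ b : F) :
    Prop where
  alt : ∀ i, (y i)ᵀ = -y i
  diag : ∀ i, bt (y i) (y i) = κ
  off : ∀ i j, i ≠ j → bt (y i) (y j) = b
  ne : κ - b ≠ 0
  act : ∀ h ∈ H, ∃ (ε : F) (s : Equiv.Perm (Fin 7)), (ε = 1 ∨ ε = -1) ∧ ¬ s.IsThreeCycle ∧
    ∀ i, (h : Matrix (Fin 4) (Fin 4) F) * y i * (h : Matrix (Fin 4) (Fin 4) F)ᵀ = ε • y (s i)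

end Alt

end CfsgLib.D4
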