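import Cfsg.Agent.Lib.D4.Defs
import Cfsg.Agent.Lib.Mit.Res1

/-! The field of definition.  See `plans/D4.md`. -/

set_option autoImplicit false

namespace CfsgLib.D4

open Matrix Cfsg Cfsg.Geo CfsgLib.Asch
open scoped MatrixGroups commutatorElement

variable {F : Type*} [Field F] [Fintype F] {H P : Subgroup (GL (Fin 4) F)}

/-- `P` fixes neither a quadratic nor a symplectic form -/
def NoBil (P : Subgroup (GL (Fin 4) F)) : Prop :=
  (¬ ∃ Q : (Fin 4 → F) → F, IsNondegenerateQuadraticForm Q ∧ FixesQuadForm (matrixSet P) Q) ∧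
    ¬ ∃ f : (Fin 4 → F) → (Fin 4 → F) → F, IsSymplecticForm f ∧ FixesForm (matrixSet P) f

/-- `P` fixes a unitary form -/
def HasU (P : Subgroup (GL (Fin 4) F)) : Prop :=
  ∃ (σ : F ≃+* F) (f : (Fin 4 → F) → (Fin 4 → F) → F), IsUnitaryForm σ f ∧ FixesForm (matrixSet P) f

theorem not_realTr (hP : IsResidualCore H P) (hb : NoBil P) : ¬ RealTr P.subtype := by
  intro h
  obtain ⟨f, hf, hs | hs⟩ := exists_bilin_of_trace (span_eq_top_of_absIrred hP.absIrred) fun x hx => h ⟨x, hx⟩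
  · by_cases h2 : (2 : F) = 0
    swap
    · exact hb.1 ⟨_, quadratic_of_symm hs h2, fun s h v => hf s h v v⟩
    have hadd : ∀ u v, f (u + v) (u + v) = f u u + f v v := fun u v => by
      rw [hs.bilinear.add_left, hs.bilinear.add_right, hs.bilinear.add_right, hs.symm v u]
      linear_combination f u v * h2
    have hsm : ∀ (c : F) v, f (c • v) (c • v) = c * c * f v v := fun c v => by
      rw [hs.bilinear.smul_left, hs.bilinear.smul_right, mul_assoc]
    let W : Submodule F (Fin 4 → F) :=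
      { carrier := {v | f v v = 0}
        add_mem' := fun {u v} hu hv => by
          show f _ _ = 0
          rw [hadd, show f u u = 0 from hu, show f v v = 0 from hv, add_zero]
        zero_mem' := by
          show f _ _ = 0
          rw [← zero_smul F (0 : Fin 4 → F), hsm]; simp
        smul_mem' := fun c v hv => by
          show f _ _ = 0
          rw [hsm, show f v v = 0 from hv, mul_zero] }
    rcases hP.absIrred.1 W (fun s hs' => by
      rintro _ ⟨v, hv, rfl⟩
      show f _ _ = 0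
      rw [toLin'_apply, hf s hs']; exact hv) with h0 | h0
    · have hc : ringChar F = 2 := by
        haveI : Fact (Nat.Prime 2) := ⟨Nat.prime_two⟩
        haveI : CharP F 2 := (CharP.charP_iff_prime_eq_zero Nat.prime_two).2 (by exact_mod_cast h2)
        exact ringChar.eq F 2
      obtain ⟨a, ha⟩ := FiniteField.isSquare_of_char_two hc (f (Pi.single 0 1) (Pi.single 0 1))
      obtain ⟨b, hb'⟩ := FiniteField.isSquare_of_char_two hc (f (Pi.single 1 1) (Pi.single 1 1))
      have h1 : b • (Pi.single 0 1 : Fin 4 → F) + a • Pi.single 1 1 ∈ W := by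
        show f _ _ = 0
        rw [hadd, hsm, hsm, ha, hb']
        linear_combination a * a * b * b * h2
      rw [h0, Submodule.mem_bot] at h1
      have h3 : a = 0 := by simpa using congrFun h1 1
      have h4 : (Pi.single 0 1 : Fin 4 → F) ∈ W := by
        show f _ _ = 0
        rw [ha, h3, mul_zero]
      rw [h0, Submodule.mem_bot] at h4
      simpa using congrFun h4 0
    · refine hb.2 ⟨f, ⟨hs.bilinear, fun v w => ?_, fun v => (h0.ge Submodule.mem_top : v ∈ W), hs.nondegenerate⟩, hf⟩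
      rw [hs.symm v w]
      linear_combination f w v * h2
  · exact hb.2 ⟨f, hs, hf⟩

theorem Fld.pow_eq (p : ℕ) [hp : Fact p.Prime] [CharP F p] (hP : IsResidualCore H P) (k : ℕ)
    (h : ∀ x : P, tr P.subtype x ^ p ^ k = tr P.subtype x) (a : F) : a ^ p ^ k = a := by
  have : ExpChar F p := ExpChar.prime hp.out
  have h1 : RingHom.eqLocusField (iterateFrobenius F p k) (RingHom.id F) = ⊤ := by
    by_contra hne
    refine hP.no_subfield _ hne (realisable_of_trace (matrixSet_mul_mem P)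
      (env_eq_top_iff.1 (span_eq_top_of_absIrred hP.absIrred)) ?_)
    rintro _ ⟨x, hx, rfl⟩
    exact h ⟨x, hx⟩
  have h2 : a ∈ RingHom.eqLocusField (iterateFrobenius F p k) (RingHom.id F) := by
    rw [h1]; trivial
  exact h2

theorem Fld.frob (p : ℕ) [Fact p.Prime] [CharP F p] (hP : IsResidualCore H P) (hb : NoBil P)
    (h : FrobTr P.subtype p) : Fintype.card F = p ^ 2 ∧ HasU P := by
  have hF : Fintype.card F = p ^ 2 := by
    refine (Mit.card_eq_of_pow_sq (Fld.pow_eq p hP 2 fun x => ?_)).resolve_left fun hc => not_realTr hP hb fun x => ?_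
    · rw [sq, pow_mul, ← h x, ← h x⁻¹, inv_inv]
    · rw [h x, ← hc, FiniteField.pow_card]
  let σ : F ≃+* F := RingEquiv.ofRingHom (Unitary.conj hF) (Unitary.conj hF)
    (RingHom.ext (Unitary.conj_conj hF)) (RingHom.ext (Unitary.conj_conj hF))
  obtain ⟨f, hf⟩ := exists_unitary_of_trace (span_eq_top_of_absIrred hP.absIrred) σ
    (fun e => Unitary.conj_ne_id hF (RingHom.ext fun a => DFunLike.congr_fun e a))
    (Unitary.conj_conj hF) fun x hx => h ⟨x, hx⟩
  exact ⟨hF, σ, f, hf⟩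

omit [Fintype F] in
theorem Fld.lin (p : ℕ) [Fact p.Prime] [CharP F p] (a b : ℤ) (θ : F) : (a + b * θ) ^ p = a + b * θ ^ p := by
  have : ∀ n : ℤ, (n : F) ^ p = n := fun n => map_intCast (frobenius F p) n
  rw [add_pow_char, mul_pow, this, this]

theorem Fld.quad (p : ℕ) [Fact p.Prime] [CharP F p] (hP : IsResidualCore H P) (hb : NoBil P) {θ θ' : F}
    (h : ∀ x : P, ∃ a b : ℤ, tr P.subtype x = a + b * θ ∧ tr P.subtype x⁻¹ = a + b * θ') :
    θ ≠ θ' ∧ (θ ^ p = θ → Fintype.card F = p) ∧ (θ ^ p = θ' → Fintype.card F = p ^ 2 ∧ HasU P) := by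
  refine ⟨fun e => not_realTr hP hb fun x => ?_, fun e => Mit.card_eq_of_pow fun a => ?_,
    fun e => Fld.frob p hP hb fun x => ?_⟩
  · obtain ⟨a, b, h1, h2⟩ := h x
    rw [h1, h2, e]
  · rw [← pow_one p]
    refine Fld.pow_eq p hP 1 (fun x => ?_) a
    obtain ⟨a, b, h1, -⟩ := h x
    rw [pow_one, h1, Fld.lin, e]
  · obtain ⟨a, b, h1, h2⟩ := h x
    rw [h1, h2, Fld.lin, e]

theorem field7 (p : ℕ) [Fact p.Prime] [CharP F p] (hP : IsResidualCore H P) (hb : NoBil P)
    (h : QuadTr P.subtype 1 2) :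
    (Fintype.card F = p ∧ (p = 2 ∨ p % 7 = 1 ∨ p % 7 = 2 ∨ p % 7 = 4)) ∨
      (Fintype.card F = p ^ 2 ∧ (p % 7 = 3 ∨ p % 7 = 5 ∨ p % 7 = 6) ∧ HasU P) := by
  obtain ⟨θ, θ', hs, hn, -, h⟩ := h
  push_cast at hs hn
  obtain ⟨h1, h2, h3⟩ := Fld.quad p hP hb h
  have h7 : p ≠ 7 := by
    rintro rfl
    have h0 : (7 : F) = 0 := by exact_mod_cast CharP.cast_eq_zero F 7
    have : (θ - θ') ^ 2 = 0 := by linear_combination (θ + θ' + 1) * hs - 4 * hn - h0
    exact h1 (sub_eq_zero.1 ((pow_eq_zero_iff two_ne_zero).1 this))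
  have hneg : (-θ) ^ p = -θ ^ p := by rw [neg_pow, neg_one_pow_char, neg_one_mul]
  rcases Mit.frob_alpha (p := p) (α := -θ) (by linear_combination θ * hs - hn) h7 with ⟨h4, e⟩ | ⟨h4, e⟩
  · exact .inl ⟨h2 (by linear_combination hneg - e), .inr h4⟩
  · obtain ⟨h5, h6⟩ := h3 (by linear_combination hneg - e - hs)
    exact .inr ⟨h5, h4, h6⟩

theorem field3 (p : ℕ) [Fact p.Prime] [CharP F p] (hP : IsResidualCore H P) (hb : NoBil P)
    (h2 : p ≠ 2) (h : QuadTr P.subtype (-1) 1) :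
    (Fintype.card F = p ∧ p % 6 = 1) ∨ (Fintype.card F = p ^ 2 ∧ p % 6 = 5 ∧ HasU P) := by
  obtain ⟨θ, θ', hs, hn, -, h⟩ := h
  push_cast at hs hn
  obtain ⟨h1, h4, h5⟩ := Fld.quad p hP hb h
  have h3 : p ≠ 3 := by
    rintro rfl
    have h0 : (3 : F) = 0 := by exact_mod_cast CharP.cast_eq_zero F 3
    have : (θ - θ') ^ 2 = 0 := by linear_combination (θ + θ' - 1) * hs - 4 * hn - h0
    exact h1 (sub_eq_zero.1 ((pow_eq_zero_iff two_ne_zero).1 this))
  have ho := (Fact.out : p.Prime).eq_two_or_odd.resolve_left h2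
  have hω : θ ^ 2 + θ + 1 = 0 := by linear_combination θ * hs - hn
  rcases Mit.frob_omega (p := p) hω h3 with ⟨h6, e⟩ | ⟨h6, e⟩
  · exact .inl ⟨h4 e, by omega⟩
  · obtain ⟨h7, h8⟩ := h5 (by linear_combination e + hω - hs)
    exact .inr ⟨h7, by omega, h8⟩

theorem fieldF (p : ℕ) [Fact p.Prime] [CharP F p] (hP : IsResidualCore H P) (hb : NoBil P)
    (h : FrobTr P.subtype p) : Fintype.card F = p ^ 2 ∧ HasU P := Fld.frob p hP hb h

end CfsgLib.D4
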