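import Cfsg.Agent.Lib.D4.Basic
import Cfsg.Agent.Lib.TriGen.Cyc

/-! Two quadratic generators, the lemma of Scott, elementary abelian `2`-subgroups.  See `plans/D4.md`. -/

set_option autoImplicit false

namespace CfsgLib.D4

open Matrix Cfsg Cfsg.Geo CfsgLib.Asch
open scoped MatrixGroups commutatorElement

namespace Gen

variable {K : Type*} [Field K]

theorem finrank_M4 : Module.finrank K (M4 K) = 16 := by
  rw [Module.finrank_matrix]; simp

theorem rank_add_ker (A : M4 K) :
    (A - 1).rank + Module.finrank K (LinearMap.ker (toLin' A - 1)) = 4 := by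
  have := (toLin' (A - 1)).finrank_range_add_finrank_ker
  rw [Module.finrank_fintype_fun_eq_card] at this
  rw [show toLin' A - 1 = toLin' (A - 1) by rw [map_sub, toLin'_one]; rfl]
  exact this

theorem trace_lr (M N : M4 K) :
    LinearMap.trace K _ (LinearMap.mulLeft K M ∘ₗ LinearMap.mulRight K N) = M.trace * N.trace := by
  have e : ∀ (X : M4 K) (i j : I4), (stdBasis K I4 I4).repr X (i, j) = X i j := fun X i j => by
    simp [stdBasis]
  rw [LinearMap.trace_eq_matrix_trace K (stdBasis K I4 I4), trace, trace, trace,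
    Fintype.sum_prod_type, Finset.sum_mul_sum]
  refine Finset.sum_congr rfl fun i _ => Finset.sum_congr rfl fun j _ => ?_
  rw [diag_apply, LinearMap.toMatrix_apply, e, stdBasis_eq_single]
  simp [mul_apply, single_apply, ite_and]

theorem dg_of_comm (h2 : (2 : K) ≠ 0) {C : M4 K} (e1 : zz * C = C * zz)
    (e2 : dg 1 (-1) 1 (-1) * C = C * dg 1 (-1) 1 (-1)) : ∃ x y z w, C = dg x y z w := by
  have n : ∀ x : K, x = -x → x = 0 := fun x h =>
    (mul_eq_zero.1 (by linear_combination h : 2 * x = 0)).resolve_left h2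
  have n' : ∀ x : K, -x = x → x = 0 := fun x h => n x h.symm
  refine ⟨C (.inl 0) (.inl 0), C (.inl 1) (.inl 1), C (.inr 0) (.inr 0), C (.inr 1) (.inr 1), ?_⟩
  ext i j
  have a1 := congrFun (congrFun e1 i) j
  have a2 := congrFun (congrFun e2 i) j
  rcases i with i | i <;> rcases j with j | j <;> fin_cases i <;> fin_cases j <;>
    simp [mul_apply, Fintype.sum_sum_type, Fin.sum_univ_two, one_apply] at a1 a2 ⊢ <;>
    first | exact n _ a1 | exact n' _ a1 | exact n _ a2 | exact n' _ a2

end Gen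

open Gen

variable {G K : Type*} [Group G] [Finite G] [Field K] [IsAlgClosed K] {π : G →* PG4 K}

set_option linter.unusedSectionVars false in
theorem qq (hx : Cx π) {a b : G} (hg : Subgroup.closure {a, b} = ⊤) {A B : M4 K} (hA : Rep π a A)
    (hB : Rep π b B) {s t u v : K} (ea : A * A = s • A + t • 1) (eb : B * B = u • B + v • 1) : False := by
  classical
  have ea' : ∀ X, A * (A * X) = s • (A * X) + t • X := fun X => by
    rw [← mul_assoc, ea]; simp [add_mul]
  have eb' : ∀ X, B * (B * X) = u • (B * X) + v • X := fun X => by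
    rw [← mul_assoc, eb]; simp [add_mul]
  obtain ⟨c, hc⟩ := hx.scalar hg (Z := A * B + B * A - u • A - s • B) (by
    rintro g (rfl | rfl)
    · refine ⟨A, hA, ?_⟩
      simp only [sub_mul, add_mul, mul_sub, mul_add, mul_assoc, smul_mul_assoc, mul_smul_comm, ea,
        ea', mul_one]
      module
    · refine ⟨B, hB, ?_⟩
      simp only [sub_mul, add_mul, mul_sub, mul_add, mul_assoc, smul_mul_assoc, mul_smul_comm, eb,
        eb', mul_one]
      module)
  have ba : B * A = c • 1 + u • A + s • B - A * B := by rw [← hc]; abel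
  let S : Finset (M4 K) := {1, A, B, A * B}
  let W := Submodule.span K (S : Set (M4 K))
  have mem : ∀ x y z w : K, x • (1 : M4 K) + y • A + z • B + w • (A * B) ∈ W := fun x y z w => by
    refine add_mem (add_mem (add_mem ?_ ?_) ?_) ?_ <;>
      exact Submodule.smul_mem _ _ (Submodule.subset_span (by simp [S]))
  have gen : ∀ M : M4 K, (∀ X ∈ S, M * X ∈ W) → ∀ X ∈ W, M * X ∈ W := fun M h X hX =>
    (Submodule.span_le (p := W.comap (LinearMap.mulLeft K M))).2 h hX
  have key : ∀ g : G, ∃ M, Rep π g M ∧ ∀ X ∈ W, M * X ∈ W := fun g => by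
    have hm : g ∈ Submonoid.closure ({a, b} : Set G) := by
      rw [← Subgroup.closure_toSubmonoid_of_finite, hg]; trivial
    induction hm using Submonoid.closure_induction with
    | mem g hg =>
      rcases hg with rfl | rfl
      · refine ⟨A, hA, gen A fun X hX => ?_⟩
        simp only [S, Finset.mem_insert, Finset.mem_singleton] at hX
        rcases hX with rfl | rfl | rfl | rfl
        · simpa using mem 0 1 0 0
        · simpa [ea, add_comm] using mem t s 0 0
        · simpa using mem 0 0 0 1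
        · simpa [ea', add_comm] using mem 0 0 t s
      · refine ⟨B, hB, gen B fun X hX => ?_⟩
        simp only [S, Finset.mem_insert, Finset.mem_singleton] at hX
        rcases hX with rfl | rfl | rfl | rfl
        · simpa using mem 0 0 1 0
        · convert mem c u s (-1) using 1
          rw [ba]; module
        · simpa [eb, add_comm] using mem v 0 u 0
        · convert mem (s * v) (-v) (c + s * u) 0 using 1
          rw [← mul_assoc, ba]
          simp only [sub_mul, add_mul, mul_add, mul_assoc, smul_mul_assoc, mul_smul_comm, eb, mul_one,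
            one_mul]
          module
    | one => exact ⟨1, rep_one π, fun X hX => by simpa using hX⟩
    | mul x y _ _ hx hy =>
      obtain ⟨M, h1, h2⟩ := hx
      obtain ⟨N, h3, h4⟩ := hy
      exact ⟨_, h1.mul h3, fun X hX => mul_assoc M N X ▸ h2 _ (h4 X hX)⟩
  have top : W = ⊤ := by
    rw [eq_top_iff, ← hx.irr, Submodule.span_le]
    rintro N ⟨g, hN⟩
    obtain ⟨M, h1, h2⟩ := key g
    obtain ⟨c, -, rfl⟩ := h1.unique hN
    exact W.smul_mem c (by simpa using h2 1 (by simpa using mem 1 0 0 0))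
  have h1 : Module.finrank K W ≤ S.card := finrank_span_finset_le_card S
  rw [top, finrank_top, finrank_M4] at h1
  have h2 : S.card ≤ 4 := Finset.card_le_four
  omega

set_option linter.unusedSectionVars false in
theorem scott (hx : Cx π) {a b : G} (hg : Subgroup.closure {a, b} = ⊤) {A B C : M4 K}
    (hA : Rep π a A) (hB : Rep π b B) (e : A * B * C = 1) :
    8 ≤ (A - 1).rank + (B - 1).rank + (C - 1).rank := by
  have nt : ¬ (toLin' A - 1 = 0 ∧ toLin' B - 1 = 0) := fun ⟨h1, h2⟩ => hx.nonab (by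
    have k : ∀ {M : M4 K}, toLin' M - 1 = 0 → M = 1 := fun h =>
      toLin'.injective ((sub_eq_zero.1 h).trans toLin'_one.symm)
    rw [(hA.congr (k h1)).eq_one' hx.inj, (hB.congr (k h2)).eq_one' hx.inj] at hg
    have : ∀ g : G, g = 1 := fun g => by
      have := hg.ge (Subgroup.mem_top g)
      rwa [Set.pair_eq_singleton, Subgroup.closure_singleton_one, Subgroup.mem_bot] at this
    exact ⟨⟨fun x y => by rw [this x, this y]⟩⟩)
  have ap : ∀ (M : M4 K) v, (toLin' M - 1) v = M *ᵥ v - v := fun M v => rfl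
  have h1 := TriGen.scott (toLin' A) (toLin' B)
  have h2 : LinearMap.ker (toLin' A - 1) ⊓ LinearMap.ker (toLin' B - 1) = ⊥ := by
    refine (hx.irr_sub hg _ ?_).resolve_right fun h => nt ?_
    · rintro g (rfl | rfl)
      · exact ⟨A, hA, fun v hv => by rwa [sub_eq_zero.1 ((ap A v).symm.trans hv.1)]⟩
      · exact ⟨B, hB, fun v hv => by rwa [sub_eq_zero.1 ((ap B v).symm.trans hv.2)]⟩
    · simpa only [inf_eq_top_iff, LinearMap.ker_eq_top] using h
  have h3 : LinearMap.range (toLin' A - 1) ⊔ LinearMap.range (toLin' B - 1) = ⊤ := by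
    refine (hx.irr_sub hg _ ?_).resolve_left fun h => nt ?_
    · rintro g (rfl | rfl)
      · refine ⟨A, hA, fun v hv => ?_⟩
        simpa [ap] using add_mem (Submodule.mem_sup_left (LinearMap.mem_range_self _ v)) hv
      · refine ⟨B, hB, fun v hv => ?_⟩
        simpa [ap] using add_mem (Submodule.mem_sup_right (LinearMap.mem_range_self _ v)) hv
    · simpa only [sup_eq_bot_iff, LinearMap.range_eq_bot] using h
  rw [h2, h3, finrank_bot, finrank_top, Module.finrank_fintype_fun_eq_card,
    show toLin' A * toLin' B = toLin' (A * B) from (toLin'_mul A B).symm] at h1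
  have r1 := rank_add_ker A
  have r2 := rank_add_ker B
  have r3 := rank_add_ker (A * B)
  have r4 : (A * B - 1).rank ≤ (C - 1).rank := by
    rw [show A * B - 1 = -(A * B) * (C - 1) by rw [mul_sub, neg_mul, e]; noncomm_ring]
    exact rank_mul_le_right _ _
  have : Fintype.card I4 = 4 := rfl
  omega

set_option linter.unusedSectionVars false in
theorem iso8 (hx : Cx π) (h2 : (2 : K) ≠ 0) (hr : NR π) {a b c : G} (ha : a ^ 2 = 1) (hb : b ^ 2 = 1)
    (hc : c ^ 2 = 1) (hab : Com π a b) (hac : Com π a c) (hbc : Com π b c) (a1 : a ≠ 1) (b1 : b ≠ 1)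
    (ba : b ≠ a) : c = 1 ∨ c = a ∨ c = b ∨ c = a * b := by
  obtain ⟨B, hB⟩ := inv_nf hx.inj h2 ha a1 (hr a)
  obtain ⟨P, Q, hQ⟩ := frame_com (cb_injective hx.inj B) h2 hB hb b1 ba (hr.cb B b)
    ((com_cb B).2 hab.symm)
  have hP := hB.bdG_zz P Q
  have i2 := cb_injective (cb_injective hx.inj B) (bdG P Q)
  have r2 := (hr.cb B).cb (bdG P Q)
  have c1 := (com_cb (bdG P Q)).2 ((com_cb B).2 hac)
  have c2 := (com_cb (bdG P Q)).2 ((com_cb B).2 hbc)
  generalize cb (cb π B) (bdG P Q) = ρ at hQ hP i2 r2 c1 c2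
  obtain ⟨C, hC, C2⟩ := exists_rep_pow ρ two_pos hc
  obtain ⟨x, y, z, w, rfl⟩ := dg_of_comm h2 (c1.eq hP hC) (c2.eq hQ hC)
  have sq : ∀ i : I4, dg x y z w i i = 1 ∨ dg x y z w i i = -1 := fun i => by
    have := congrFun (congrFun C2 i) i
    refine mul_self_eq_one_iff.1 ?_
    rcases i with i | i <;> fin_cases i <;> simpa [pow_two, fromBlocks_multiply] using this
  have sx : x = 1 ∨ x = -1 := sq (.inl 0)
  have sy : y = 1 ∨ y = -1 := sq (.inl 1)
  have sz : z = 1 ∨ z = -1 := sq (.inr 0)
  have sw : w = 1 ∨ w = -1 := sq (.inr 1)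
  have o2 : (1 : M2 K) = d2 1 1 := one_fin_two
  have n2 : (-1 : M2 K) = d2 (-1) (-1) := by rw [o2]; simp
  have hN : Rep ρ c (dg (-x) (-y) (-z) (-w)) :=
    (hC.smul (c := -1) (by simp)).congr (by simp [fromBlocks_neg])
  have hab' : Rep ρ (a * b) (dg 1 (-1) (-1) 1) := (hP.mul hQ).congr (by simp [fromBlocks_multiply])
  have h1' : Rep ρ 1 (dg 1 1 1 1) := (rep_one ρ).congr (by rw [← fromBlocks_one, o2])
  have hP' : Rep ρ a (dg 1 1 (-1) (-1)) := hP.congr (by rw [zz, n2, o2])
  have l1 : ¬ Rep ρ c (dg 1 (-1) 1 1) := fun h =>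
    r2 c (refl_of_left h2 (A := d2 1 (-1)) (by simp [o2]) (by simp) (by rwa [o2]))
  have l2 : ¬ Rep ρ c (dg (-1) 1 1 1) := fun h =>
    r2 c (refl_of_left h2 (A := d2 (-1) 1) (by simp [o2]) (by simp) (by rwa [o2]))
  have l3 : ¬ Rep ρ c (dg 1 1 1 (-1)) := fun h =>
    r2 c (refl_of_right h2 (A := d2 1 (-1)) (by simp [o2]) (by simp) (by rwa [o2]))
  have l4 : ¬ Rep ρ c (dg 1 1 (-1) 1) := fun h =>
    r2 c (refl_of_right h2 (A := d2 (-1) 1) (by simp [o2]) (by simp) (by rwa [o2]))
  rcases sx with rfl | rfl <;> rcases sy with rfl | rfl <;> rcases sz with rfl | rfl <;>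
    rcases sw with rfl | rfl <;> (try simp only [neg_neg] at hN) <;>
    first
      | exact .inl (hC.eq i2 h1') | exact .inl (hN.eq i2 h1')
      | exact .inr (.inl (hC.eq i2 hP')) | exact .inr (.inl (hN.eq i2 hP'))
      | exact .inr (.inr (.inl (hC.eq i2 hQ))) | exact .inr (.inr (.inl (hN.eq i2 hQ)))
      | exact .inr (.inr (.inr (hC.eq i2 hab'))) | exact .inr (.inr (.inr (hN.eq i2 hab')))
      | exact absurd hC l1 | exact absurd hC l2 | exact absurd hC l3 | exact absurd hC l4
      | exact absurd hN l1 | exact absurd hN l2 | exact absurd hN l3 | exact absurd hN l4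

theorem not_e87 (hx : Cx π) (h2 : (2 : K) ≠ 0) (hr : NR π) : ¬ E87 G := by
  rintro ⟨a, h, e, s0, cm, rel, n0, n1, n2, n3⟩
  have sq : ∀ i, a i ^ 2 = 1 := fun i => by
    induction i with
    | zero => exact s0
    | succ i ih => rw [e, conj_pow, ih]; simp
  have an : ∀ {i j}, ¬ Com π (a i) (a j) → Anti π (a i) (a j) := fun h =>
    (com_or_anti (sq _) (cm _ _)).resolve_left h
  have sh : ∀ i j, Com π (a (i + 1)) (a (j + 1)) ↔ Com π (a i) (a j) := fun i j => by
    rw [e, e]
    exact ⟨fun k => by_contra fun k' => k.not_anti h2 ((an k').conj h), fun k => k.conj h⟩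
  have sy : ∀ i j, Com π (a i) (a j) ↔ Com π (a j) (a i) := fun i j => ⟨Com.symm, Com.symm⟩
  have ml : ∀ j, Com π (a 0 * a 1) (a j) ↔ (Com π (a 0) (a j) ↔ Com π (a 1) (a j)) := fun j => by
    by_cases k0 : Com π (a 0) (a j) <;> by_cases k1 : Com π (a 1) (a j) <;> simp only [k0, k1]
    · simpa using k0.mul k1
    · simpa using fun k => k.not_anti h2 (k0.mul_anti (an k1))
    · simpa using fun k => k.not_anti h2 ((an k0).mul_com k1)
    · simpa using (an k0).mul_anti (an k1)
  have s01 : Com π (a 1) (a 2) ↔ _ := sh 0 1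
  have s12 : Com π (a 2) (a 3) ↔ _ := sh 1 2
  have s23 : Com π (a 3) (a 4) ↔ _ := sh 2 3
  have s02 : Com π (a 1) (a 3) ↔ _ := sh 0 2
  have s13 : Com π (a 2) (a 4) ↔ _ := sh 1 3
  have s03 : Com π (a 1) (a 4) ↔ _ := sh 0 3
  have c1 := com_self (π := π) (a 1)
  have key : Com π (a 0) (a 1) ∧ Com π (a 0) (a 2) := by
    have m1 := ml 1
    have m2 := ml 2
    have m3 := ml 3
    rcases rel with k | k <;> rw [← k] at m1 m2 m3
    · rw [sy 3] at m1 m2
      clear m3 an sh sy ml
      grind
    · rw [sy 4] at m1 m2 m3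
      clear an sh sy ml
      grind
  have a1 : a 1 ≠ 1 := fun k => n0 (by simpa [e] using k)
  rcases iso8 hx h2 hr (sq 0) (sq 1) (sq 2) key.1 key.2 (s01.2 key.1) n0 a1 n1 with k | k | k | k
  · exact a1 (by simpa [e 1] using k)
  · exact n2 k
  · exact n1 (by have := (e 1).symm.trans (k.trans (e 0)); simpa using this)
  · exact n3 k

/-- an element acting without fixed points on an elementary abelian subgroup of order 16 -/
theorem pauli (hx : Cx π) (h2 : (2 : K) ≠ 0) (hr : NR π) (E : Subgroup G) (hE : Nat.card E = 16)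
    (hs : ∀ e ∈ E, e ^ 2 = 1) {x : G} (hn : ∀ e ∈ E, x * e * x⁻¹ ∈ E)
    (hf : ∀ e ∈ E, x * e = e * x → e = 1) {M : M4 K} (hM : Rep π x M) : M.trace * M⁻¹.trace = 1 := by
  classical
  have := Fintype.ofFinite E
  choose f hf' using fun e : E => exists_rep π e
  have tr0 : ∀ e e' : E, (f e * (f e')⁻¹).trace = if e = e' then 4 else 0 := fun e e' => by
    split_ifs with h
    · rw [h, (hf' e').mul_inv, trace_one]; norm_num
    · exact trace_eq_zero hx.inj h2 (hs _ (mul_mem e.2 (inv_mem e'.2)))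
        (fun k => h (Subtype.ext (mul_inv_eq_one.1 k))) (hr _) ((hf' e).mul (hf' e').inv)
  have h4 : (4 : K) ≠ 0 := by
    rw [show (4 : K) = 2 * 2 by norm_num]; exact mul_ne_zero h2 h2
  have li : LinearIndependent K f := Fintype.linearIndependent_iff.2 fun c hc e => by
    have := congrArg (fun X => (X * (f e)⁻¹).trace) hc
    simp only [Finset.sum_mul, smul_mul_assoc, trace_sum, trace_smul, tr0, zero_mul, trace_zero] at this
    simpa [h4] using this
  let b := basisOfLinearIndependentOfCardEqFinrank li (by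
    rw [← Nat.card_eq_fintype_card, hE, finrank_M4])
  have hb : ∀ e, b e = f e := fun e => by simp [b]
  rw [← trace_lr, LinearMap.trace_eq_matrix_trace K b, trace, Finset.sum_eq_single 1 _ (by simp)]
  · obtain ⟨c, -, hc⟩ := (hf' 1).scalar_of_one
    rw [diag_apply, LinearMap.toMatrix_apply, show (LinearMap.mulLeft K M ∘ₗ LinearMap.mulRight K M⁻¹)
      (b 1) = b 1 by simp [hb, hc, hM.mul_inv]]
    simp
  · intro e _ h1
    obtain ⟨c, -, hc⟩ := (hf' ⟨_, hn e e.2⟩).unique (hM.conj (hf' e))
    rw [diag_apply, LinearMap.toMatrix_apply, show (LinearMap.mulLeft K M ∘ₗ LinearMap.mulRight K M⁻¹)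
      (b e) = c • b ⟨_, hn e e.2⟩ by rw [hb, hb, ← hc, mul_assoc]; rfl]
    have : (⟨_, hn e e.2⟩ : E) ≠ e := fun k =>
      h1 (Subtype.ext (hf e e.2 (mul_inv_eq_iff_eq_mul.1 (congrArg Subtype.val k))))
    simp [this]

end CfsgLib.D4
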