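import Cfsg.Agent.Lib.D4.Basic
import Cfsg.Agent.Lib.Sect.Tools

/-! Sylow `2`-subgroups are monomial.  See `plans/D4.md`. -/

set_option autoImplicit false

namespace CfsgLib.D4

open Matrix Cfsg Cfsg.Geo CfsgLib.Asch
open scoped MatrixGroups commutatorElement

variable {G K : Type*} [Group G] [Finite G] [Field K] [IsAlgClosed K] {π : G →* PG4 K}

namespace Mono

section
omit [Finite G] [IsAlgClosed K]

theorem da_smul {A : M2 K} (h : DA A) (c : K) : DA (c • A) := by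
  rcases h with h | h <;> simp [DA, h]

theorem da_of_mul {W B : M2 K} (hW : DA W) (hd : W.det ≠ 0) (h : DA (W * B)) : DA B := by
  rw [det_fin_two] at hd
  simp only [DA, mul_apply, Fin.sum_univ_two] at h ⊢
  rcases hW with ⟨a, b⟩ | ⟨a, b⟩ <;> simp [a, b] at hd h <;> tauto

theorem da_of_comm {ρ : G →* PGL(2, K)} (h2 : (2 : K) ≠ 0) {u g : G} {A : M2 K} (hu : Rep ρ u (d2 1 (-1)))
    (hA : Rep ρ g A) (e : g * u = u * g) : DA A := by
  obtain ⟨c, hc, e1⟩ := hA.comm_smul hu e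
  have k := fun i j => congrFun (congrFun e1 i) j
  have k0 := k 0 0
  have k1 := k 0 1
  have k2 := k 1 0
  have k3 := k 1 1
  simp [mul_apply, vecMul, dotProduct, -mul_eq_zero] at k0 k1 k2 k3
  rw [Fintype.card_fin, sq] at hc
  rcases mul_self_eq_one_iff.1 hc with rfl | rfl
  · exact .inl ⟨mul_left_cancel₀ h2 (by linear_combination -k1), mul_left_cancel₀ h2 (by linear_combination k2)⟩
  · exact .inr ⟨mul_left_cancel₀ h2 (by linear_combination k0), mul_left_cancel₀ h2 (by linear_combination k3)⟩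

theorem cj_bdG (P Q : GL (Fin 2) K) (A B : M2 K) : cj (bdG P Q) (bd A B) = bd (cj P A) (cj Q B) := by
  rw [cj_eq_iff]
  simp [bdG, fromBlocks_multiply, cj_mul_coe]

end

omit [Finite G] in
theorem frame {ρ : G →* PGL(2, K)} (hρ : Function.Injective ρ) (h2 : (2 : K) ≠ 0) {u : G} (hu : u ^ 2 = 1)
    (h1 : u ≠ 1) : ∃ P, Rep (cb ρ P) u (d2 1 (-1)) := by
  obtain ⟨M, hM, e⟩ := exists_rep_pow ρ two_pos hu
  rw [sq] at e
  rcases sq_eq_one_cases h2 e with rfl | rfl | hd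
  · exact absurd (hM.eq_one' hρ) h1
  · exact absurd (Rep.eq_one (c := -1) hρ (by simpa using hM)) h1
  · obtain ⟨P, hP⟩ := exists_d2 h2 e hd
    exact ⟨P, hP ▸ hM.cb P⟩

end Mono

open Mono

theorem fixP_of_two (h2 : (2 : K) ≠ 0) {X : Subgroup PGL(2, K)} [Finite X] (hX : IsPGroup 2 X) :
    FixP X := by
  by_cases h : 1 < Nat.card (⊤ : Subgroup X)
  · obtain ⟨u, -, h1, hu, hc⟩ := Sect.exists_central hX ⊤ h
    obtain ⟨P, hP⟩ := frame X.subtype_injective h2 (sq u ▸ hu) h1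
    exact ⟨P, fun x hx => da_of_comm h2 hP (Rep.cb (g := ⟨_, hx⟩) ⟨x, rfl, rfl⟩ P) (hc _)⟩
  · rw [Subgroup.card_top, Finite.one_lt_card_iff_nontrivial, not_nontrivial_iff_subsingleton] at h
    refine ⟨1, fun x hx => ?_⟩
    obtain ⟨c, -, e⟩ := Rep.scalar_of_one (π := X.subtype) ⟨x, rfl, congrArg _ (h.elim 1 ⟨_, hx⟩)⟩
    simp [e, DA]

theorem Mono.first (h2 : (2 : K) ≠ 0) {S : Subgroup G} (hS : IsPGroup 2 S) : ∃ P Q : GL (Fin 2) K,
    (∀ R, ∀ g ∈ S, ∀ A B, Rep (cb π (bdG P R)) g (bd A B) → DA A) ∧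
      ∀ g ∈ S, ∀ A B, Rep (cb π (bdG P Q)) g (bd A B) → DA B := by
  have hT : IsPGroup 2 (S.subgroupOf (C0 π)) := hS.comap_subtype
  have fin : ∀ f : C0 π →* PGL(2, K), Finite ((S.subgroupOf (C0 π)).map f) := fun f =>
    Finite.of_surjective _ (f.subgroupMap_surjective _)
  obtain ⟨P, hP⟩ := fixP_of_two h2 (hT.map (x1 π))
  obtain ⟨Q, hQ⟩ := fixP_of_two h2 (hT.map (x2 π))
  refine ⟨P, Q, fun R g hg A B h => ?_, fun g hg A B h => ?_⟩ <;> rw [rep_cb_iff, cj_bdG] at h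
  · obtain ⟨x, hx, e⟩ := rep_x1 (g := ⟨g, _, _, h⟩) h
    simpa [hx] using hP x ⟨_, hg, e⟩
  · obtain ⟨x, hx, e⟩ := rep_x2 (g := ⟨g, _, _, h⟩) h
    simpa [hx] using hQ x ⟨_, hg, e⟩

theorem mono (hπ : Function.Injective π) (h2 : (2 : K) ≠ 0) {z : G} (hz : Rep π z zz)
    {S : Subgroup G} (hS : IsPGroup 2 S) (hc : ∀ g ∈ S, g * z = z * g) :
    ∃ P Q : GL (Fin 2) K, ∀ g ∈ S, ∃ A B, DA A ∧ DA B ∧
      (Rep (cb π (bdG P Q)) g (bd A B) ∨ Rep (cb π (bdG P Q)) g (ad A B)) := by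
  have z2 : z ^ 2 = 1 := ((hz.pow 2).congr (by simp [sq, fromBlocks_multiply])).eq_one' hπ
  have cs : ∀ P Q, ∀ g ∈ S, ∃ A B, Rep (cb π (bdG P Q)) g (bd A B) ∨ Rep (cb π (bdG P Q)) g (ad A B) :=
    fun P Q g hg => by
    rcases com_or_anti (π := cb π (bdG P Q)) z2 (hc g hg) with h | h
    · obtain ⟨A, B, h⟩ := (mem_C0_iff h2 (hz.bdG_zz P Q)).2 h
      exact ⟨A, B, .inl h⟩
    · obtain ⟨A, B, h⟩ := (anti_iff h2 (hz.bdG_zz P Q)).1 h
      exact ⟨A, B, .inr h⟩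
  obtain ⟨P, Q, hP, hQ⟩ := Mono.first (π := π) h2 hS
  by_cases hw : ∃ w ∈ S, Anti π w z
  · obtain ⟨w, hw, h⟩ := hw
    obtain ⟨U, V, h⟩ := (anti_iff h2 hz).1 h
    have hV : V.det ≠ 0 := left_ne_zero_of_mul (by
      simpa [fromBlocks_multiply, det_bd] using right_ne_zero_of_mul
        (by simpa [fromBlocks_multiply, det_bd] using (h.mul h).det_ne : (U * V).det * (V * U).det ≠ 0))
    obtain ⟨W, hW⟩ : ∃ W, Rep (cb π (bdG P (.mkOfDetNeZero V hV * P))) w (ad W 1) :=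
      ⟨_, (h.bdG_ad P _).congr (by rw [mul_assoc _ V]; exact congrArg _ (Units.inv_mul _))⟩
    have ww := (hW.mul hW).congr (show _ = bd W W by simp [fromBlocks_multiply])
    have k := fun B => da_of_mul (B := B) (hP _ _ (mul_mem hw hw) _ _ ww)
      (left_ne_zero_of_mul (det_bd W W ▸ ww.det_ne))
    refine ⟨P, .mkOfDetNeZero V hV * P, fun g hg => ?_⟩
    obtain ⟨A, B, h | h⟩ := cs P _ g hg
    · exact ⟨A, B, hP _ _ hg _ _ h, k _ (hP _ _ (mul_mem (mul_mem hw hg) hw) _ (A * W)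
        (((hW.mul h).mul hW).congr (by simp [fromBlocks_multiply]))), .inl h⟩
    · exact ⟨A, B, hP _ _ (mul_mem hg hw) _ (B * W) ((h.mul hW).congr (by simp [fromBlocks_multiply])),
        k _ (hP _ _ (mul_mem hw hg) _ A ((hW.mul h).congr (by simp [fromBlocks_multiply]))), .inr h⟩
  · refine ⟨P, Q, fun g hg => ?_⟩
    obtain ⟨A, B, h | h⟩ := cs P Q g hg
    · exact ⟨A, B, hP _ _ hg _ _ h, hQ _ hg _ _ h, .inl h⟩
    · exact absurd ⟨g, hg, (anti_cb _).1 ((anti_iff h2 (hz.bdG_zz P Q)).2 ⟨A, B, h⟩)⟩ hw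

namespace Mono

omit [Finite G] [IsAlgClosed K]

/-- the permutation `(01)(23)` -/
def tau : Equiv.Perm I4 := Equiv.sumCongr (Equiv.swap 0 1) (Equiv.swap 0 1)

/-- a `4`-cycle with square `tau` -/
def cyc : Equiv.Perm I4 := (Equiv.sumCongr (Equiv.swap 0 1) 1).trans (Equiv.sumComm _ _)

set_option synthInstance.maxSize 1000 in
theorem cyc_key : ∀ x y : Equiv.Perm I4, x * tau = tau * x → y * tau = tau * y →
    (∃ n : Fin 4, x = cyc ^ n.1) ∨ (∃ n : Fin 4, y = cyc ^ n.1) ∨ ∃ n : Fin 4, x⁻¹ * y = cyc ^ n.1 := by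
  decide +kernel

theorem da_mon {A : M2 K} (h : DA A) : ∃ (a : Equiv.Perm (Fin 2)) (d : Fin 2 → K),
    (∀ i, a (Equiv.swap 0 1 i) = Equiv.swap 0 1 (a i)) ∧ ∀ i j, A i j = if i = a j then d j else 0 := by
  rcases h with h | h
  · exact ⟨1, fun j => A j j, fun _ => rfl, fun i j => by fin_cases i <;> fin_cases j <;> simp [h]⟩
  · exact ⟨Equiv.swap 0 1, fun j => A (Equiv.swap 0 1 j) j, fun _ => rfl, fun i j => by
      fin_cases i <;> fin_cases j <;> simp [h]⟩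

theorem exists_mon {g : G} {A B : M2 K} (hA : DA A) (hB : DA B) (h : Rep π g (bd A B) ∨ Rep π g (ad A B)) :
    ∃ σ d, σ * tau = tau * σ ∧ Rep π g (mon σ d) := by
  obtain ⟨a, d, ha, e⟩ := da_mon hA
  obtain ⟨b, d', hb, e'⟩ := da_mon hB
  rcases h with h | h
  · refine ⟨Equiv.sumCongr a b, Sum.elim d d', ?_, h.congr ?_⟩
    · ext (i | i) <;> simp [tau, ha, hb]
    · ext (i | i) (j | j) <;> simp [mon, e, e']
  · refine ⟨(Equiv.sumCongr b a).trans (Equiv.sumComm _ _), Sum.elim d' d, ?_, h.congr ?_⟩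
    · ext (i | i) <;> simp [tau, ha, hb]
    · ext (i | i) (j | j) <;> simp [mon, e, e']

theorem mon_mul (σ τ : Equiv.Perm I4) (d e : I4 → K) :
    mon σ d * mon τ e = mon (σ * τ) fun j => d (τ j) * e j := by
  ext i j
  simp [mon, mul_apply]
  congr

theorem mon_one (d : I4 → K) : mon 1 d = diagonal d := by
  ext i j
  by_cases h : i = j <;> simp [mon, diagonal, h]

theorem mon_unique {g : G} {σ τ : Equiv.Perm I4} {d e : I4 → K} (h : Rep π g (mon σ d)) (h' : Rep π g (mon τ e)) :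
    σ = τ := by
  obtain ⟨c, -, k⟩ := h.unique h'
  ext j
  by_contra hne
  refine h'.det_ne (det_eq_zero_of_column_eq_zero j fun i => ?_)
  have := congrFun (congrFun k (τ j)) j
  simp [mon, Ne.symm hne] at this
  simp [mon, this]

end Mono

omit [Finite G] in
theorem Mono.diag_inv (hπ : Function.Injective π) (h2 : (2 : K) ≠ 0) (hr : NR π) {g : G} {d : I4 → K}
    (h : Rep π g (diagonal d)) (hg : g * g = 1) :
    ∃ M ∈ ({1, dg 1 1 (-1) (-1), dg 1 (-1) 1 (-1), dg 1 (-1) (-1) 1} : Set (M4 K)), Rep π g M := by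
  by_cases h1 : g = 1
  · exact ⟨1, by simp, h1 ▸ rep_one π⟩
  have d0 : d (.inl 0) ≠ 0 := fun e => h.det_ne (by simp [e])
  obtain ⟨a, b, c, k⟩ : ∃ a b c, Rep π g (dg 1 a b c) := ⟨_, _, _, (h.smul (inv_ne_zero d0)).congr (by
    rw [dg_eq_diagonal, ← diagonal_smul]
    exact congrArg _ (funext fun i => by rcases i with i | i <;> fin_cases i <;> simp [d0] <;> rfl))⟩
  have t := trace_eq_zero hπ h2 (sq g ▸ hg) h1 (hr g) k
  obtain ⟨s, -, e⟩ := Rep.scalar_of_one (hg ▸ k.mul k)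
  have e0 := congrFun (congrFun e (.inl 0)) (.inl 0)
  have e1 := congrFun (congrFun e (.inl 1)) (.inl 1)
  have e2 := congrFun (congrFun e (.inr 0)) (.inr 0)
  have e3 := congrFun (congrFun e (.inr 1)) (.inr 1)
  simp [fromBlocks_multiply] at e0 e1 e2 e3
  simp [trace] at t
  subst e0
  refine ⟨_, ?_, k⟩
  rcases mul_self_eq_one_iff.1 e1 with rfl | rfl <;> rcases mul_self_eq_one_iff.1 e2 with rfl | rfl <;>
    rcases mul_self_eq_one_iff.1 e3 with rfl | rfl <;>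
    first | simp; done | exact absurd (by linear_combination t) h2 | exact absurd (by linear_combination -t) h2 |
      exact absurd (by linear_combination t) (mul_ne_zero h2 h2)

theorem sr (hx : Cx π) (h2 : (2 : K) ≠ 0) (hr : NR π) : SectionalPRankLE 2 4 G := by
  obtain ⟨S⟩ : Nonempty (Sylow 2 G) := inferInstance
  refine Sect.sr_top_iff.2 (Sect.sr_of_sylow S ?_)
  by_cases h : 1 < Nat.card (⊤ : Subgroup S)
  swap
  · exact (Sect.SR.of_card _).le (by rw [Subgroup.card_top] at h; exact (not_lt.1 h).trans (by norm_num))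
  obtain ⟨u, -, h1, hu, hc⟩ := Sect.exists_central S.2 ⊤ h
  obtain ⟨B, hB⟩ := inv_nf hx.inj h2 (g := u.1) (by rw [sq]; exact congrArg Subtype.val hu)
    (fun e => h1 (Subtype.ext e)) (hr _)
  obtain ⟨P, Q, hm⟩ := mono (cb_injective hx.inj B) h2 hB S.2 fun g hg => congrArg Subtype.val (hc ⟨g, hg⟩)
  have hi := cb_injective (cb_injective hx.inj B) (bdG P Q)
  have hr' := (hr.cb B).cb (bdG P Q)
  generalize cb (cb π B) (bdG P Q) = ρ at hm hi hr'
  choose σ d hσ hd using fun g : (S : Subgroup G) => (hm g g.2).elim fun A h => h.elim fun B h =>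
    exists_mon h.1 h.2.1 h.2.2
  let f : (S : Subgroup G) →* Equiv.Perm I4 := MonoidHom.mk' σ fun a b =>
    mon_unique (hd (a * b)) (((hd a).mul (hd b)).congr (mon_mul ..))
  have dg : ∀ g ∈ f.ker, Rep ρ g (diagonal (d g)) := fun g hg => by
    have := hd g
    rwa [show σ g = 1 from hg, mon_one] at this
  have cm : ∀ a ∈ f.ker, ∀ b ∈ f.ker, a * b = b * a := fun a ha b hb =>
    Subtype.ext ((dg a ha).commute hi (dg b hb) (commute_diagonal _ _))
  let C : Subgroup (S : Subgroup G) :=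
    { carrier := {x | x ∈ f.ker ∧ x * x = 1}
      one_mem' := ⟨one_mem _, mul_one _⟩
      mul_mem' := fun {a b} ha hb => ⟨mul_mem ha.1 hb.1, by
        rw [Commute.mul_mul_mul_comm (cm b hb.1 a ha.1), ha.2, hb.2, mul_one]⟩
      inv_mem' := fun {a} ha => ⟨inv_mem ha.1, by rw [← _root_.mul_inv_rev, ha.2, inv_one]⟩ }
  have hC : Nat.card C ≤ 4 := by
    choose M hM hM' using fun x : C => Mono.diag_inv hi h2 hr' (dg x x.2.1) (congrArg Subtype.val x.2.2)
    refine (Nat.card_le_card_of_injective (fun x => (⟨M x, hM x⟩ : Set.Elem _)) fun a b e =>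
      Subtype.ext (Subtype.ext ((hM' a).eq hi ((hM' b).congr (congrArg Subtype.val e).symm)))).trans ?_
    exact (Set.ncard_insert_le _ _).trans (Nat.succ_le_succ ((Set.ncard_insert_le _ _).trans
      (Nat.succ_le_succ ((Set.ncard_insert_le _ _).trans (by simp)))))
  have s1 : Sect.SR 4 (⊤ ⊓ f.ker) := Sect.sr_of_le fun H hH L _ hL =>
    (Sect.swap (C := C) (fun x => x * x) (fun a ha => ⟨hL a ha, mul_mem ha ha⟩) fun a ha b hb e =>
      ⟨mul_mem (inv_mem (hH ha).2) (hH hb).2, by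
        rw [Commute.mul_mul_mul_comm (cm b (hH hb).2 _ (inv_mem (hH ha).2)), ← e]; group⟩).trans
      ((Subgroup.card_le_of_le inf_le_left).trans hC)
  have s2 : Sect.SR (2 * 2) ((⊤ : Subgroup (S : Subgroup G)).map f) :=
    (Sect.sr_zpowers cyc).of_relIndex (Sect.relIndex_le_two (by
      rintro _ ⟨a, -, rfl⟩ _ ⟨b, -, rfl⟩ ha hb
      rcases cyc_key _ _ (hσ a) (hσ b) with ⟨n, e⟩ | ⟨n, e⟩ | ⟨n, e⟩
      · exact absurd ⟨n, (zpow_natCast _ _).trans e.symm⟩ ha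
      · exact absurd ⟨n, (zpow_natCast _ _).trans e.symm⟩ hb
      · exact ⟨n, (zpow_natCast _ _).trans e.symm⟩))
  have := (s1.ext f s2).map (S : Subgroup G).subtype
  rwa [← MonoidHom.range_eq_map, Subgroup.range_subtype] at this

end CfsgLib.D4
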