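import Cfsg.Agent.Lib.D4.Defs

/-! The overgroup `A₇` of `L₂(7)`: the stabiliser of a simplex.  See `plans/D4.md`. -/

set_option autoImplicit false
set_option linter.unusedSectionVars false

namespace CfsgLib.D4

open Matrix Cfsg Cfsg.Geo CfsgLib.Asch
open scoped MatrixGroups commutatorElement

variable {F : Type*} [Field F] [Fintype F] {H P : Subgroup (GL (Fin 4) F)}

namespace OVa

omit [Fintype F]

/-- the general alternating matrix -/
def al (a b c d e f : F) : Matrix (Fin 4) (Fin 4) F := !![0, a, b, c; -a, 0, d, e; -b, -d, 0, f; -c, -e, -f, 0]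

/-- alternating matrices -/
def Alt (y : Matrix (Fin 4) (Fin 4) F) : Prop := ∃ a b c d e f, y = al a b c d e f

variable {u v w : Matrix (Fin 4) (Fin 4) F}

theorem alt_of (h2 : (2 : F) ≠ 0) (h : uᵀ = -u) : Alt u := by
  have k : ∀ i j, u j i = -u i j := fun i j => congrFun (congrFun h i) j
  have k0 : ∀ i, u i i = 0 := fun i => mul_left_cancel₀ h2 (by linear_combination k i i)
  refine ⟨u 0 1, u 0 2, u 0 3, u 1 2, u 1 3, u 2 3, ?_⟩
  ext i j
  fin_cases i <;> fin_cases j <;> simp [al, k0] <;> exact k _ _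

theorem alt_hs (u : Matrix (Fin 4) (Fin 4) F) : Alt (hs u) :=
  ⟨u 2 3, -u 1 3, u 1 2, u 0 3, -u 0 2, u 0 1, by simp [hs, al]⟩

theorem Alt.T (h : Alt u) : uᵀ = -u := by
  obtain ⟨a, b, c, d, e, f, rfl⟩ := h
  ext i j
  fin_cases i <;> fin_cases j <;> simp [al]

theorem Alt.sub (h : Alt u) (h' : Alt w) : Alt (u - w) := by
  obtain ⟨a, b, c, d, e, f, rfl⟩ := h
  obtain ⟨a', b', c', d', e', f', rfl⟩ := h'
  refine ⟨a - a', b - b', c - c', d - d', e - e', f - f', ?_⟩
  ext i j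
  fin_cases i <;> fin_cases j <;> simp [al] <;> ring

theorem Alt.hs_hs (h : Alt u) : hs (hs u) = u := by
  obtain ⟨a, b, c, d, e, f, rfl⟩ := h
  simp [hs, al]

theorem Alt.cl (h : Alt u) (h' : Alt w) : hs u * w + hs w * u = -bt u w • 1 := by
  obtain ⟨a, b, c, d, e, f, rfl⟩ := h
  obtain ⟨a', b', c', d', e', f', rfl⟩ := h'
  ext i j
  fin_cases i <;> fin_cases j <;> simp [al, hs, bt] <;> ring

theorem Alt.det (h : Alt u) : 4 * u.det = bt u u ^ 2 := by
  obtain ⟨a, b, c, d, e, f, rfl⟩ := h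
  simp [al, bt, det_succ_row_zero, Fin.sum_univ_succ, Fin.succAbove]
  ring

theorem Alt.dot (h : Alt u) (φ : Fin 4 → F) : φ ⬝ᵥ u *ᵥ φ = 0 := by
  obtain ⟨a, b, c, d, e, f, rfl⟩ := h
  simp [al, mulVec, dotProduct, Fin.sum_univ_four]
  ring

theorem hs_sub (u w : Matrix (Fin 4) (Fin 4) F) : hs (u - w) = hs u - hs w := by
  ext i j
  fin_cases i <;> fin_cases j <;> simp [hs] <;> ring

theorem hs_map (σ : F →+* F) (u : Matrix (Fin 4) (Fin 4) F) : (hs u).map σ = hs (u.map σ) := by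
  ext i j
  fin_cases i <;> fin_cases j <;> simp [hs]

theorem bt_map (σ : F →+* F) (u w : Matrix (Fin 4) (Fin 4) F) : σ (bt u w) = bt (u.map σ) (w.map σ) := by
  simp [bt]

theorem bt_hs (u w : Matrix (Fin 4) (Fin 4) F) : bt (hs u) (hs w) = bt u w := by
  simp [bt, hs]; ring

theorem bt_sub (u v w : Matrix (Fin 4) (Fin 4) F) : bt (u - v) w = bt u w - bt v w := by
  simp [bt]; ring

theorem bt_sub' (u v w : Matrix (Fin 4) (Fin 4) F) : bt u (v - w) = bt u v - bt u w := by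
  simp [bt]; ring

theorem bt_add' (u v w : Matrix (Fin 4) (Fin 4) F) : bt u (v + w) = bt u v + bt u w := by
  simp [bt]; ring

theorem bt_smul' (c : F) (u w : Matrix (Fin 4) (Fin 4) F) : bt u (c • w) = c * bt u w := by
  simp [bt]; ring

theorem exists_ne3 : ∀ a b c : Fin 7, ∃ l, l ≠ a ∧ l ≠ b ∧ l ≠ c := by decide

/-- a regular simplex -/
structure Sx (y : Fin 7 → Matrix (Fin 4) (Fin 4) F) (κ b : F) : Prop where
  two : (2 : F) ≠ 0
  alt : ∀ i, Alt (y i)
  diag : ∀ i, bt (y i) (y i) = κ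
  off : ∀ i j, i ≠ j → bt (y i) (y j) = b
  ne : κ - b ≠ 0

/-- the stabiliser of the simplex -/
def St (y : Fin 7 → Matrix (Fin 4) (Fin 4) F) : Subgroup (GL (Fin 4) F) where
  carrier := {m | ∃ (ε : F) (s : Equiv.Perm (Fin 7)), ε * ε = 1 ∧ ∀ i, m.1 * y i * m.1ᵀ = ε • y (s i)}
  one_mem' := ⟨1, 1, mul_one _, fun i => by simp⟩
  mul_mem' := by
    rintro m n ⟨ε, s, h1, h2⟩ ⟨δ, t, h3, h4⟩
    refine ⟨δ * ε, s * t, by linear_combination δ * δ * h1 + h3, fun i => ?_⟩
    rw [Units.val_mul, transpose_mul, show m.1 * n.1 * y i * (n.1ᵀ * m.1ᵀ) = m.1 * (n.1 * y i * n.1ᵀ) * m.1ᵀ by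
      simp only [mul_assoc], h4, mul_smul_comm, smul_mul_assoc, h2, smul_smul, Equiv.Perm.mul_apply]
  inv_mem' := by
    rintro m ⟨ε, s, h1, h2⟩
    refine ⟨ε, s⁻¹, h1, fun i => ?_⟩
    have := h2 (s⁻¹ i)
    rw [show s (s⁻¹ i) = i by simp] at this
    rw [← one_smul F (y i), ← h1, mul_smul, ← this, mul_smul_comm, smul_mul_assoc, mul_assoc, mul_assoc,
      ← transpose_mul, Units.inv_mul, transpose_one, mul_one, Units.inv_mul_cancel_left]

namespace Sx

variable {y : Fin 7 → Matrix (Fin 4) (Fin 4) F} {κ b : F} (h : Sx y κ b) {i j : Fin 7}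
include h

theorem dual : Sx (fun i => hs (y i)) κ b :=
  ⟨h.two, fun _ => alt_hs _, fun i => (bt_hs _ _).trans (h.diag i), fun i j e => (bt_hs _ _).trans (h.off i j e), h.ne⟩

theorem alt' (i j : Fin 7) : Alt (y i - y j) := (h.alt i).sub (h.alt j)

theorem bt_self (e : i ≠ j) : bt (y i - y j) (y i - y j) = 2 * (κ - b) := by
  rw [bt_sub, bt_sub', bt_sub', h.diag, h.diag, h.off i j e, h.off j i e.symm]; ring

theorem sq (e : i ≠ j) : hs (y i - y j) * (y i - y j) = -(κ - b) • 1 := by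
  refine smul_right_injective _ h.two ?_
  simp only [two_smul]
  rw [(h.alt' i j).cl (h.alt' i j), h.bt_self e]
  module

theorem det (e : i ≠ j) : (y i - y j).det = (κ - b) ^ 2 :=
  mul_left_cancel₀ (mul_ne_zero h.two h.two) (by linear_combination (h.alt' i j).det + congrArg (· ^ 2) (h.bt_self e))

theorem refl (e : i ≠ j) (k : Fin 7) :
    (y i - y j) * hs (y k) * (y i - y j) = (κ - b) • y (Equiv.swap i j k) := by
  have e1 := (alt_hs (y i - y j)).cl (alt_hs (y k))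
  rw [(h.alt' i j).hs_hs, (h.alt k).hs_hs, bt_hs, bt_sub] at e1
  rw [eq_sub_of_add_eq e1, sub_mul, mul_assoc, h.sq e, smul_mul_assoc, one_mul, mul_smul_comm, mul_one]
  by_cases k1 : k = i
  · rw [k1, Equiv.swap_apply_left, h.diag, h.off j i e.symm]; module
  by_cases k2 : k = j
  · rw [k2, Equiv.swap_apply_right, h.diag, h.off i j e]; module
  · rw [Equiv.swap_apply_of_ne_of_ne k1 k2, h.off i k (Ne.symm k1), h.off j k (Ne.symm k2)]; module

/-- the element of order three -/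
def g3 : GL (Fin 4) F := .mkOfDetNeZero ((κ - b)⁻¹ • ((y 0 - y 1) * hs (y 0 - y 2))) (by
  rw [det_smul, det_mul, hs_sub, h.det (by decide), h.dual.det (by decide)]
  simp [h.ne])

theorem coe_g3 : h.g3.1 = (κ - b)⁻¹ • ((y 0 - y 1) * hs (y 0 - y 2)) := rfl

theorem g3_det : h.g3 ∈ specialLinear (Fin 4) F := ClMax.mem_specialLinear.2 (by
  rw [coe_g3, det_smul, det_mul, hs_sub, h.det (by decide), h.dual.det (by decide), Fintype.card_fin]
  have := h.ne
  field_simp)

theorem g3_act (k : Fin 7) : h.g3.1 * y k * h.g3.1ᵀ = y ((Equiv.swap 0 1 * Equiv.swap 0 2 : Equiv.Perm _) k) := by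
  have e1 := h.dual.refl (i := 0) (j := 2) (by decide) k
  simp only [(h.alt k).hs_hs, ← hs_sub] at e1
  rw [coe_g3, transpose_smul, transpose_mul, (alt_hs _).T, (h.alt' 0 1).T, neg_mul_neg, smul_mul_assoc,
    smul_mul_smul_comm, mul_assoc (y 0 - y 1), mul_assoc (y 0 - y 1), ← mul_assoc (_ * y k), e1, smul_mul_assoc,
    mul_smul_comm, ← mul_assoc, h.refl (by decide), smul_smul, smul_smul, Equiv.Perm.mul_apply]
  have := h.ne
  rw [show (κ - b)⁻¹ * (κ - b)⁻¹ * (κ - b) * (κ - b) = 1 by field_simp, one_smul]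

theorem not_mem {t : GL (Fin 4) F} {v φ : Fin 4 → F} (hv : v 0 = 1) (h0 : φ ≠ 0) (hφ : φ ⬝ᵥ v = 0)
    (ht : t.1 = 1 + vecMulVec v φ) : t ∉ St y := by
  rintro ⟨ε, s, h1, h2⟩
  have T : ∀ {u : Matrix (Fin 4) (Fin 4) F}, Alt u →
      t.1 * u * t.1ᵀ = u + (vecMulVec (u *ᵥ φ) v - vecMulVec v (u *ᵥ φ)) := fun {u} hu => by
    have e1 : φ ᵥ* u = -(u *ᵥ φ) := by rw [← mulVec_transpose, hu.T, neg_mulVec]
    rw [ht, transpose_add, transpose_one, transpose_vecMulVec, add_mul, one_mul, vecMulVec_mul, e1, mul_add, mul_one,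
      add_mul, mul_vecMulVec, vecMulVec_mul, neg_vecMul, vecMul_vecMulVec, dotProduct_comm, hu.dot]
    simp [vecMulVec_neg]; abel
  have fix : ∀ i, t.1 * y i * t.1ᵀ = y i := fun i => by
    have e1 : y (s (s i)) + y i = (2 * ε) • y (s i) := by
      have a1 : t.1 *ᵥ v = v := by rw [ht, add_mulVec, one_mulVec, vecMulVec_mulVec, hφ]; simp
      have a2 : t.1 *ᵥ y i *ᵥ φ = y i *ᵥ φ := by
        rw [ht, add_mulVec, one_mulVec, vecMulVec_mulVec, (h.alt i).dot]; simp
      have a3 := congrArg (fun u => t.1 * u * t.1ᵀ) ((h2 i).symm.trans (T (h.alt i)))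
      simp only [mul_add, add_mul, mul_sub, sub_mul, mul_vecMulVec, vecMulVec_mul, vecMul_transpose, a1, a2,
        mul_smul_comm, smul_mul_assoc, h2, smul_smul, h1, one_smul] at a3
      rw [a3, add_assoc, add_comm _ (y i), ← T (h.alt i), h2]
      module
    obtain ⟨l, l1, l2, l3⟩ := exists_ne3 i (s i) (s (s i))
    have e2 := congrArg (bt (y (s i) - y l)) e1
    simp only [bt_add', bt_smul', bt_sub, h.diag, h.off _ _ l1, h.off _ _ l2, h.off _ _ l3] at e2
    by_cases k : s i = i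
    · simp only [k, h.diag] at e2
      rw [h2, k, mul_left_cancel₀ (mul_ne_zero h.two h.ne) (show _ * ε = _ * 1 by linear_combination -e2), one_smul]
    · rw [h.off _ _ k, h.off _ _ fun e => k (s.injective e).symm] at e2
      exact absurd (by linear_combination -ε * e2 - 2 * (κ - b) * h1) (mul_ne_zero h.two h.ne)
  choose c hc using fun i => show ∃ c : F, y i *ᵥ φ = c • v from ⟨(y i *ᵥ φ) 0, funext fun j => by
    have := congrFun (congrFun (sub_eq_zero.1 (add_eq_left.1 ((T (h.alt i)).symm.trans (fix i)))) j) 0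
    simp only [vecMulVec_apply, hv] at this
    simp only [Pi.smul_apply, smul_eq_mul]
    linear_combination this⟩
  have d : ∀ i j, (y i - y j) *ᵥ φ = (c i - c j) • v := fun i j => by rw [sub_mulVec, hc, hc, sub_smul]
  have d1 : ∀ {i j}, i ≠ j → (c i - c j) • hs (y i - y j) *ᵥ v = -(κ - b) • φ := fun e => by
    rw [← mulVec_smul, ← d, mulVec_mulVec, h.sq e, smul_mulVec, one_mulVec]
  have d2 : ∀ {i j k l}, i ≠ j → k ≠ l → i ≠ k → i ≠ l → j ≠ k → j ≠ l → (c i - c j) ^ 2 + (c k - c l) ^ 2 = 0 :=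
    fun {i j k l} e1 e2 e3 e4 e5 e6 => by
    have := congrArg (fun u => ((c i - c j) * (c k - c l)) • u *ᵥ φ) ((h.alt' i j).cl (h.alt' k l))
    simp only [bt_sub, bt_sub', h.off _ _ e3, h.off _ _ e4, h.off _ _ e5, h.off _ _ e6, sub_self, neg_zero, zero_smul,
      zero_mulVec, smul_zero, add_mulVec, ← mulVec_mulVec, d, mulVec_smul] at this
    have k : (((c i - c j) ^ 2 + (c k - c l) ^ 2) * -(κ - b)) • φ = 0 := by
      rw [mul_smul, add_smul, ← this]
      conv_lhs => rw [← d1 e2]; arg 2; rw [d1 e2, ← d1 e1]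
      module
    exact (mul_eq_zero.1 ((smul_eq_zero.1 k).resolve_right h0)).resolve_right (neg_ne_zero.2 h.ne)
  have d3 : c 0 - c 1 = 0 := pow_eq_zero_iff two_ne_zero |>.1 (mul_left_cancel₀ h.two (by
    linear_combination d2 (i := 0) (j := 1) (k := 2) (l := 3) (by decide) (by decide) (by decide) (by decide)
      (by decide) (by decide) + d2 (i := 0) (j := 1) (k := 4) (l := 5) (by decide) (by decide) (by decide) (by decide)
      (by decide) (by decide) - d2 (i := 2) (j := 3) (k := 4) (l := 5) (by decide) (by decide) (by decide) (by decide)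
      (by decide) (by decide)))
  have := d1 (i := 0) (j := 1) (by decide)
  rw [d3, zero_smul, eq_comm, smul_eq_zero] at this
  exact this.elim (neg_ne_zero.2 h.ne) h0

end Sx

theorem sx {y : Fin 7 → Matrix (Fin 4) (Fin 4) F} {κ b : F} (h2 : (2 : F) ≠ 0) (h : Sev H y κ b) : Sx y κ b :=
  ⟨h2, fun i => alt_of h2 (h.alt i), h.diag, h.off, h.ne⟩

theorem key {y : Fin 7 → Matrix (Fin 4) (Fin 4) F} {κ b : F} (h2 : (2 : F) ≠ 0) (h : Sev H y κ b)
    (hg : (sx h2 h).g3 ∈ P) {t : GL (Fin 4) F} (ht : t ∈ P) (ht' : t ∉ St y) : ¬ IsMaximalIn P H := by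
  rintro ⟨h1, h3⟩
  have k := sx h2 h
  rcases h3 (St y ⊓ P) (le_inf (fun g hg => (h.act g hg).imp fun ε e => e.imp fun s e =>
    ⟨mul_self_eq_one_iff.2 e.1, e.2.2⟩) h1.le) inf_le_right with e | e
  · obtain ⟨ε, s, -, h4, h5⟩ := h.act _ (e.le ⟨⟨1, _, mul_one _, fun i => (k.g3_act i).trans (one_smul _ _).symm⟩, hg⟩)
    refine h4 ((Equiv.ext fun i => ?_ : _ = s) ▸
      Equiv.Perm.isThreeCycle_swap_mul_swap_same (a := 0) (b := 1) (c := 2) (by decide) (by decide) (by decide))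
    have e1 := (k.g3_act i).symm.trans (h5 i)
    generalize (Equiv.swap 0 1 * Equiv.swap 0 2 : Equiv.Perm (Fin 7)) i = a, s i = c at e1
    by_contra hne
    obtain ⟨l, l1, l2, -⟩ := exists_ne3 a c c
    have e2 := congrArg (bt (y a - y l)) e1
    rw [bt_smul', bt_sub, bt_sub, k.diag, k.off _ _ l1, k.off _ _ l2, k.off _ _ hne, sub_self, mul_zero] at e2
    exact k.ne e2
  · exact ht' (e.ge ht).1

end OVa

theorem over_sl {y : Fin 7 → Matrix (Fin 4) (Fin 4) F} {κ b : F} (h2 : (2 : F) ≠ 0)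
    (h : Sev H y κ b) : ¬ IsMaximalIn (specialLinear (Fin 4) F) H := by
  refine OVa.key h2 h (OVa.sx h2 h).g3_det (t := .mkOfDetNeZero (transvection 0 1 1) (by simp))
    (ClMax.mem_specialLinear.2 (det_transvection_of_ne 0 1 (by decide) 1))
    ((OVa.sx h2 h).not_mem (v := Pi.single 0 1) (φ := Pi.single 1 1) (by simp) (by simp) (by simp) ?_)
  ext i j
  fin_cases i <;> fin_cases j <;> simp [transvection, vecMulVec_apply]

theorem over_su {y : Fin 7 → Matrix (Fin 4) (Fin 4) F} {κ b : F} (h2 : (2 : F) ≠ 0) {q : ℕ}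
    (hq : Fintype.card F = q ^ 2) (h : Sev H y κ b) (hy : ∀ i, (hs (y i)).map (· ^ q) = y i) :
    ¬ IsMaximalIn (GU 4 F q ⊓ specialLinear (Fin 4) F) H := by
  have k := OVa.sx h2 h
  obtain ⟨a, ha⟩ := Unitary.exists_norm_eq hq (μ := -1) (by rw [Unitary.neg_pow_q hq, one_pow])
  obtain ⟨c, c0, hc⟩ := Unitary.exists_trace_zero hq
  have hv : hermForm 4 F q ![1, a, 0, 0] ![1, a, 0, 0] = 0 := by
    simp [hermForm, Fin.sum_univ_four, ← pow_succ', ha]
  refine OVa.key h2 h ⟨(Unitary.mem_GU_iff hq _).2 ?_, k.g3_det⟩ (tvU_mem hq _ hv c hc)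
    (k.not_mem (v := ![1, a, 0, 0]) (φ := c • fun j => ![1, a, 0, 0] j ^ q) rfl
      (fun e => c0 (by simpa using congrFun e 0)) ?_ ?_)
  · have e1 : ∀ i j, (hs (y i - y j)).map (Unitary.conj hq) = y i - y j := fun i j => by
      rw [OVa.hs_sub, Matrix.map_sub _ (map_sub _)]
      exact congrArg₂ _ (hy i) (hy j)
    have e2 : ∀ i j, (y i - y j).map (Unitary.conj hq) = hs (y i - y j) := fun i j => by
      rw [← (OVa.alt_of h2 (u := (y i - y j).map _) ?_).hs_hs, ← OVa.hs_map, e1]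
      rw [← transpose_map, (k.alt' i j).T, Matrix.map_neg _ (map_neg _)]
    have e3 : Unitary.conj hq (κ - b) = κ - b := mul_left_cancel₀ h2 (by
      have := OVa.bt_map (Unitary.conj hq) (y 0 - y 1) (y 0 - y 1)
      rwa [e2, OVa.bt_hs, k.bt_self (by decide), map_mul, map_ofNat] at this)
    have e4 := k.dual.sq (i := 0) (j := 1) (by decide)
    simp only [← OVa.hs_sub, (k.alt' 0 1).hs_hs] at e4
    rw [k.coe_g3, transpose_smul, transpose_mul, (OVa.alt_hs _).T, (k.alt' 0 1).T, neg_mul_neg,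
      Matrix.map_smul' _ _ _ (map_mul _), map_inv₀, e3, Matrix.map_mul, e1, e2, smul_mul_smul_comm, mul_assoc,
      ← mul_assoc (y 0 - y 1), e4, smul_mul_assoc, one_mul, mul_smul_comm, k.sq (by decide), smul_smul, smul_smul]
    have := k.ne
    rw [show (κ - b)⁻¹ * (κ - b)⁻¹ * -(κ - b) * -(κ - b) = 1 by field_simp, one_smul]
  · rw [smul_dotProduct, dotProduct_comm, ← Unitary.herm_eq_dot, hv, smul_zero]
  · rw [coe_tvU, unitaryTransvection, vecMulVec_smul]

end CfsgLib.D4
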