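import Cfsg.Agent.Lib.D4.Basic

/-! Alternating `4 × 4` matrices: the Hodge dual, and the alternating matrices fixed by lifts of
involutions.  See `plans/D4.md`. -/

set_option autoImplicit false

namespace CfsgLib.D4.OVb

open Matrix Cfsg Cfsg.Geo CfsgLib.Asch
open scoped MatrixGroups

variable {F : Type*} [Field F]

/-- `4 × 4` matrices -/
abbrev MF (F : Type*) := Matrix (Fin 4) (Fin 4) F

theorem alt_eq (h2 : (2 : F) ≠ 0) {y : MF F} (hy : yᵀ = -y) : ∃ a b c d e f : F,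
    y = !![0, a, b, c; -a, 0, d, e; -b, -d, 0, f; -c, -e, -f, 0] := by
  have h : ∀ i j, y j i = -y i j := fun i j => congrFun (congrFun hy i) j
  have h0 : ∀ i, y i i = 0 := fun i => mul_left_cancel₀ h2 (by linear_combination h i i)
  refine ⟨y 0 1, y 0 2, y 0 3, y 1 2, y 1 3, y 2 3, ?_⟩
  ext i j
  fin_cases i <;> fin_cases j <;> simp [h0] <;> exact h _ _

theorem hs_alt (y : MF F) : (hs y)ᵀ = -hs y := by
  ext i j
  fin_cases i <;> fin_cases j <;> simp [hs]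

theorem hs_hs (h2 : (2 : F) ≠ 0) {y : MF F} (hy : yᵀ = -y) : hs (hs y) = y := by
  obtain ⟨a, b, c, d, e, f, rfl⟩ := alt_eq h2 hy
  simp [hs]

theorem bt_hs (y w : MF F) : bt (hs y) (hs w) = bt y w := by
  simp [hs, bt]
  ring

theorem bt_comm (y w : MF F) : bt y w = bt w y := by
  simp only [bt]
  ring

theorem bt_smul (c : F) (y w : MF F) : bt (c • y) (c • w) = c ^ 2 * bt y w := by
  simp only [bt, Matrix.smul_apply, smul_eq_mul]
  ring

theorem bt_sum {ι : Type*} (s : Finset ι) (y : MF F) (w : ι → MF F) :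
    bt y (∑ i ∈ s, w i) = ∑ i ∈ s, bt y (w i) := by
  simp only [bt, Matrix.sum_apply, Finset.mul_sum, Finset.sum_add_distrib, Finset.sum_sub_distrib]

theorem clif (h2 : (2 : F) ≠ 0) {y w : MF F} (hy : yᵀ = -y) (hw : wᵀ = -w) :
    y * hs w + w * hs y = -bt y w • (1 : MF F) := by
  obtain ⟨a, b, c, d, e, f, rfl⟩ := alt_eq h2 hy
  obtain ⟨a', b', c', d', e', f', rfl⟩ := alt_eq h2 hw
  ext i j
  fin_cases i <;> fin_cases j <;> simp [hs, bt] <;> ring

theorem det4 (x : MF F) : x.det =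
    x 0 0 * (x 1 1 * (x 2 2 * x 3 3 - x 2 3 * x 3 2) - x 1 2 * (x 2 1 * x 3 3 - x 2 3 * x 3 1) +
      x 1 3 * (x 2 1 * x 3 2 - x 2 2 * x 3 1)) -
    x 0 1 * (x 1 0 * (x 2 2 * x 3 3 - x 2 3 * x 3 2) - x 1 2 * (x 2 0 * x 3 3 - x 2 3 * x 3 0) +
      x 1 3 * (x 2 0 * x 3 2 - x 2 2 * x 3 0)) +
    x 0 2 * (x 1 0 * (x 2 1 * x 3 3 - x 2 3 * x 3 1) - x 1 1 * (x 2 0 * x 3 3 - x 2 3 * x 3 0) +
      x 1 3 * (x 2 0 * x 3 1 - x 2 1 * x 3 0)) -
    x 0 3 * (x 1 0 * (x 2 1 * x 3 2 - x 2 2 * x 3 1) - x 1 1 * (x 2 0 * x 3 2 - x 2 2 * x 3 0) +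
      x 1 2 * (x 2 0 * x 3 1 - x 2 1 * x 3 0)) := by
  simp [det_succ_row_zero, Fin.sum_univ_succ, Fin.succAbove]
  ring

theorem hs_act (h2 : (2 : F) ≠ 0) {y : MF F} (hy : yᵀ = -y) (x : MF F) :
    xᵀ * hs (x * y * xᵀ) * x = x.det • hs y := by
  obtain ⟨a, b, c, d, e, f, rfl⟩ := alt_eq h2 hy
  have h1 : ∀ i j, (x * !![0, a, b, c; -a, 0, d, e; -b, -d, 0, f; -c, -e, -f, 0] * xᵀ) i j =
      a * (x i 0 * x j 1 - x i 1 * x j 0) + b * (x i 0 * x j 2 - x i 2 * x j 0) +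
      c * (x i 0 * x j 3 - x i 3 * x j 0) + d * (x i 1 * x j 2 - x i 2 * x j 1) +
      e * (x i 1 * x j 3 - x i 3 * x j 1) + f * (x i 2 * x j 3 - x i 3 * x j 2) := fun i j => by
    simp [mul_apply, Fin.sum_univ_four]
    ring
  have h3 : ∀ (z : MF F) i j, (xᵀ * hs z * x) i j =
      z 2 3 * (x 0 i * x 1 j - x 1 i * x 0 j) - z 1 3 * (x 0 i * x 2 j - x 2 i * x 0 j) +
      z 1 2 * (x 0 i * x 3 j - x 3 i * x 0 j) + z 0 3 * (x 1 i * x 2 j - x 2 i * x 1 j) -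
      z 0 2 * (x 1 i * x 3 j - x 3 i * x 1 j) + z 0 1 * (x 2 i * x 3 j - x 3 i * x 2 j) :=
    fun z i j => by
    simp [hs, mul_apply, Fin.sum_univ_four]
    ring
  ext i j
  rw [h3, det4]
  simp only [h1]
  fin_cases i <;> fin_cases j <;> simp [hs] <;> ring

theorem act_alt {ι : Type} [Fintype ι] {y : Matrix ι ι F} (hy : yᵀ = -y) (x : Matrix ι ι F) :
    (x * y * xᵀ)ᵀ = -(x * y * xᵀ) := by
  rw [transpose_mul, transpose_mul, transpose_transpose, hy, neg_mul, mul_neg, mul_assoc]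

theorem hs_act' (h2 : (2 : F) ≠ 0) {y : MF F} (hy : yᵀ = -y) {x : GL (Fin 4) F}
    (hx : (x : MF F).det = 1) :
    hs ((x : MF F) * y * (x : MF F)ᵀ) =
      ((x⁻¹ : GL (Fin 4) F) : MF F)ᵀ * hs y * ((x⁻¹ : GL (Fin 4) F) : MF F) := by
  have := hs_act h2 hy x
  rw [hx, one_smul] at this
  rw [← this, mul_assoc (_ : MF F)ᵀ, mul_assoc (_ * _), Units.mul_inv, mul_one, ← mul_assoc (_ : MF F)ᵀ,
    ← transpose_mul, Units.mul_inv, transpose_one, one_mul]

theorem mul_hs_act (h2 : (2 : F) ≠ 0) (y : MF F) {w : MF F} (hw : wᵀ = -w) {x : GL (Fin 4) F}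
    (hx : (x : MF F).det = 1) :
    (x : MF F) * y * (x : MF F)ᵀ * hs ((x : MF F) * w * (x : MF F)ᵀ) = cj x (y * hs w) := by
  rw [hs_act' h2 hw hx, cj_apply]
  simp only [mul_assoc]
  rw [← mul_assoc (x : MF F)ᵀ, ← transpose_mul, Units.inv_mul, transpose_one, one_mul]

theorem bt_act (h2 : (2 : F) ≠ 0) {y w : MF F} (hy : yᵀ = -y) (hw : wᵀ = -w) {x : GL (Fin 4) F}
    (hx : (x : MF F).det = 1) :
    bt ((x : MF F) * y * (x : MF F)ᵀ) ((x : MF F) * w * (x : MF F)ᵀ) = bt y w := by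
  have := clif h2 (act_alt hy (x : MF F)) (act_alt hw (x : MF F))
  rw [mul_hs_act h2 y hw hx, mul_hs_act h2 w hy hx, ← map_add, clif h2 hy hw, map_smul, map_one] at this
  simpa using (congrFun (congrFun this 0) 0).symm

theorem fix_cj {ι : Type} [Fintype ι] [DecidableEq ι] {s : F} (hs : s * s = -1) (D : GL ι F)
    {N w : Matrix ι ι F} (h : N * w * Nᵀ = -w) :
    s • cj D N * (D * w * (D : Matrix ι ι F)ᵀ) * (s • cj D N)ᵀ = D * w * (D : Matrix ι ι F)ᵀ := by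
  rw [transpose_smul, smul_mul_assoc, smul_mul_smul_comm, hs, cj_apply, transpose_mul, transpose_mul]
  simp only [mul_assoc, Units.inv_mul_cancel_left]
  rw [← mul_assoc (D : Matrix ι ι F)ᵀ, ← transpose_mul, Units.inv_mul, transpose_one, one_mul,
    ← mul_assoc w, ← mul_assoc N, ← mul_assoc N, h]
  simp

theorem fixK {K : Type*} [Field K] [IsAlgClosed K] (h2 : (2 : K) ≠ 0) (A C g : GL I4 K)
    (hA : (A : M4 K) * A = -1) (hC : (C : M4 K) * C = -1) (e : (A : M4 K) * C = -(C * A)) :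
    ∃ y : M4 K, y ≠ 0 ∧ yᵀ = -y ∧ A * y * (A : M4 K)ᵀ = y ∧ C * y * (C : M4 K)ᵀ = y ∧
      cj g A * y * (cj g (A : M4 K))ᵀ = y := by
  let π := MonoidHom.id (PG4 K)
  have inj : Function.Injective π := Function.injective_id
  have rA : Rep π (ProjGenLinGroup.mk A) A := rep_of_eq rfl
  have rC : Rep π (ProjGenLinGroup.mk C) C := rep_of_eq rfl
  have an : Anti π (ProjGenLinGroup.mk A) (ProjGenLinGroup.mk C) := ⟨_, _, rA, rC, e⟩
  obtain ⟨B, hB⟩ := inv_nf inj h2 (((rA.pow 2).congr (by rw [sq, hA, neg_one_smul])).eq_one inj)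
    (fun h => Com.not_anti h2 (Cz π _).one_mem (h ▸ an)) (not_refl_of_trace h2 rA (an.trace h2 rA))
  obtain ⟨Q, hQ⟩ := frame_anti h2 hB (((rC.pow 2).congr (by rw [sq, hC, neg_one_smul])).eq_one inj)
    ((anti_cb B).2 an.symm)
  replace hB := hB.bdG_zz 1 Q
  rw [cb_cb, rep_cb_iff] at hQ hB
  generalize B * bdG 1 Q = D at hQ hB
  obtain ⟨s, -, hs⟩ := hB.unique rA
  obtain ⟨t, -, ht⟩ := hQ.unique rC
  have sq : ∀ (c : K) (N : M4 K), N * N = 1 → c • cj D N * c • cj D N = -1 → c * c = -1 :=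
    fun c N h1 h3 => by
    rw [smul_mul_smul_comm, ← map_mul, h1, map_one] at h3
    simpa using congrFun (congrFun h3 (.inl 0)) (.inl 0)
  have s2 := sq s _ (by simp [fromBlocks_multiply]) (hs ▸ hA)
  have t2 := sq t _ (by simp [fromBlocks_multiply]) (ht ▸ hC)
  let S : Fin 3 → M2 K := ![!![1, 0; 0, 0], !![0, 1; 1, 0], !![0, 0; 0, 1]]
  let R : M4 K := ((g * D)⁻¹ * D : GL I4 K)
  obtain ⟨v, hv, h0⟩ := exists_mulVec_eq_zero_iff.2 (det_eq_zero_of_row_eq_zero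
    (A := Matrix.of ![fun k => (R * ad (S k) (-S k) * Rᵀ) (.inl 0) (.inl 1),
      fun k => (R * ad (S k) (-S k) * Rᵀ) (.inr 0) (.inr 1), 0]) 2 fun _ => rfl)
  set W : M2 K := !![v 0, v 1; v 1, v 2] with hW
  have hw : ad W (-W) = ∑ k, v k • ad (S k) (-S k) := by
    ext (i | i) (j | j) <;> fin_cases i <;> fin_cases j <;> simp [S, hW, Fin.sum_univ_three]
  have WT : Wᵀ = W := by
    ext i j
    fin_cases i <;> fin_cases j <;> rfl
  have alt : (ad W (-W))ᵀ = -ad W (-W) := by simp [fromBlocks_transpose, fromBlocks_neg, WT]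
  have hR : R * ad W (-W) * Rᵀ = ∑ k, v k • (R * ad (S k) (-S k) * Rᵀ) := by
    simp [hw, Finset.mul_sum, Finset.sum_mul]
  refine ⟨D * ad W (-W) * (D : M4 K)ᵀ, fun h => hv ?_, act_alt alt _, ?_, ?_, ?_⟩
  · rw [((isUnit_transpose _).2 D.isUnit).mul_left_eq_zero, D.isUnit.mul_right_eq_zero] at h
    have := fun i j => congrFun (congrFun h (.inl i)) (.inr j)
    ext k
    fin_cases k
    exacts [this 0 0, this 0 1, this 1 1]
  · rw [hs]
    exact fix_cj s2 D (by simp [fromBlocks_transpose, fromBlocks_multiply, fromBlocks_neg])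
  · rw [ht]
    exact fix_cj t2 D (by simp [fromBlocks_transpose, fromBlocks_multiply, fromBlocks_neg])
  · have e1 : D * ad W (-W) * (D : M4 K)ᵀ =
        (g * D : GL I4 K) * (R * ad W (-W) * Rᵀ) * ((g * D : GL I4 K) : M4 K)ᵀ := by
      rw [← mul_assoc, ← mul_assoc, mul_assoc _ Rᵀ, ← transpose_mul, ← Units.val_mul _ (_ * _),
        mul_inv_cancel_left]
    rw [e1, hs, map_smul, ← cj_mul]
    refine fix_cj s2 _ ?_
    have a1 := act_alt alt R
    have k1 : (R * ad W (-W) * Rᵀ) (.inl 0) (.inl 1) = 0 := by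
      simpa [hR, Matrix.sum_apply, mulVec, dotProduct, mul_comm] using congrFun h0 0
    have k2 : (R * ad W (-W) * Rᵀ) (.inr 0) (.inr 1) = 0 := by
      simpa [hR, Matrix.sum_apply, mulVec, dotProduct, mul_comm] using congrFun h0 1
    generalize R * ad W (-W) * Rᵀ = z at a1 k1 k2
    have h : ∀ i j, z j i = -z i j := fun i j => congrFun (congrFun a1 i) j
    have h0 : ∀ i, z i i = 0 := fun i => mul_left_cancel₀ h2 (by linear_combination h i i)
    ext (i | i) (j | j) <;> fin_cases i <;> fin_cases j <;>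
      simp [mul_apply, one_apply, h0, k1, k2, h (.inl 0) (.inl 1), h (.inr 0) (.inr 1)]

theorem fixF (K : Type*) [Field K] [IsAlgClosed K] [Algebra F K] (h2 : (2 : F) ≠ 0)
    (A C g : GL (Fin 4) F)
    (hA : (A : MF F) * A = -1) (hC : (C : MF F) * C = -1) (e : (A : MF F) * C = -(C * A)) :
    ∃ y : MF F, y ≠ 0 ∧ yᵀ = -y ∧ A * y * (A : MF F)ᵀ = y ∧ C * y * (C : MF F)ᵀ = y ∧
      cj g A * y * (cj g (A : MF F))ᵀ = y := by
  let ε : I4 ≃ Fin 4 := finSumFinEquiv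
  let ψ : MF F →+* M4 K :=
    (reindexAlgEquiv K K ε.symm).toRingEquiv.toRingHom.comp (algebraMap F K).mapMatrix
  let Ψ : GL (Fin 4) F →* GL I4 K := Units.map ψ.toMonoidHom
  have hΨ : ∀ x, (Ψ x : M4 K) = ψ x := fun _ => rfl
  obtain ⟨y, h0, h1, h3, h4, h5⟩ := fixK (K := K) (fun h => h2 ((algebraMap F K).injective (by
      rw [map_ofNat, map_zero, h]))) (Ψ A) (Ψ C) (Ψ g) (by rw [hΨ, ← map_mul, hA, map_neg, map_one])
    (by rw [hΨ, ← map_mul, hC, map_neg, map_one]) (by rw [hΨ, hΨ, ← map_mul, e, map_neg, map_mul])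
  obtain ⟨i, j, hij⟩ : ∃ i j, y i j ≠ 0 := by
    by_contra hn
    push Not at hn
    exact h0 (Matrix.ext hn)
  obtain ⟨l, hl⟩ := Module.Projective.exists_dual_ne_zero F hij
  have key : ∀ x : MF F, ψ x * y * (ψ x)ᵀ = y →
      x * (y.submatrix ε.symm ε.symm).map l * xᵀ = (y.submatrix ε.symm ε.symm).map l := fun x h => by
    ext a b
    have := congrArg l (congrFun (congrFun h (ε.symm a)) (ε.symm b))
    rw [map_apply, submatrix_apply, ← this]
    simp only [mul_apply, transpose_apply, map_apply, submatrix_apply, map_sum, Finset.sum_mul,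
      ← ε.sum_comp, Equiv.symm_apply_apply]
    refine Finset.sum_congr rfl fun c _ => Finset.sum_congr rfl fun d _ => ?_
    rw [mul_comm _ (ψ x _ _), ← mul_assoc]
    simp [ψ, ← map_mul, ← Algebra.smul_def]
    ring
  refine ⟨(y.submatrix ε.symm ε.symm).map l, fun h => hl ?_, ?_, key _ h3, key _ h4, key _ ?_⟩
  · simpa using congrFun (congrFun h (ε i)) (ε j)
  · ext a b
    simpa using congrArg l (congrFun (congrFun h1 (ε.symm a)) (ε.symm b))
  · rw [cj_coe] at h5 ⊢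
    rwa [← hΨ, map_mul, map_mul, map_inv]

end CfsgLib.D4.OVb
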