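import Cfsg.Agent.Lib.D4.Fld
import Cfsg.Agent.Lib.D4.OVb0
import Cfsg.Agent.Lib.Mit.TrPSL
import Cfsg.Agent.Lib.Classical.SmallIso

/-! The overgroup `A₇` of `L₂(7)`: construction of the simplex.  See `plans/D4.md`. -/

set_option autoImplicit false

namespace CfsgLib.D4

open Matrix Cfsg Cfsg.Geo CfsgLib.Asch
open scoped MatrixGroups commutatorElement

variable {F : Type*} [Field F] [Fintype F] {H P : Subgroup (GL (Fin 4) F)}

/-- the double cover of `L₂(7)` -/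
structure L27 (H P : Subgroup (GL (Fin 4) F)) : Prop where
  core : IsResidualCore H P
  nb : NoBil P
  sl : H ≤ specialLinear (Fin 4) F
  two : (2 : F) ≠ 0
  seven : (7 : F) ≠ 0
  iso : Nonempty ((P ⧸ (scalars (Fin 4) F).subgroupOf P) ≃* PSL(2, ZMod 7))
  sq : ∀ x ∈ P, x ∉ scalars (Fin 4) F → x ^ 2 ∈ scalars (Fin 4) F → x ^ 2 = -1
  ker : ∀ x ∈ P, x ∈ scalars (Fin 4) F → x = 1 ∨ x = -1
  tr : ∀ x ∈ P, x ≠ 1 → x ^ 7 = 1 → ((x⁻¹ : GL (Fin 4) F) : Matrix (Fin 4) (Fin 4) F).trace ≠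
    (x : Matrix (Fin 4) (Fin 4) F).trace

namespace OVb

open CfsgLib.Mit.Tr CfsgLib.Classical

omit [Fintype F] in
theorem cov (h : L27 H P) : ∃ φ : P →* PSL(2, ZMod 7), Function.Surjective φ ∧
    (∀ x : P, φ x = 1 ↔ (x : GL (Fin 4) F) ∈ scalars (Fin 4) F) ∧
    ∀ x y : P, φ x = φ y → (x : GL (Fin 4) F) = y ∨ (x : GL (Fin 4) F) = -y := by
  obtain ⟨e⟩ := h.iso
  refine ⟨e.toMonoidHom.comp (QuotientGroup.mk' _), e.surjective.comp (QuotientGroup.mk'_surjective _),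
    fun x => by simp [Subgroup.mem_subgroupOf], fun x y k => ?_⟩
  have := h.ker _ (x * y⁻¹).2 (by
    rw [← Subgroup.mem_subgroupOf, ← QuotientGroup.eq_one_iff, QuotientGroup.mk_mul,
      QuotientGroup.mk_inv, mul_inv_eq_one]
    exact e.injective k)
  rwa [Subgroup.coe_mul, Subgroup.coe_inv, mul_inv_eq_one, mul_inv_eq_iff_eq_mul, neg_one_mul] at this

omit [Fintype F] in
theorem det_eq (hH : H ≤ specialLinear (Fin 4) F) {x : GL (Fin 4) F} (hx : x ∈ H) :
    (x : MF F).det = 1 := congrArg Units.val (MonoidHom.mem_ker.1 (hH hx))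

omit [Fintype F] in
theorem ker_top (h : ActsIrreducibly (matrixSet P)) {ι : Type*} (N : ι → MF F)
    (hN : ∀ x ∈ P, ∀ a, ∃ a' C, N a * (x : MF F) = C * N a') {v : Fin 4 → F} (hv : v ≠ 0)
    (h0 : ∀ a, N a *ᵥ v = 0) (a : ι) : N a = 0 := by
  rcases h (⨅ a, LinearMap.ker (toLin' (N a))) (by
    rintro _ ⟨x, hx, rfl⟩ _ ⟨w, hw, rfl⟩
    simp only [SetLike.mem_coe, Submodule.mem_iInf, LinearMap.mem_ker, toLin'_apply] at hw ⊢
    intro a
    obtain ⟨a', C, e⟩ := hN x hx a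
    rw [mulVec_mulVec, e, ← mulVec_mulVec, hw, mulVec_zero]) with e | e
  · exact absurd ((Submodule.eq_bot_iff _).1 e v (by simpa using h0)) hv
  · exact toLin'.injective (by simpa using iInf_eq_top.1 e a)

omit [Fintype F] in
theorem common_ker {ι : Type*} (N : ι → MF F) (hc : ∀ a b, N a * N b = N b * N a)
    (h2 : ∀ a, N a * N a = 0) (s : Finset ι) : ∃ v, v ≠ 0 ∧ ∀ a ∈ s, N a *ᵥ v = 0 := by
  classical
  induction s using Finset.induction_on with
  | empty => exact ⟨1, one_ne_zero, by simp⟩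
  | insert a s _ ih =>
    obtain ⟨v, hv, h⟩ := ih
    by_cases e : N a *ᵥ v = 0
    · exact ⟨v, hv, by simpa [e] using h⟩
    · refine ⟨_, e, fun b hb => ?_⟩
      rcases Finset.mem_insert.1 hb with rfl | hb
      · rw [mulVec_mulVec, h2, zero_mulVec]
      · rw [mulVec_mulVec, hc, ← mulVec_mulVec, h b hb, mulVec_zero]

omit [Fintype F] in
/-- no invariant alternating matrix -/
theorem fixed_eq_zero (h : L27 H P) {z : MF F} (hz : zᵀ = -z)
    (hf : ∀ x ∈ P, (x : MF F) * z * (x : MF F)ᵀ = z) : z = 0 := by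
  have e : ∀ x ∈ P, (x : MF F)ᵀ * hs z * (x : MF F) = hs z := fun x hx => by
    have := hs_act h.two hz x
    rwa [hf x hx, det_eq h.sl (h.core.le hx), one_smul] at this
  have sk : ∀ v w, v ⬝ᵥ hs z *ᵥ w = -(w ⬝ᵥ hs z *ᵥ v) := fun v w => by
    rw [dotProduct_mulVec, ← mulVec_transpose, hs_alt, neg_mulVec, neg_dotProduct, dotProduct_comm]
  by_contra h0
  have nd : ∀ v, v ≠ 0 → ∃ x, x ⬝ᵥ hs z *ᵥ v ≠ 0 := fun v hv => by
    by_contra hn
    push Not at hn
    have := ker_top h.core.absIrred.1 (fun _ : Unit => hs z) (fun x hx _ =>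
      ⟨(), ((x⁻¹ : GL (Fin 4) F) : MF F)ᵀ, by
        rw [← e x hx, ← mul_assoc, ← mul_assoc, ← transpose_mul, Units.mul_inv, transpose_one, one_mul,
          e x hx]⟩) hv (fun _ => funext fun i => by simpa using hn (Pi.single i 1)) ()
    exact h0 (by rw [← hs_hs h.two hz, this]; ext i j; fin_cases i <;> fin_cases j <;> simp [hs])
  refine h.nb.2 ⟨fun v w => v ⬝ᵥ hs z *ᵥ w, ⟨⟨by simp, by simp, by simp [mulVec_add],
    by simp [mulVec_smul]⟩, sk, fun v => mul_left_cancel₀ h.two (by linear_combination sk v v),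
    fun v hv => ⟨nd v hv, (nd v hv).imp fun x hx => by rwa [sk, neg_ne_zero]⟩⟩, ?_⟩
  rintro _ ⟨x, hx, rfl⟩ v w
  beta_reduce
  rw [mulVec_mulVec, dotProduct_mulVec, vecMul_mulVec, ← dotProduct_mulVec, ← mul_assoc, e x hx]

omit [Fintype F] in
/-- no invariant totally singular family -/
theorem sing_eq_zero (h : L27 H P) {y : Fin 7 → MF F} (alt : ∀ i, (y i)ᵀ = -y i)
    (hb : ∀ i j, bt (y i) (y j) = 0)
    (act : ∀ x ∈ P, ∀ i, ∃ j, ∀ k, ∃ l, (x : MF F) * y j * (x : MF F)ᵀ = y i ∧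
      (x : MF F) * y l * (x : MF F)ᵀ = y k) : y 0 = 0 := by
  have h2 := h.two
  have c1 : ∀ i j, y i * hs (y j) = -(y j * hs (y i)) := fun i j => by
    rw [eq_neg_iff_add_eq_zero, clif h2 (alt i) (alt j), hb, neg_zero, zero_smul]
  have c2 : ∀ i j, hs (y i) * y j = -(hs (y j) * y i) := fun i j => by
    have := clif h2 (hs_alt (y i)) (hs_alt (y j))
    rwa [hs_hs h2 (alt i), hs_hs h2 (alt j), bt_hs, hb, neg_zero, zero_smul, add_eq_zero_iff_eq_neg] at this
  have c0 : ∀ i, y i * hs (y i) = 0 := fun i => by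
    have := c1 i i
    rwa [eq_neg_iff_add_eq_zero, ← two_smul F, smul_eq_zero_iff_right h2] at this
  have c3 : ∀ i j k l, y i * hs (y j) * (y k * hs (y l)) = -(y i * hs (y k) * (y j * hs (y l))) :=
    fun i j k l => by
    rw [mul_assoc, ← mul_assoc (hs _), c2, neg_mul, mul_neg, mul_assoc (hs _), ← mul_assoc]
  obtain ⟨v, hv, h0⟩ := common_ker (fun a : Fin 7 × Fin 7 => y a.1 * hs (y a.2)) (fun a b => by
    rw [c3, c1 a.1, c1 a.2, neg_mul_neg, c3, neg_neg]) (fun a => by rw [c3, c0, zero_mul, neg_zero]) Finset.univ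
  have hN := ker_top h.core.absIrred.1 (fun a : Fin 7 × Fin 7 => y a.1 * hs (y a.2)) (fun x hx a => by
    obtain ⟨j, hj⟩ := act x hx a.1
    obtain ⟨l, e1, e2⟩ := hj a.2
    exact ⟨(j, l), x, by rw [← e1, ← e2, mul_hs_act h2 _ (alt l) (det_eq h.sl (h.core.le hx)),
      cj_mul_coe]⟩) hv fun a => h0 a (Finset.mem_univ _)
  by_contra hy
  obtain ⟨w, hw⟩ : ∃ w, y 0 *ᵥ w ≠ 0 := by
    by_contra hn
    push Not at hn
    exact hy (ext_iff_mulVec.2 fun w => (hn w).trans (zero_mulVec w).symm)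
  have := ker_top h.core.absIrred.1 (fun i => hs (y i)) (fun x hx i => by
    obtain ⟨j, hj⟩ := act x hx i
    obtain ⟨-, e1, -⟩ := hj i
    exact ⟨j, _, by rw [← e1, hs_act' h2 (alt j) (det_eq h.sl (h.core.le hx)), mul_assoc,
      Units.inv_mul, mul_one]⟩) hw (fun i => by
      have := congrArg transpose (hN (0, i))
      rw [transpose_mul, hs_alt, alt, neg_mul_neg, transpose_zero] at this
      rw [mulVec_mulVec, this, zero_mulVec]) 0
  exact hy (by rw [← hs_hs h2 (alt 0), this]; ext i j; fin_cases i <;> fin_cases j <;> simp [hs])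

/-- the upper transvection -/
def uu : SL(2, ZMod 7) := sl2Mk 1 1 0 1 (by decide)

/-- the lower transvection -/
def ll : SL(2, ZMod 7) := sl2Mk 1 0 1 1 (by decide)

/-- Coxeter generators of `S₄` -/
def tt : Fin 3 → SL(2, ZMod 7) :=
  ![sl2Mk 0 2 3 0 (by decide), sl2Mk 2 2 1 5 (by decide), sl2Mk 2 1 2 5 (by decide)]

/-- Schreier words -/
def ww : Fin 7 → List (Fin 3) := ![[0, 0, 0, 1], [1, 0], [1, 2, 0], [2, 0], [1], [0, 2, 1], [1, 2, 1]]

/-- the action of `uu` -/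
def su : Equiv.Perm (Fin 7) := c[0, 1, 2, 3, 4, 5, 6]

/-- the action of `ll` -/
def sl : Equiv.Perm (Fin 7) := c[0, 3, 5, 4, 6, 1, 2]

/-- the third point on a line of the Fano plane -/
def mm : Fin 7 → Fin 7 → Fin 7 := ![![0, 3, 6, 1, 5, 4, 2], ![3, 1, 4, 0, 2, 6, 5],
  ![6, 4, 2, 5, 1, 3, 0], ![1, 0, 5, 3, 6, 2, 4], ![5, 2, 1, 6, 4, 0, 3], ![4, 6, 3, 2, 0, 5, 1],
  ![2, 5, 0, 4, 3, 1, 6]]

/-- collineations -/
def Fano (s : Equiv.Perm (Fin 7)) : Prop := ∀ i j, s (mm i j) = mm (s i) (s j)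

theorem relU : ∀ i : Fin 7, uu * uu ^ i.1 = uu ^ (su i).1 * (([] : List (Fin 3)).map tt).prod := by
  decide +kernel

theorem relL : ∀ i : Fin 7, ll * uu ^ i.1 = uu ^ (sl i).1 * ((ww i).map tt).prod := by
  decide +kernel

theorem trans2 : ∀ i j : Fin 7, ∃ a b c : Fin 7, (su ^ a.1 * sl ^ b.1 * su ^ c.1) 0 = i ∧
    (su ^ a.1 * sl ^ b.1 * su ^ c.1) (if i = j then 0 else 1) = j := by
  decide +kernel

theorem Fano.not_three {s : Equiv.Perm (Fin 7)} (h : Fano s) : ¬ s.IsThreeCycle := fun h3 => by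
  obtain ⟨x, hx, a, ha, b, hb, e⟩ := (by decide +kernel : ∀ T : Finset (Fin 7), T.card = 3 →
    ∃ x ∈ T, ∃ a ∉ T, ∃ b ∉ T, mm a b = x) _ h3.card_support
  rw [Equiv.Perm.notMem_support] at ha hb
  exact Equiv.Perm.mem_support.1 hx (by rw [← e, h, ha, hb])

omit [Fintype F] in
theorem exists_fix (h : L27 H P) {φ : P →* PSL(2, ZMod 7)} (hs : Function.Surjective φ)
    (hk : ∀ x : P, φ x = 1 ↔ (x : GL (Fin 4) F) ∈ scalars (Fin 4) F)
    (hp : ∀ x y : P, φ x = φ y → (x : GL (Fin 4) F) = y ∨ (x : GL (Fin 4) F) = -y) :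
    ∃ y : MF F, y ≠ 0 ∧ yᵀ = -y ∧ ∀ k (x : P), φ x = pm (tt k) →
      ((x : GL (Fin 4) F) : MF F) * y * ((x : GL (Fin 4) F) : MF F)ᵀ = y := by
  have sq : ∀ (x : P) (t : SL(2, ZMod 7)), φ x = pm t → t 0 1 ≠ 0 → t ^ 2 = -1 →
      ((x : GL (Fin 4) F) : MF F) * (x : GL (Fin 4) F) = -1 := fun x t e h1 h2 => by
    have := h.sq x x.2 (fun k => by
      obtain ⟨r, hr⟩ := pm_eq_one_iff.1 (e ▸ (hk x).2 k)
      exact h1 (by simpa using congrFun (congrFun hr 0) 1)) ((hk (x ^ 2)).1 (by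
        rw [map_pow, e, ← pm_pow, h2]
        exact pm_eq_one_iff.2 ⟨-1, by simp⟩))
    simpa [pow_two] using congrArg Units.val this
  obtain ⟨A, hA⟩ := hs (pm (tt 0))
  obtain ⟨C, hC⟩ := hs (pm (tt 2))
  obtain ⟨g, hg⟩ := hs (pm ll⁻¹)
  have a2 := sq A _ hA (by decide) (by decide)
  have c2 := sq C _ hC (by decide) (by decide)
  have ac := sq (A * C) (tt 0 * tt 2) (by rw [map_mul, hA, hC, pm_mul]) (by decide) (by decide)
  rw [Subgroup.coe_mul, Units.val_mul] at ac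
  obtain ⟨y, h0, h1, h2, h3, h4⟩ := fixF (AlgebraicClosure F) h.two A C g a2 c2 (by
    have := congrArg (fun M => ((A : GL (Fin 4) F) : MF F) * M * ((C : GL (Fin 4) F) : MF F)) ac
    simp only [mul_assoc, c2] at this
    rw [← mul_assoc, a2] at this
    simpa [neg_eq_iff_eq_neg] using this.symm)
  have key : ∀ x z : P, φ x = φ z → ((z : GL (Fin 4) F) : MF F) * y * ((z : GL (Fin 4) F) : MF F)ᵀ = y →
      ((x : GL (Fin 4) F) : MF F) * y * ((x : GL (Fin 4) F) : MF F)ᵀ = y := fun x z e k => by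
    rcases hp x z e with e | e <;> simpa [e] using k
  refine ⟨y, h0, h1, fun k x e => ?_⟩
  fin_cases k
  · exact key x A (e.trans hA.symm) h2
  · refine key x (g * A * g⁻¹) (e.trans ?_) (by rwa [cj_coe] at h4)
    rw [map_mul, map_mul, map_inv, hg, hA]
    exact congrArg pm (show tt 1 = ll⁻¹ * tt 0 * ll⁻¹⁻¹ by decide)
  · exact key x C (e.trans hC.symm) h3

omit [Fintype F] in
theorem exists_act {φ : P →* PSL(2, ZMod 7)} (hs : Function.Surjective φ)
    (hp : ∀ x y : P, φ x = φ y → (x : GL (Fin 4) F) = y ∨ (x : GL (Fin 4) F) = -y) {y0 : MF F}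
    (fx : ∀ k (x : P), φ x = pm (tt k) →
      ((x : GL (Fin 4) F) : MF F) * y0 * ((x : GL (Fin 4) F) : MF F)ᵀ = y0) :
    ∃ y : Fin 7 → MF F, y 0 = y0 ∧ (∀ i, ∃ x ∈ P, (x : MF F) * y0 * (x : MF F)ᵀ = y i) ∧
      (∀ x ∈ P, ∃ s, Fano s ∧ ∀ i, (x : MF F) * y i * (x : MF F)ᵀ = y (s i)) ∧
      ∀ a b c : ℕ, ∃ x ∈ P, ∀ i, (x : MF F) * y i * (x : MF F)ᵀ = y ((su ^ a * sl ^ b * su ^ c) i) := by
  choose l hl using fun g => hs (pm g)
  let θ : SL(2, ZMod 7) → MF F → MF F := fun g y =>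
    ((l g : GL (Fin 4) F) : MF F) * y * ((l g : GL (Fin 4) F) : MF F)ᵀ
  have hθ : ∀ g (x : P), φ x = pm g → ∀ y, θ g y =
      ((x : GL (Fin 4) F) : MF F) * y * ((x : GL (Fin 4) F) : MF F)ᵀ := fun g x e y => by
    rcases hp (l g) x ((hl g).trans e.symm) with e | e <;> simp [θ, e]
  have θm : ∀ a b y, θ (a * b) y = θ a (θ b y) := fun a b y => by
    rw [hθ (a * b) (l a * l b) (by rw [map_mul, hl, hl, pm_mul])]
    simp [θ, mul_assoc]
  have θ1 : ∀ y, θ 1 y = y := fun y => by rw [hθ 1 1 (map_one φ)]; simp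
  have θw : ∀ w : List (Fin 3), θ (w.map tt).prod y0 = y0 := fun w => by
    induction w with
    | nil => exact θ1 y0
    | cons k w ih => rw [List.map_cons, List.prod_cons, θm, ih]; exact fx k _ (hl _)
  let y : Fin 7 → MF F := fun i => θ (uu ^ i.1) y0
  let K : Subgroup (SL(2, ZMod 7) × Equiv.Perm (Fin 7)) :=
    { carrier := {g | Fano g.2 ∧ ∀ i, θ g.1 (y i) = y (g.2 i)}
      mul_mem' := fun ⟨f, h⟩ ⟨f', h'⟩ => ⟨fun i j => (congrArg _ (f' i j)).trans (f _ _),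
        fun i => by rw [Prod.fst_mul, θm, h', h]; rfl⟩
      one_mem' := ⟨fun _ _ => rfl, fun i => θ1 _⟩
      inv_mem' := fun {g} ⟨f, h⟩ => ⟨fun i j => g.2.injective (by rw [f]; simp), fun i => by
        have := congrArg (θ g.1⁻¹) (h (g.2⁻¹ i))
        rw [← θm, inv_mul_cancel, θ1] at this
        simpa using this.symm⟩ }
  have hU : (uu, su) ∈ K := ⟨by unfold Fano; decide, fun i => by rw [← θm, relU, θm, θw]⟩
  have hL : (ll, sl) ∈ K := ⟨by unfold Fano; decide, fun i => by rw [← θm, relL, θm, θw]⟩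
  have top : ⊤ ≤ K.map (MonoidHom.fst _ _) := by
    rw [← sl_closure_transvection_of_addClosure _ (zmod_addClosure_one 7), Subgroup.closure_le]
    rintro _ ⟨i, j, hij, c, rfl, rfl⟩
    fin_cases i <;> fin_cases j
    · exact absurd rfl hij
    · exact ⟨_, hU, Subtype.ext (by rw [SpecialLinearGroup.transvection_coe]; decide)⟩
    · exact ⟨_, hL, Subtype.ext (by rw [SpecialLinearGroup.transvection_coe]; decide)⟩
    · exact absurd rfl hij
  refine ⟨y, θ1 _, fun i => ⟨_, (l _).2, rfl⟩, fun x hx => ?_, fun a b c => ?_⟩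
  · obtain ⟨g, hg⟩ := QuotientGroup.mk_surjective (φ ⟨x, hx⟩)
    obtain ⟨⟨g, s⟩, ⟨f, k⟩, rfl⟩ := top (Subgroup.mem_top g)
    exact ⟨s, f, fun i => (hθ g _ hg.symm _).symm.trans (k i)⟩
  · exact ⟨_, (l _).2, (mul_mem (mul_mem (pow_mem hU a) (pow_mem hL b)) (pow_mem hU c)).2⟩

omit [Fintype F] in
theorem sev (h : L27 H P) (hle : H ≤ P ⊔ scalars (Fin 4) F) {y : Fin 7 → MF F} (h0 : y 0 ≠ 0)
    (alt : ∀ i, (y i)ᵀ = -y i)
    (act : ∀ x ∈ P, ∃ s, Fano s ∧ ∀ i, (x : MF F) * y i * (x : MF F)ᵀ = y (s i))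
    (two : ∀ a b c : ℕ, ∃ x ∈ P, ∀ i,
      (x : MF F) * y i * (x : MF F)ᵀ = y ((su ^ a * sl ^ b * su ^ c) i)) :
    Sev H y (bt (y 0) (y 0)) (bt (y 0) (y 1)) := by
  have hb : ∀ i j, bt (y i) (y j) = bt (y 0) (y (if i = j then 0 else 1)) := fun i j => by
    obtain ⟨a, b, c, e1, e2⟩ := trans2 i j
    obtain ⟨x, hx, k⟩ := two a b c
    rw [← bt_act h.two (alt 0) (alt _) (det_eq h.sl (h.core.le hx)), k, k, e1, e2]
  have hd : ∀ i, bt (y i) (y i) = bt (y 0) (y 0) := fun i => by rw [hb, if_pos rfl]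
  have ho : ∀ i j, i ≠ j → bt (y i) (y j) = bt (y 0) (y 1) := fun i j k => by rw [hb, if_neg k]
  refine ⟨alt, hd, ho, fun e => h0 ?_, fun x hx => ?_⟩
  · have h1 := fixed_eq_zero h (z := ∑ i, y i) (by simp [transpose_sum, alt]) fun x hx => by
      obtain ⟨s, -, k⟩ := act x hx
      simp only [Finset.mul_sum, Finset.sum_mul, k]
      exact Equiv.sum_comp s y
    have h2 := bt_sum Finset.univ (y 0) y
    rw [h1, Fin.sum_univ_succ, Finset.sum_congr rfl fun i _ => ho 0 _ (Fin.succ_ne_zero i).symm] at h2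
    simp only [bt, Matrix.zero_apply, mul_zero, sub_zero, add_zero, Finset.sum_const, Finset.card_univ,
      Fintype.card_fin, nsmul_eq_mul, Nat.cast_ofNat] at h2
    have h3 : bt (y 0) (y 1) = 0 := mul_left_cancel₀ h.seven (by
      simp only [bt] at e ⊢
      linear_combination -h2 - e)
    refine sing_eq_zero h alt (fun i j => ?_) fun x hx i => ?_
    · by_cases k : i = j
      · rw [k, hd, sub_eq_zero.1 e, h3]
      · rw [ho i j k, h3]
    · obtain ⟨s, -, k⟩ := act x hx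
      exact ⟨s⁻¹ i, fun j => ⟨s⁻¹ j, by simp [k], by simp [k]⟩⟩
  · obtain ⟨u, hu, z, hz, rfl⟩ := Subgroup.mem_sup_of_normal_right.1 (hle hx)
    obtain ⟨c, hc⟩ := (mem_scalars_iff z).1 hz
    obtain ⟨s, f, k⟩ := act u hu
    have := det_eq h.sl hx
    rw [Units.val_mul, det_mul, det_eq h.sl (h.core.le hu), hc, det_smul, det_one, Fintype.card_fin]
      at this
    refine ⟨c * c, s, mul_self_eq_one_iff.1 (by linear_combination this), f.not_three, fun i => ?_⟩
    simp [hc, ← k, smul_smul]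

end OVb

open OVb CfsgLib.Mit.Tr

theorem L27.le_sup (h : L27 H P) : H ≤ P ⊔ scalars (Fin 4) F := by
  intro x hx
  obtain ⟨φ, hs, hk, hp⟩ := cov h
  have : Finite (GL (Fin 4) F) := Finite.of_injective _ Units.val_injective
  let s : P →* P := ((MulAut.conj x).toMonoidHom.comp P.subtype).codRestrict P
    fun y => h.core.normal x hx y y.2
  have hs' : ∀ y : P, (s y : GL (Fin 4) F) = x * y * x⁻¹ := fun y => rfl
  have hinj : Function.Injective s := fun a b e => by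
    have := congrArg Subtype.val e
    rw [hs', hs'] at this
    exact Subtype.ext (by simpa using this)
  obtain ⟨α, hα⟩ : ∃ α : MulAut PSL(2, ZMod 7), ∀ y, α (φ y) = φ (s y) := by
    have hk' : φ.ker = (φ.comp s).ker := by
      ext y
      rw [MonoidHom.mem_ker, MonoidHom.mem_ker, MonoidHom.comp_apply, hk, hk, hs']
      exact ((scalars_normal.mem_comm_iff).trans (by rw [inv_mul_cancel_left])).symm
    refine ⟨(QuotientGroup.quotientKerEquivOfSurjective φ hs).symm.trans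
      ((QuotientGroup.quotientMulEquivOfEq hk').trans (QuotientGroup.quotientKerEquivOfSurjective _
        (hs.comp (Finite.injective_iff_surjective.1 hinj)))), fun y => ?_⟩
    have e1 : (QuotientGroup.quotientKerEquivOfSurjective φ hs).symm (φ y) = QuotientGroup.mk y :=
      (MulEquiv.symm_apply_eq _).2 rfl
    rw [MulEquiv.trans_apply, e1]
    rfl
  obtain ⟨g, h1 | h1⟩ := aut7 α
  · obtain ⟨u, rfl⟩ := hs g
    have : (u : GL (Fin 4) F)⁻¹ * x ∈ scalars (Fin 4) F := h.core.centralizer_scalar _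
      (mul_mem (inv_mem (h.core.le u.2)) hx) fun y hy => by
      have := (hk (u⁻¹ * s ⟨y, hy⟩ * u * (⟨y, hy⟩ : P)⁻¹)).1 (by
        rw [map_mul, map_mul, map_mul, ← hα, h1, map_inv, map_inv]; group)
      simpa [mul_assoc, hs'] using this
    rw [show x = u * ((u : GL (Fin 4) F)⁻¹ * x) by group]
    exact Subgroup.mul_mem_sup u.2 this
  obtain ⟨u, rfl⟩ := hs g
  obtain ⟨z, hz, z7⟩ : ∃ z : P, φ z = U 1 ∧ (z : GL (Fin 4) F) ^ 7 = 1 := by
    obtain ⟨z, hz⟩ := hs (U 1)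
    refine ⟨z ^ 8, by rw [map_pow, hz, pow_succ, U7_pow, one_mul], ?_⟩
    rw [Subgroup.coe_pow, ← pow_mul, mul_comm, pow_mul]
    rcases hp (z ^ 7) 1 (by rw [map_pow, hz, U7_pow, map_one]) with e | e <;>
      rw [← Subgroup.coe_pow, e] <;> simp
    norm_num
  rcases hp (s z) (u * z⁻¹ * u⁻¹) (by rw [← hα, hz, h1, map_mul, map_mul, map_inv, map_inv, hz])
    with e | e <;> simp only [hs', Subgroup.coe_mul, Subgroup.coe_inv] at e
  · refine absurd ?_ (h.tr z z.2 (fun k => U7_ne (by rw [← hz, show z = 1 from Subtype.ext k, map_one])) z7)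
    rw [← trace_cj (u : GL (Fin 4) F), cj_coe, ← e, ← cj_coe, trace_cj]
  · have := congrArg (fun a : GL (Fin 4) F => (a ^ 7).1 0 0) e
    simp only [conj_pow, Odd.neg_pow (by decide : Odd 7), inv_pow, z7] at this
    exact absurd (by simpa [← two_mul, eq_neg_iff_add_eq_zero] using this) h.two

theorem L27.exists_sev (h : L27 H P) : ∃ y κ b, Sev H y κ b ∧
    ∀ q : ℕ, Fintype.card F = q ^ 2 → P ≤ GU 4 F q → ∀ i, (hs (y i)).map (· ^ q) = y i := by
  obtain ⟨φ, hφ, hk, hp⟩ := cov h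
  have hJ : ∀ (q : ℕ) (hq : Fintype.card F = q ^ 2), P ≤ GU 4 F q → ∀ x ∈ P, ∀ y : MF F, yᵀ = -y →
      (hs ((x : MF F) * y * (x : MF F)ᵀ)).map (Unitary.conj hq) =
        (x : MF F) * (hs y).map (Unitary.conj hq) * (x : MF F)ᵀ := fun q hq hU x hx y hy => by
    have e := (Unitary.mem_GU_iff hq _).1 (hU (inv_mem hx))
    have e1 : ((x⁻¹ : GL (Fin 4) F) : MF F).map (Unitary.conj hq) = (x : MF F)ᵀ := by
      rw [← one_mul (Matrix.map _ _), ← transpose_one, ← x.inv_mul, transpose_mul, mul_assoc, e, mul_one]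
    rw [hs_act' h.two hy (det_eq h.sl (h.core.le hx)), Matrix.map_mul, Matrix.map_mul, transpose_map, e1,
      transpose_transpose]
  obtain ⟨y0, h0, alt, fx, hy⟩ : ∃ y : MF F, y ≠ 0 ∧ yᵀ = -y ∧ (∀ k (x : P), φ x = pm (tt k) →
      ((x : GL (Fin 4) F) : MF F) * y * ((x : GL (Fin 4) F) : MF F)ᵀ = y) ∧
      ∀ (q : ℕ) (hq : Fintype.card F = q ^ 2), P ≤ GU 4 F q → (hs y).map (Unitary.conj hq) = y := by
    obtain ⟨y, h0, alt, fx⟩ := exists_fix h hφ hk hp
    by_cases hq : ∃ q : ℕ, Fintype.card F = q ^ 2 ∧ P ≤ GU 4 F q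
    swap
    · exact ⟨y, h0, alt, fx, fun q h1 h2 => absurd ⟨q, h1, h2⟩ hq⟩
    obtain ⟨q, hq, hU⟩ := hq
    have hm : ∀ w : MF F, hs (w.map (Unitary.conj hq)) = (hs w).map (Unitary.conj hq) := fun w => by
      ext i j
      fin_cases i <;> fin_cases j <;> simp [hs]
    obtain ⟨c, hc⟩ : ∃ c : F, c • y + (hs (c • y)).map (Unitary.conj hq) ≠ 0 := by
      by_contra hn
      push Not at hn
      obtain ⟨c, hc⟩ := Unitary.exists_not_fixed hq
      have e : (hs (c • y)).map (Unitary.conj hq) = c ^ q • (hs ((1 : F) • y)).map (Unitary.conj hq) := by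
        ext i j
        fin_cases i <;> fin_cases j <;> simp [hs, ← Unitary.conj_apply hq]
      have := hn c
      rw [e, eq_neg_of_add_eq_zero_right (hn 1), one_smul, smul_neg, ← sub_eq_add_neg, ← sub_smul,
        smul_eq_zero_iff_left h0, sub_eq_zero] at this
      exact hc this.symm
    have alt' : (c • y)ᵀ = -(c • y) := by rw [transpose_smul, alt, smul_neg]
    refine ⟨_, hc, ?_, fun k x e => ?_, fun q' hq' _ => ?_⟩
    · rw [transpose_add, alt', ← transpose_map, hs_alt, Matrix.map_neg _ (map_neg _), neg_add]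
    · rw [mul_add, add_mul, ← hJ q hq hU x x.2 _ alt', mul_smul_comm, smul_mul_assoc, fx k x e]
    · obtain rfl : q = q' := Nat.pow_left_injective two_ne_zero (hq.symm.trans hq')
      rw [← hm, Matrix.map_add _ (map_add _), Matrix.map_map]
      have e1 : ∀ a b : MF F, hs (a + b) = hs a + hs b := fun a b => by
        ext i j
        fin_cases i <;> fin_cases j <;> simp [hs, add_comm]
      rw [e1, hm, show Unitary.conj hq ∘ Unitary.conj hq = id from funext (Unitary.conj_conj hq),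
        Matrix.map_id, hs_hs h.two alt', add_comm]
  obtain ⟨y, rfl, e, act, two⟩ := exists_act hφ hp fx
  refine ⟨y, _, _, sev h h.le_sup h0 (fun i => ?_) act two, fun q hq hU i => ?_⟩ <;>
    obtain ⟨x, hx, k⟩ := e i <;> rw [← k]
  · exact act_alt alt _
  · exact (hJ q hq hU x hx _ alt).trans (by rw [hy q hq hU])

end CfsgLib.D4
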