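import Cfsg.Agent.Lib.D4.Basic
import Cfsg.Agent.Lib.Dim4.QDb

/-! Calculus of quadratic elements on planes.  See `plans/D4.md`. -/

set_option autoImplicit false

namespace CfsgLib.D4.QD

open Matrix Cfsg Cfsg.Geo CfsgLib.Asch CfsgLib.Dickson
open scoped MatrixGroups commutatorElement

variable {G K : Type*} [Group G] [Field K] {π π' : G →* PG4 K}
  {L M : Submodule K (I4 → K)} {N N' C : M4 K}

theorem mx_ext {A B : M4 K} (h : ∀ v, A *ᵥ v = B *ᵥ v) : A = B :=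
  Matrix.toLin'.injective (LinearMap.ext h)

/-- the representing matrices of determinant one -/
def Ga (π : G →* PG4 K) : Subgroup (GL I4 K) where
  carrier := {x | (∃ g, Rep π g (x : M4 K)) ∧ (x : M4 K).det = 1}
  one_mem' := ⟨⟨1, rep_one π⟩, by simp⟩
  mul_mem' := fun ⟨⟨_, h⟩, d⟩ ⟨⟨_, h'⟩, d'⟩ =>
    ⟨⟨_, h.mul h'⟩, by rw [Units.val_mul, det_mul, d, d', one_mul]⟩
  inv_mem' := fun {x} ⟨⟨_, h⟩, d⟩ => ⟨⟨_, h.inv' x.mul_inv⟩, by
    have := congrArg Matrix.det x.mul_inv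
    rwa [det_mul, d, one_mul, det_one] at this⟩

theorem finite_Ga [Finite G] (π : G →* PG4 K) : Finite (Ga π) := by
  classical
  choose g hg using fun x : Ga π => x.2.1
  let s : G → Ga π := fun a => if h : ∃ x, g x = a then h.choose else 1
  have hs : ∀ x, g (s (g x)) = g x := fun x => by
    have h : ∃ y, g y = g x := ⟨x, rfl⟩
    simp only [s, dif_pos h]
    exact h.choose_spec
  have : ∀ x : Ga π, ∃ c : K, c ^ 4 = 1 ∧ (x.1 : M4 K) = c • ((s (g x)).1 : M4 K) := fun x => by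
    obtain ⟨c, -, e⟩ := (hs x ▸ hg (s (g x)) : Rep π (g x) _).unique (hg x)
    refine ⟨c, ?_, e⟩
    have := congrArg Matrix.det e
    rw [det_smul, x.2.2, (s (g x)).2.2, mul_one] at this
    simpa using this.symm
  choose c h1 h2 using this
  have hf : ({c : K | c ^ 4 = 1}).Finite :=
    (Polynomial.nthRoots 4 (1 : K)).finite_toSet.subset fun c hc =>
      (Polynomial.mem_nthRoots (by norm_num)).2 hc
  have := hf.to_subtype
  refine Finite.of_injective (fun x => (g x, (⟨c x, h1 x⟩ : {c : K | c ^ 4 = 1}))) fun x y e => ?_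
  simp only [Prod.mk.injEq, Subtype.mk.injEq] at e
  exact Subtype.ext (Units.ext (by rw [h2 x, h2 y, e.1, e.2]))

theorem mul_eq (hN : N ∈ AL π L) (hN' : N' ∈ AL π L) : N * N' = 0 :=
  mx_ext fun v => by rw [← mulVec_mulVec, hN.2.2 _ (hN'.2.1 v), zero_mulVec]

theorem one_add_mul (h : N * N = 0) : (1 + N) * (1 - N) = 1 := by
  rw [add_mul, mul_sub, mul_sub, h]; simp

/-- the unit `1 + N` -/
def un (N : M4 K) (h : N * N = 0) : GL I4 K :=
  ⟨1 + N, 1 - N, one_add_mul h, by rw [sub_mul, mul_add, mul_add, h]; simp⟩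

theorem un_mulVec (h : N * N = 0) (v : I4 → K) : (un N h : M4 K) *ᵥ v = v + N *ᵥ v := by
  change (1 + N) *ᵥ v = _
  rw [add_mulVec, one_mulVec]

theorem un_mem (hN : N ∈ AL π L) : un N (mul_eq hN hN) ∈ Ga π :=
  ⟨hN.1, by
    have : IsNilpotent (Matrix.det (1 + N) - 1) := by
      have h : IsNilpotent N := ⟨2, by rw [sq, mul_eq hN hN]⟩
      have := Matrix.isNilpotent_charpoly_sub_pow_of_isNilpotent h.neg
      have e := Matrix.eval_charpoly (-N) 1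
      rw [sub_neg_eq_add, map_one] at e
      rw [← e]
      simpa using this.map (Polynomial.evalRingHom 1)
    exact sub_eq_zero.1 this.eq_zero⟩

theorem zero_mem : (0 : M4 K) ∈ AL π L := ⟨⟨1, (rep_one π).congr (by simp)⟩, by simp, by simp⟩

theorem add_mem (hN : N ∈ AL π L) (hN' : N' ∈ AL π L) : N + N' ∈ AL π L := by
  have e := mul_eq hN hN'
  obtain ⟨⟨g, hg⟩, h1, h2⟩ := hN
  obtain ⟨⟨g', hg'⟩, h1', h2'⟩ := hN'
  refine ⟨⟨g * g', (hg.mul hg').congr ?_⟩, fun v => ?_, fun v hv => ?_⟩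
  · rw [add_mul, mul_add, mul_add, e]
    simp [add_assoc, add_comm]
  · rw [add_mulVec]; exact L.add_mem (h1 v) (h1' v)
  · rw [add_mulVec, h2 v hv, h2' v hv, add_zero]

theorem neg_mem (hN : N ∈ AL π L) : -N ∈ AL π L := by
  have e := mul_eq hN hN
  obtain ⟨⟨g, hg⟩, h1, h2⟩ := hN
  refine ⟨⟨g⁻¹, hg.inv' (by rw [← sub_eq_add_neg, one_add_mul e])⟩, fun v => ?_, fun v hv => ?_⟩
  · rw [neg_mulVec]; exact L.neg_mem (h1 v)
  · rw [neg_mulVec, h2 v hv, neg_zero]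

/-- `AL` as an additive subgroup -/
def ALs (π : G →* PG4 K) (L : Submodule K (I4 → K)) : AddSubgroup (M4 K) where
  carrier := AL π L
  zero_mem' := zero_mem
  add_mem' := add_mem
  neg_mem' := neg_mem

theorem sub_mem (hN : N ∈ AL π L) (hN' : N' ∈ AL π L) : N - N' ∈ AL π L :=
  (ALs π L).sub_mem hN hN'

/-- the image of a subspace -/
abbrev mp (x : GL I4 K) (L : Submodule K (I4 → K)) : Submodule K (I4 → K) :=
  L.map (toLin' (x : M4 K))

theorem mem_mp {x : GL I4 K} {v : I4 → K} : v ∈ mp x L ↔ ((x⁻¹ : GL I4 K) : M4 K) *ᵥ v ∈ L :=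
  ⟨by rintro ⟨w, hw, rfl⟩; rwa [toLin'_apply, inv_mulVec_mulVec],
    fun h => ⟨_, h, by rw [toLin'_apply, mulVec_inv_mulVec]⟩⟩

theorem mp_mem {x : GL I4 K} {v : I4 → K} (h : v ∈ L) : (x : M4 K) *ᵥ v ∈ mp x L := ⟨v, h, rfl⟩

theorem mp_inv_mp (x : GL I4 K) (L : Submodule K (I4 → K)) : mp x⁻¹ (mp x L) = L :=
  Submodule.ext fun v => by rw [mem_mp, mem_mp, inv_inv, inv_mulVec_mulVec]

theorem mp_mp_inv (x : GL I4 K) (L : Submodule K (I4 → K)) : mp x (mp x⁻¹ L) = L := by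
  simpa using mp_inv_mp x⁻¹ L

theorem mp_inf (x : GL I4 K) : mp x (L ⊓ M) = mp x L ⊓ mp x M :=
  Submodule.ext fun v => by simp only [Submodule.mem_inf, mem_mp]

theorem mp_inf_eq_bot (x : GL I4 K) : mp x L ⊓ mp x M = ⊥ ↔ L ⊓ M = ⊥ := by
  rw [← mp_inf]
  refine ⟨fun h => ?_, fun h => by rw [h, mp, Submodule.map_bot]⟩
  rw [← mp_inv_mp x (L ⊓ M), h, mp, Submodule.map_bot]

theorem finrank_mp (x : GL I4 K) : Module.finrank K (mp x L) = Module.finrank K L :=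
  (Submodule.equivMapOfInjective (toLin' (x : M4 K)) (fun a b (e : (x : M4 K) *ᵥ a = (x : M4 K) *ᵥ b) => by
    rw [← inv_mulVec_mulVec x a, e, inv_mulVec_mulVec]) L).finrank_eq.symm

theorem mp_eq {x : GL I4 K} (h : ∀ v ∈ L, (x : M4 K) *ᵥ v ∈ L) : mp x L = L :=
  Submodule.eq_of_le_of_finrank_le (by rintro _ ⟨v, hv, rfl⟩; exact h v hv) (finrank_mp x).ge

/-- conjugation by `x` carries `π` into `π'` -/
def Tr (π π' : G →* PG4 K) (x : GL I4 K) : Prop := ∀ g A, Rep π g A → ∃ g', Rep π' g' (cj x A)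

theorem tr_of_rep {g : G} {x : GL I4 K} (h : Rep π g (x : M4 K)) : Tr π π x := fun k _ hk =>
  ⟨g * k * g⁻¹, (h.mul hk).mul (h.inv' x.mul_inv)⟩

theorem tr_of_mem {x : GL I4 K} (h : x ∈ Ga π) : Tr π π x := h.1.elim fun _ h => tr_of_rep h

theorem tr_cb (B : GL I4 K) : Tr π (cb π B) B⁻¹ := fun g _ h => ⟨g, h.cb B⟩

theorem tr_cb' (B : GL I4 K) : Tr (cb π B) π B := fun g _ h => ⟨g, rep_cb_iff.1 h⟩

theorem cjv (x : GL I4 K) (v : I4 → K) :
    cj x N *ᵥ v = (x : M4 K) *ᵥ N *ᵥ ((x⁻¹ : GL I4 K) : M4 K) *ᵥ v := by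
  simp only [cj_apply, mulVec_mulVec, mul_assoc]

theorem Tr.al {x : GL I4 K} (h : Tr π π' x) (hN : N ∈ AL π L) : cj x N ∈ AL π' (mp x L) := by
  obtain ⟨⟨k, hk⟩, h1, h2⟩ := hN
  refine ⟨by simpa using h k _ hk, fun v => ?_, fun v hv => ?_⟩
  · rw [cjv]; exact mp_mem (h1 _)
  · rw [cjv, h2 _ (mem_mp.1 hv), mulVec_zero]

theorem Tr.big {x : GL I4 K} (h : Tr π π' x) (hL : Big π L) : Big π' (mp x L) := by
  obtain ⟨h2, N, hN, N', hN', h0, h0', h3, h4⟩ := hL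
  exact ⟨(finrank_mp x).trans h2, _, h.al hN, _, h.al hN', by simpa using h0, by simpa using h0',
    by simpa using h3, by rw [← map_neg]; exact fun e => h4 ((cj x).injective e)⟩

theorem conj_mem (hN : N ∈ AL π L) {x : GL I4 K} (hx : x ∈ Ga π)
    (h : ∀ v ∈ L, (x : M4 K) *ᵥ v ∈ L) : cj x N ∈ AL π L := mp_eq h ▸ (tr_of_mem hx).al hN

theorem lag (hx : Cx π) (hL : Module.finrank K L = 2) (hN : N ∈ AL π L) (h0 : N ≠ 0) :
    (∀ v, N *ᵥ v = 0 → v ∈ L) ∧ ∀ v ∈ L, ∃ w, N *ᵥ w = v := by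
  have h1 : LinearMap.range (toLin' N) ≤ L := by rintro _ ⟨v, rfl⟩; exact hN.2.1 v
  have h2 : L ≤ LinearMap.ker (toLin' N) := hN.2.2
  have h3 := LinearMap.finrank_range_add_finrank_ker (toLin' N)
  rw [Dim4.finrank_V4] at h3
  have h4 : 2 ≤ Module.finrank K (LinearMap.range (toLin' N)) := by
    by_contra hc
    obtain ⟨g, hg⟩ := hN.1
    exact h0 (hx.eq_zero_of_rank (mul_eq hN hN) hg (Nat.le_of_lt_succ (not_le.1 hc)))
  have e1 := Submodule.eq_of_le_of_finrank_le h1 (by omega)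
  have e2 := Submodule.eq_of_le_of_finrank_le h2 (by omega)
  exact ⟨fun v hv => by rw [e2]; exact hv, fun v hv => (e1.ge hv :)⟩

theorem sing (hx : Cx π) (hL : Module.finrank K L = 2) (hN : N ∈ AL π L) {v : I4 → K}
    (hv : v ∉ L) (h : N *ᵥ v = 0) : N = 0 := by
  by_contra h0
  exact hv ((lag hx hL hN h0).1 v h)

/-- the action on the span of `e, f` modulo the fixed vector `x` -/
def act (Γ : Subgroup (GL I4 K)) (x e f : I4 → K) : Subgroup SL(2, K) where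
  carrier := {A | ∃ g ∈ Γ, (g : M4 K) *ᵥ x = x ∧
    (∃ a : K, (g : M4 K) *ᵥ e = A 0 0 • e + A 1 0 • f + a • x) ∧
    ∃ b : K, (g : M4 K) *ᵥ f = A 0 1 • e + A 1 1 • f + b • x}
  one_mem' := ⟨1, Γ.one_mem, by simp, ⟨0, by simp [SL2.one_00, SL2.one_10]⟩, 0,
    by simp [SL2.one_01, SL2.one_11]⟩
  mul_mem' := by
    rintro A A' ⟨g, hg, h1, ⟨a, h2⟩, b, h3⟩ ⟨g', hg', h1', ⟨a', h2'⟩, b', h3'⟩
    refine ⟨g * g', Γ.mul_mem hg hg', by rw [Units.val_mul, ← mulVec_mulVec, h1', h1],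
      ⟨A' 0 0 * a + A' 1 0 * b + a', ?_⟩, A' 0 1 * a + A' 1 1 * b + b', ?_⟩
    · rw [Units.val_mul, ← mulVec_mulVec, h2']
      simp only [mulVec_add, mulVec_smul, h1, h2, h3, SL2.mul_ap]
      module
    · rw [Units.val_mul, ← mulVec_mulVec, h3']
      simp only [mulVec_add, mulVec_smul, h1, h2, h3, SL2.mul_ap]
      module
  inv_mem' := by
    rintro A ⟨g, hg, h1, ⟨a, h2⟩, b, h3⟩
    have d := SL2.det_eq A
    have k : ∀ u w : I4 → K, u = (g : M4 K) *ᵥ w → ((g⁻¹ : GL I4 K) : M4 K) *ᵥ u = w :=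
      fun u w e => by rw [e, inv_mulVec_mulVec]
    refine ⟨g⁻¹, Γ.inv_mem hg, k _ _ h1.symm, ⟨A 1 0 * b - A 1 1 * a, k _ _ ?_⟩,
      A 0 1 * a - A 0 0 * b, k _ _ ?_⟩
    · simp only [mulVec_add, mulVec_smul, h1, h2, h3, SL2.inv_00, SL2.inv_10]
      linear_combination (norm := module) (-d) • e
    · simp only [mulVec_add, mulVec_smul, h1, h2, h3, SL2.inv_01, SL2.inv_11]
      linear_combination (norm := module) (-d) • f

theorem finite_act {Γ : Subgroup (GL I4 K)} [Finite Γ] {x e f : I4 → K}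
    (ind : ∀ s t c : K, s • e + t • f + c • x = 0 → s = 0 ∧ t = 0) : Finite (act Γ x e f) := by
  refine Finite.of_injective (fun A : act Γ x e f => (⟨A.2.choose, A.2.choose_spec.1⟩ : Γ))
    fun A A' h => ?_
  obtain ⟨-, -, ⟨a, h2⟩, b, h3⟩ := A.2.choose_spec
  obtain ⟨-, -, ⟨a', h2'⟩, b', h3'⟩ := A'.2.choose_spec
  simp only [Subtype.mk.injEq] at h
  rw [← h] at h2' h3'
  have e1 := ind (A.1 0 0 - A'.1 0 0) (A.1 1 0 - A'.1 1 0) (a - a') (by
    linear_combination (norm := module) h2.symm.trans h2')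
  have e2 := ind (A.1 0 1 - A'.1 0 1) (A.1 1 1 - A'.1 1 1) (b - b') (by
    linear_combination (norm := module) h3.symm.trans h3')
  exact Subtype.ext (SL2.ext2 (sub_eq_zero.1 e1.1) (sub_eq_zero.1 e2.1) (sub_eq_zero.1 e1.2)
    (sub_eq_zero.1 e2.2))

theorem uu_mem {Γ : Subgroup (GL I4 K)} {x e f : I4 → K} {g : GL I4 K} (hg : g ∈ Γ) {c b : K}
    (h1 : (g : M4 K) *ᵥ x = x) (h2 : (g : M4 K) *ᵥ e = e)
    (h3 : (g : M4 K) *ᵥ f = f + (c • e + b • x)) : SL2.uu c ∈ act Γ x e f :=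
  ⟨g, hg, h1, ⟨0, by simp [h2, SL2.uu_00, SL2.uu_10]⟩, b, by
    rw [h3, SL2.uu_01, SL2.uu_11]; module⟩

theorem ll_mem {Γ : Subgroup (GL I4 K)} {x e f : I4 → K} {g : GL I4 K} (hg : g ∈ Γ) {c b : K}
    (h1 : (g : M4 K) *ᵥ x = x) (h2 : (g : M4 K) *ᵥ f = f)
    (h3 : (g : M4 K) *ᵥ e = e + (c • f + b • x)) : SL2.ll c ∈ act Γ x e f :=
  ⟨g, hg, h1, ⟨b, by rw [h3, SL2.ll_00, SL2.ll_10]; module⟩, 0,
    by simp [h2, SL2.ll_01, SL2.ll_11]⟩

theorem two_ne (p : ℕ) [Fact p.Prime] [CharP K p] (hp : p ≠ 2) : (2 : K) ≠ 0 := fun e =>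
  hp ((Nat.prime_dvd_prime_iff_eq Fact.out Nat.prime_two).1
    ((CharP.cast_eq_zero_iff K p 2).1 (by exact_mod_cast e)))

end CfsgLib.D4.QD
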