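import Cfsg.Agent.Lib.D4.Basic
import Cfsg.Agent.Lib.D4.QD0

/-! Adjacent big planes.  See `plans/D4.md`. -/

set_option autoImplicit false

namespace CfsgLib.D4

open Matrix Cfsg Cfsg.Geo CfsgLib.Asch
open scoped MatrixGroups commutatorElement

variable {G K : Type*} [Group G] [Finite G] [Field K] [IsAlgClosed K] {π : G →* PG4 K}

namespace QD

open CfsgLib.Dickson

variable {L M : Submodule K (I4 → K)} {N C : M4 K} {x l m : I4 → K}

/-- two planes meeting in the point `x` -/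
structure Ad (L M : Submodule K (I4 → K)) (x l m : I4 → K) : Prop where
  L2 : Module.finrank K L = 2
  M2 : Module.finrank K M = 2
  x0 : x ≠ 0
  xL : x ∈ L
  xM : x ∈ M
  lL : l ∈ L
  lM : l ∉ M
  mM : m ∈ M
  mL : m ∉ L

omit [Finite G] [IsAlgClosed K]

theorem Ad.symm (h : Ad L M x l m) : Ad M L x m l :=
  ⟨h.M2, h.L2, h.x0, h.xM, h.xL, h.mM, h.mL, h.lL, h.lM⟩

theorem Ad.nl (h : Ad L M x l m) (c : K) : l ≠ c • x := fun e => h.lM (e ▸ M.smul_mem c h.xM)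

theorem Ad.sp [NeZero (2 : K)] (h : Ad L M x l m) : ∀ v ∈ L, ∃ a b : K, v = a • l + b • x :=
  Dim4.QD.span_two h.L2 h.xL h.lL h.x0 h.nl

theorem del (hN : N ∈ AL π L) (hC : C ∈ AL π M) (hs : ∀ v ∈ M, N *ᵥ v ∈ M) :
    N * C - C * N - N * C * N ∈ AL π M := by
  have := sub_mem (conj_mem hC (un_mem hN) fun v hv => by
    rw [un_mulVec]; exact M.add_mem hv (hs v hv)) hC
  convert this using 1
  change _ = (1 + N) * C * (1 - N) - C
  noncomm_ring

variable [NeZero (2 : K)]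

theorem stab (h : Ad L M x l m) (hN : N ∈ AL π L) {a : K} (ha : N *ᵥ m = a • x) :
    ∀ v ∈ M, N *ᵥ v ∈ M := fun v hv => by
  obtain ⟨s, t, rfl⟩ := h.symm.sp v hv
  rw [mulVec_add, mulVec_smul, mulVec_smul, ha, hN.2.2 x h.xL, smul_zero, add_zero]
  exact M.smul_mem _ (M.smul_mem _ h.xM)

theorem comm_of (hx : Cx π) (h : Ad L M x l m) (hN : N ∈ AL π L) (hC : C ∈ AL π M) {a a' : K}
    (ha : N *ᵥ m = a • x) (ha' : C *ᵥ l = a' • x) : N * C = C * N := by
  have e := sing hx h.M2 (del hN hC (stab h hN ha)) h.lM (by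
    simp only [sub_mulVec, ← mulVec_mulVec, ha', hN.2.2 l h.lL, mulVec_smul, hN.2.2 x h.xL,
      mulVec_zero, smul_zero, sub_self])
  have e2 : N * C * N = 0 := by
    have : N * (N * C - C * N - N * C * N) = N * N * C - N * C * N - N * N * C * N := by
      noncomm_ring
    rw [e, mul_eq hN hN] at this
    simpa using this
  rwa [e2, sub_zero, sub_eq_zero] at e

theorem pf (hx : Cx π) (h : Ad L M x l m) (hN : N ∈ AL π L) (h0 : N ≠ 0) {a : K}
    (ha : N *ᵥ m = a • x) (hC : C ∈ AL π M) : ∃ a' : K, C *ᵥ l = a' • x := by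
  obtain ⟨c, a', e⟩ := h.symm.sp _ (hC.2.1 l)
  have e1 := comm_of hx h hN (del hN hC (stab h hN ha)) ha (a' := c * a) (by
    simp only [sub_mulVec, ← mulVec_mulVec, e, hN.2.2 l h.lL, mulVec_smul, hN.2.2 x h.xL,
      mulVec_zero, smul_zero, sub_zero, mulVec_add, ha, add_zero, smul_smul])
  have e2 : N * C * N = 0 := by
    have a1 : N * (N * C - C * N - N * C * N) = N * N * C - N * C * N - N * N * C * N := by
      noncomm_ring
    have a2 : (N * C - C * N - N * C * N) * N = N * C * N - C * (N * N) - N * C * (N * N) := by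
      noncomm_ring
    rw [a1, a2, mul_eq hN hN] at e1
    simp only [zero_mul, mul_zero, sub_zero, zero_sub] at e1
    have : (2 : K) • (N * C * N) = 0 := by rw [two_smul]; nth_rw 1 [← e1]; simp
    exact (smul_eq_zero.1 this).resolve_left (two_ne_zero' K)
  obtain ⟨w, hw⟩ := (lag hx h.L2 hN h0).2 l h.lL
  have e3 : C *ᵥ l ∈ L := (lag hx h.L2 hN h0).1 _ (by
    rw [← hw, mulVec_mulVec, mulVec_mulVec, e2, zero_mulVec])
  rw [e] at e3
  have e4 : c = 0 := by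
    by_contra c0
    exact h.mL ((L.smul_mem_iff c0).1 ((L.add_mem_iff_left (L.smul_mem a' h.xL)).1 e3))
  exact ⟨a', by rw [e, e4, zero_smul, zero_add]⟩

/-- the elements acting trivially modulo `H` -/
def triv (H : Submodule K (I4 → K)) : Subgroup (GL I4 K) where
  carrier := {g | ∀ v, (g : M4 K) *ᵥ v - v ∈ H}
  one_mem' v := by simp
  mul_mem' {a b} ha hb v := by
    have := H.add_mem (ha ((b : M4 K) *ᵥ v)) (hb v)
    rwa [sub_add_sub_cancel, mulVec_mulVec] at this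
  inv_mem' {a} ha v := by
    have := H.neg_mem (ha (((a⁻¹ : GL I4 K) : M4 K) *ᵥ v))
    rwa [mulVec_inv_mulVec, neg_sub] at this

omit [NeZero (2 : K)] in
theorem sq_or (K0 : Subfield K) [Finite K0] (h : ∀ i ∈ K0, i ^ 2 ≠ -1) {k : K} (hk : k ∈ K0) :
    ∃ μ ∈ K0, k = μ ^ 2 ∨ k = -μ ^ 2 := by
  classical
  have := Fintype.ofFinite K0
  by_cases e : IsSquare (⟨k, hk⟩ : K0)
  · obtain ⟨μ, e⟩ := e
    exact ⟨μ, μ.2, Or.inl (by rw [sq]; exact congrArg Subtype.val e)⟩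
  have e1 : ¬ IsSquare (-1 : K0) := fun ⟨i, e⟩ => h i i.2 (by
    rw [sq]; exact (congrArg Subtype.val e).symm)
  have e2 : quadraticChar K0 (-1 * ⟨k, hk⟩) = 1 := by
    rw [map_mul, quadraticChar_neg_one_iff_not_isSquare.2 e1,
      quadraticChar_neg_one_iff_not_isSquare.2 e]
    norm_num
  obtain ⟨μ, e⟩ := (quadraticChar_one_iff_isSquare (fun e => by rw [e] at e2; simp at e2)).1 e2
  refine ⟨μ, μ.2, Or.inr ?_⟩
  have := congrArg Subtype.val e
  simp only [neg_mul, one_mul, Subfield.coe_neg, Subfield.coe_mul] at this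
  linear_combination -this

theorem not_inj [Finite G] (p : ℕ) [Fact p.Prime] [CharP K p] (hx : Cx π) (h : Ad L M x l m)
    (hL : Big π L) (hC : C ∈ AL π M) {a' : K} (hCl : C *ᵥ l = (1 : K) • m + a' • x)
    (inj : ∀ N ∈ AL π L, ∀ a : K, N *ᵥ m = a • x → N = 0) : False := by
  obtain ⟨-, N₁, hN₁, N₂, hN₂, n1, n2, n3, n4⟩ := hL
  have spL := h.sp
  obtain ⟨f, hf⟩ : ∃ f, f ∉ L ⊔ Submodule.span K {m} := by
    by_contra! hc
    have := Submodule.finrank_sup_span_singleton h.mL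
    rw [Submodule.eq_top_iff'.2 hc, finrank_top, Dim4.finrank_V4, h.L2] at this
    omega
  set H := L ⊔ Submodule.span K {m} with hH
  have LH : ∀ v ∈ L, v ∈ H := fun v hv => Submodule.mem_sup_left hv
  have mH : m ∈ H := Submodule.mem_sup_right (Submodule.mem_span_singleton_self m)
  have := finite_Ga π
  have : Finite (Ga π ⊓ triv H : Subgroup _) :=
    Finite.of_injective _ (Subgroup.inclusion_injective inf_le_left)
  have ind : ∀ s t : K, s • l = t • x → s = 0 ∧ t = 0 := fun s t e => by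
    have := Dim4.QD.eq_zero_of_comb h.nl e
    rw [this, zero_smul] at e
    exact ⟨this, (smul_eq_zero.1 e.symm).resolve_right h.x0⟩
  have := finite_act (Γ := Ga π ⊓ triv H) (x := x) (e := l) (f := m) fun s t c e => by
    have t0 : t = 0 := by
      by_contra t0
      refine h.mL ((L.smul_mem_iff t0).1 ?_)
      rw [show t • m = -(s • l + c • x) by linear_combination (norm := module) e]
      exact L.neg_mem (L.add_mem (L.smul_mem _ h.lL) (L.smul_mem _ h.xL))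
    exact ⟨(ind s (-c) (by rw [t0] at e; linear_combination (norm := module) e)).1, t0⟩
  choose! c a hc using fun (A : M4 K) (hA : A ∈ AL π L) => spL _ (hA.2.1 m)
  choose! d b hd using fun (A : M4 K) (hA : A ∈ AL π L) => spL _ (hA.2.1 f)
  have cz : ∀ A ∈ AL π L, c A = 0 → A = 0 := fun A hA e =>
    inj A hA (a A) (by rw [hc A hA, e]; module)
  have lin : ∀ {v : I4 → K} {c a : M4 K → K}, (∀ A ∈ AL π L, A *ᵥ v = c A • l + a A • x) →
      ∀ A ∈ AL π L, ∀ A' ∈ AL π L, (c (A + A') = c A + c A' ∧ a (A + A') = a A + a A') ∧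
        (c (A - A') = c A - c A' ∧ a (A - A') = a A - a A') := fun {v c a} hc A hA A' hA' => by
    have e1 := hc _ (add_mem hA hA')
    have e2 := hc _ (sub_mem hA hA')
    rw [add_mulVec, hc A hA, hc A' hA'] at e1
    rw [sub_mulVec, hc A hA, hc A' hA'] at e2
    have f1 := ind (c (A + A') - (c A + c A')) (a A + a A' - a (A + A'))
      (by linear_combination (norm := module) -e1)
    have f2 := ind (c (A - A') - (c A - c A')) (a A - a A' - a (A - A'))
      (by linear_combination (norm := module) -e2)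
    exact ⟨⟨sub_eq_zero.1 f1.1, (sub_eq_zero.1 f1.2).symm⟩, sub_eq_zero.1 f2.1,
      (sub_eq_zero.1 f2.2).symm⟩
  have cinj : ∀ A ∈ AL π L, ∀ A' ∈ AL π L, c A = c A' → A = A' := fun A hA A' hA' e =>
    sub_eq_zero.1 (cz _ (sub_mem hA hA') (by rw [(lin hc A hA A' hA').2.1, e, sub_self]))
  have z0 : c 0 = 0 ∧ a 0 = 0 ∧ d 0 = 0 ∧ b 0 = 0 := by
    have e1 := (lin hc 0 zero_mem 0 zero_mem).2
    have e2 := (lin hd 0 zero_mem 0 zero_mem).2
    simp only [sub_self] at e1 e2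
    exact ⟨e1.1, e1.2, e2.1, e2.2⟩
  have neg : ∀ A ∈ AL π L, c (-A) = -c A ∧ a (-A) = -a A ∧ d (-A) = -d A ∧ b (-A) = -b A :=
    fun A hA => by
      have e1 := (lin hc 0 zero_mem A hA).2
      have e2 := (lin hd 0 zero_mem A hA).2
      simp only [zero_sub, z0] at e1 e2
      exact ⟨e1.1, e1.2, e2.1, e2.2⟩
  have um : ∀ A ∈ AL π L, SL2.uu (c A) ∈ act (Ga π ⊓ triv H) x l m := fun A hA =>
    uu_mem (Γ := Ga π ⊓ triv H) (g := un A (mul_eq hA hA)) ⟨un_mem hA, fun v => by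
        rw [un_mulVec, add_sub_cancel_left]; exact LH _ (hA.2.1 v)⟩
      (by rw [un_mulVec, hA.2.2 x h.xL, add_zero]) (by rw [un_mulVec, hA.2.2 l h.lL, add_zero])
      (by rw [un_mulVec, hc A hA])
  have lm : SL2.ll 1 ∈ act (Ga π ⊓ triv H) x l m :=
    ll_mem (Γ := Ga π ⊓ triv H) (g := un C (mul_eq hC hC)) ⟨un_mem hC, fun v => by
        rw [un_mulVec, add_sub_cancel_left]
        obtain ⟨s, t, e⟩ := h.symm.sp _ (hC.2.1 v)
        rw [e]
        exact H.add_mem (H.smul_mem _ mH) (H.smul_mem _ (LH x h.xL))⟩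
      (by rw [un_mulVec, hC.2.2 x h.xM, add_zero]) (by rw [un_mulVec, hC.2.2 m h.mM, add_zero])
      (by rw [un_mulVec, hCl])
  have c1 : c N₁ ≠ 0 := fun e => n1 (cz _ hN₁ e)
  have c2 : c N₂ ≠ 0 := fun e => n2 (cz _ hN₂ e)
  have c3 : c N₂ ≠ c N₁ := fun e => n3 (cinj _ hN₂ _ hN₁ e)
  have c4 : c N₂ ≠ -c N₁ := fun e => n4 (cinj _ hN₂ _ (neg_mem hN₁) (e.trans (neg _ hN₁).1.symm))
  rcases Dim4.QD.pair (p := p) _ c1 (um N₁ hN₁) lm with ⟨K0, k1, k2⟩ | ⟨-, -, h3⟩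
  swap
  · rcases h3 _ (um N₂ hN₂) with e | e | e
    exacts [c2 e, c3 e, c4 e]
  have : Finite K0 := Finite.of_injective
    (fun t : K0 => (⟨SL2.uu t.1, (k1 _).2 t.2⟩ : act (Ga π ⊓ triv H) x l m)) fun s t e =>
      Subtype.ext (by simpa [SL2.uu_01] using congrArg (fun A => A.1 0 1) e)
  -- the determinant
  let D : M4 K → K := fun A => a A * d A - b A * c A
  have D1 : D N₁ ≠ 0 := fun e => hf (by
    have := (lag hx h.L2 hN₁ n1).1 (d N₁ • m - c N₁ • f) (by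
      rw [mulVec_sub, mulVec_smul, mulVec_smul, hc _ hN₁, hd _ hN₁]
      linear_combination (norm := module) e • x)
    refine (H.smul_mem_iff c1).1 ?_
    convert H.sub_mem (H.smul_mem (d N₁) mH) (LH _ this) using 1
    abel)
  have tor : ∀ μ ∈ K0, μ ≠ 0 → ∃ A ∈ AL π L, c A = μ ^ 2 * c N₁ ∧ D A = μ ^ 2 * D N₁ := by
    intro μ hμ μ0
    have w : ∀ ν ∈ K0, SL2.uu ν * SL2.ll (-ν⁻¹) * SL2.uu ν ∈ act (Ga π ⊓ triv H) x l m :=
      fun ν hν => Subgroup.mul_mem _ (Subgroup.mul_mem _ ((k1 _).2 hν)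
        ((k2 _).2 (K0.neg_mem (K0.inv_mem hν)))) ((k1 _).2 hν)
    obtain ⟨g, hg, h1, ⟨s, h2⟩, s', h3⟩ :=
      Subgroup.mul_mem _ (w μ hμ) (w (-1) (K0.neg_mem K0.one_mem))
    simp [SL2.mul_ap, SL2.uu_00, SL2.uu_01, SL2.uu_10, SL2.uu_11, SL2.ll_00, SL2.ll_01,
        SL2.ll_10, SL2.ll_11, μ0] at h2 h3
    have h4 := conj_mem hN₁ hg.1 fun v hv => by
      obtain ⟨s, t, rfl⟩ := spL v hv
      rw [mulVec_add, mulVec_smul, mulVec_smul, h1, h2]
      exact L.add_mem (L.smul_mem _ (L.add_mem (L.smul_mem _ h.lL) (L.smul_mem _ h.xL)))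
        (L.smul_mem _ h.xL)
    obtain ⟨y, hy, _, hz, e⟩ := Submodule.mem_sup.1 (hg.2 f)
    obtain ⟨u, rfl⟩ := Submodule.mem_span_singleton.1 hz
    have h5 := cj_mulVec g N₁ m
    have h6 := cj_mulVec g N₁ f
    rw [h3, mulVec_add, mulVec_smul, mulVec_smul, h4.2.2 x h.xL, hc _ h4, hc _ hN₁, mulVec_add,
      mulVec_smul, mulVec_smul, h1, h2] at h5
    rw [← sub_add_cancel ((g : M4 K) *ᵥ f) f, ← e, mulVec_add, mulVec_add, mulVec_smul,
      h4.2.2 y hy, hc _ h4, hd _ h4, hd _ hN₁, mulVec_add, mulVec_smul, mulVec_smul, h1, h2] at h6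
    refine ⟨_, h4, ?_⟩
    simp only [D]
    generalize c (cj g N₁) = c', a (cj g N₁) = a', d (cj g N₁) = d', b (cj g N₁) = b' at h5 h6 ⊢
    obtain ⟨e1, e2⟩ := ind (μ⁻¹ * c' - c N₁ * μ) (c N₁ * s + a N₁ - μ⁻¹ * a')
      (by linear_combination (norm := module) h5)
    obtain ⟨e3, e4⟩ := ind (u * c' + d' - d N₁ * μ) (d N₁ * s + b N₁ - u * a' - b')
      (by linear_combination (norm := module) h6)
    field_simp at e1 e2
    refine ⟨by linear_combination e1, ?_⟩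
    linear_combination a' * e3 + c' * e4 - μ * d N₁ * e2 - (d N₁ * s + b N₁) * e1
  have h2 := two_ne_zero' K
  have h3 : (3 : K) = 0 := by
    obtain ⟨A, hA, e1, e2⟩ := tor 2 (by simp) h2
    have a1 := lin hc _ hN₁ _ hN₁
    have a2 := lin hd _ hN₁ _ hN₁
    have a3 := lin hc _ (add_mem hN₁ hN₁) _ (add_mem hN₁ hN₁)
    have a4 := lin hd _ (add_mem hN₁ hN₁) _ (add_mem hN₁ hN₁)
    rw [cinj A hA _ (add_mem (add_mem hN₁ hN₁) (add_mem hN₁ hN₁))
      (by rw [e1, a3.1.1, a1.1.1]; ring)] at e2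
    simp only [D, a3.1.1, a3.1.2, a4.1.1, a4.1.2, a1.1.1, a1.1.2, a2.1.1, a2.1.2] at e2
    exact mul_right_cancel₀ (mul_ne_zero (mul_ne_zero h2 h2) D1) (by
      simp only [D]; linear_combination e2)
  have Dn : ∀ A ∈ AL π L, D (-A) = D A := fun A hA => by simp only [D, neg A hA]; ring
  have hi : ∀ i ∈ K0, i ^ 2 ≠ -1 := fun i hi e => by
    obtain ⟨A, hA, e1, e2⟩ := tor i hi (by rintro rfl; simp at e)
    rw [cinj A hA _ (neg_mem hN₁) (by rw [e1, e, (neg _ hN₁).1]; ring), Dn _ hN₁, e] at e2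
    exact mul_ne_zero h2 D1 (by linear_combination e2)
  have key : ∀ A ∈ AL π L, A ≠ 0 → D A * c N₁ = c A * D N₁ ∨ D A * c N₁ = -(c A * D N₁) := by
    intro A hA A0
    obtain ⟨μ, hμ, e⟩ := sq_or K0 hi (K0.div_mem ((k1 _).1 (um A hA)) ((k1 _).1 (um _ hN₁)))
    simp only [div_eq_iff c1] at e
    obtain ⟨A', hA', e1, e2⟩ := tor μ hμ (by
      rintro rfl
      exact A0 (cz A hA (by simpa using e)))
    rcases e with e | e
    · rw [cinj A hA A' hA' (e.trans e1.symm), e1, e2]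
      exact Or.inl (by ring)
    · rw [cinj A hA _ (neg_mem hA') (by rw [e, (neg _ hA').1, e1]; ring), Dn _ hA', (neg _ hA').1,
        e1, e2]
      exact Or.inr (by ring)
  have par : D (N₁ + N₂) + D (N₁ - N₂) = 2 * D N₁ + 2 * D N₂ := by
    simp only [D, lin hc _ hN₁ _ hN₂, lin hd _ hN₁ _ hN₂]; ring
  have b1 := key _ hN₂ n2
  have b2 := key _ (add_mem hN₁ hN₂) fun e => n4 (eq_neg_of_add_eq_zero_right e)
  have b3 := key _ (sub_mem hN₁ hN₂) fun e => n3 (sub_eq_zero.1 e).symm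
  rw [(lin hc _ hN₁ _ hN₂).1.1] at b2
  rw [(lin hc _ hN₁ _ hN₂).2.1] at b3
  generalize D (N₁ + N₂) = P, D (N₁ - N₂) = Q, D N₁ = R, D N₂ = S, c N₁ = s, c N₂ = t at *
  have d3 : t - s ≠ 0 := sub_ne_zero.2 c3
  have d4 : t + s ≠ 0 := fun e => c4 (eq_neg_of_add_eq_zero_left e)
  rcases b1 with b1 | b1 <;> rcases b2 with b2 | b2 <;> rcases b3 with b3 | b3
  · exact mul_ne_zero h2 (mul_ne_zero c2 D1) (by linear_combination b2 + b3 - 2 * b1 - s * par)
  · exact mul_ne_zero h2 (mul_ne_zero c1 D1) (by linear_combination b2 + b3 - 2 * b1 - s * par)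
  · exact mul_ne_zero d3 D1 (by linear_combination b2 + b3 - 2 * b1 - s * par - (s + t) * R * h3)
  · exact mul_ne_zero d3 D1 (by linear_combination -(b2 + b3 - 2 * b1 - s * par) + (s + t) * R * h3)
  · exact mul_ne_zero h2 (mul_ne_zero c2 D1) (by linear_combination -(b2 + b3 - 2 * b1 - s * par))
  · exact mul_ne_zero d4 D1 (by linear_combination -(b2 + b3 - 2 * b1 - s * par) + (s - t) * R * h3)
  · exact mul_ne_zero h2 (mul_ne_zero c1 D1) (by linear_combination b2 + b3 - 2 * b1 - s * par)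
  · exact mul_ne_zero d4 D1 (by linear_combination b2 + b3 - 2 * b1 - s * par - (s - t) * R * h3)

end QD

theorem adj (p : ℕ) [Fact p.Prime] [CharP K p] (hx : Cx π) (hp : p ≠ 2) {L M : Submodule K (I4 → K)}
    (hL : Big π L) (hM : Big π M) (h0 : L ⊓ M ≠ ⊥) : ∀ N ∈ AL π L, ∀ C ∈ AL π M, N * C = C * N := by
  have : NeZero (2 : K) := ⟨QD.two_ne p hp⟩
  by_cases hne : L = M
  · subst hne
    exact fun N hN C hC => by rw [QD.mul_eq hN hC, QD.mul_eq hC hN]
  obtain ⟨x, ⟨xL, xM⟩, x0⟩ := (Submodule.ne_bot_iff _).1 h0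
  obtain ⟨l, hl, lM⟩ : ∃ l ∈ L, l ∉ M := by
    by_contra! hc
    exact hne (Submodule.eq_of_le_of_finrank_le hc (hM.1.trans hL.1.symm).le)
  obtain ⟨m, hm, mL⟩ : ∃ m ∈ M, m ∉ L := by
    by_contra! hc
    exact hne (Submodule.eq_of_le_of_finrank_le hc (hL.1.trans hM.1.symm).le).symm
  have h : QD.Ad L M x l m := ⟨hL.1, hM.1, x0, xL, xM, hl, lM, hm, mL⟩
  obtain ⟨-, C₀, hC₀, -, -, C0, -⟩ := id hM
  have k : ∀ C' ∈ AL π M, C' ≠ 0 → ∀ a : K, C' *ᵥ l = a • x →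
      ∀ N ∈ AL π L, ∀ C ∈ AL π M, N * C = C * N := fun C' hC' C0' a ha N hN C hC => by
    by_cases N0 : N = 0
    · simp [N0]
    obtain ⟨b, hb⟩ := QD.pf hx h.symm hC' C0' ha hN
    obtain ⟨b', hb'⟩ := QD.pf hx h hN N0 hb hC
    exact QD.comm_of hx h hN hC hb hb'
  obtain ⟨c, a, e⟩ := h.symm.sp _ (hC₀.2.1 l)
  by_cases c0 : c = 0
  · exact k C₀ hC₀ C0 a (by rw [e, c0, zero_smul, zero_add])
  by_cases inj : ∀ N ∈ AL π L, ∀ a : K, N *ᵥ m = a • x → N = 0
  · refine (QD.not_inj p hx (m := c • m) ⟨hL.1, hM.1, x0, xL, xM, hl, lM, M.smul_mem c hm,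
      fun h => mL ((L.smul_mem_iff c0).1 h)⟩ hL hC₀ (a' := a) (by rw [e, one_smul])
      fun N hN b hb => inj N hN (c⁻¹ * b) ?_).elim
    rw [mul_smul, ← hb, mulVec_smul, inv_smul_smul₀ c0]
  · push Not at inj
    obtain ⟨N, hN, b, hb, N0⟩ := inj
    obtain ⟨b', hb'⟩ := QD.pf hx h hN N0 hb hC₀
    exact k C₀ hC₀ C0 b' hb'

end CfsgLib.D4
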