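import Cfsg.Agent.Lib.D4.Wt
import Cfsg.Agent.Lib.PLocal.Constrained
import Cfsg.Agent.Lib.Perm.PermModule

/-! Unipotent subgroups and Heisenberg groups.  See `plans/D4.md`. -/

set_option autoImplicit false

namespace CfsgLib.D4

open Matrix Cfsg Cfsg.Geo CfsgLib.Asch
open scoped MatrixGroups commutatorElement

namespace Tri

section Gen

variable {G K : Type*} {ι : Type} [Group G] [Finite G] [Field K] [Fintype ι] [DecidableEq ι]

/-- a `p`-subgroup lifts to a linear `p`-group -/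
theorem exists_lift [IsAlgClosed K] [Nonempty ι] (π : G →* ProjGenLinGroup ι K) {p : ℕ} [Fact p.Prime]
    {U : Subgroup G} (hU : IsPGroup p U) : ∃ (S : Subgroup (G × GL ι K)), Finite S ∧ IsPGroup p S ∧
      (∀ s ∈ S, Rep π s.1 s.2) ∧ ∀ g ∈ U, ∃ s ∈ S, s.1 = g := by
  let Q : Subgroup (G × GL ι K) :=
    { carrier := {s | Rep π s.1 s.2 ∧ (s.2 : Matrix ι ι K).det = 1}
      one_mem' := ⟨rep_one π, by simp⟩
      mul_mem' := fun ha hb => ⟨ha.1.mul hb.1, by simp [ha.2, hb.2]⟩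
      inv_mem' := fun {a} ha => ⟨by simpa using ha.1.inv, by simp [ha.2]⟩ }
  choose M hM hd using exists_rep_det_one π
  choose x hx _ using fun g => hM g
  have : NeZero (Fintype.card ι) := ⟨Fintype.card_ne_zero⟩
  have : Finite Q := by
    refine Set.Finite.subset (Set.finite_range fun s : G × rootsOfUnity (Fintype.card ι) K =>
      (s.1, sc ι s.2.1 * x s.1)) fun s hs => ?_
    obtain ⟨c, hc, e⟩ := (hM s.1).unique hs.1
    have := hs.2
    rw [e, det_smul, hd, mul_one] at this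
    exact ⟨(s.1, ⟨Units.mk0 c hc, Units.ext (by simpa using this)⟩),
      Prod.ext rfl (Units.ext (by simp [coe_sc, hx, e]))⟩
  obtain ⟨P, hP, e⟩ := PLocal.Constr.exists_isPGroup_map_eq (f := (MonoidHom.fst _ _).comp Q.subtype)
    (fun g => ⟨⟨(g, x g), by rw [hx]; exact hM g, by rw [hx]; exact hd g⟩, rfl⟩) hU
  refine ⟨P.map Q.subtype, Finite.of_surjective _ (Q.subtype.subgroupMap_surjective P), hP.map _, ?_, fun g hg => ?_⟩
  · rintro _ ⟨s, -, rfl⟩
    exact s.2.1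
  · obtain ⟨s, hs, rfl⟩ := e.ge hg
    exact ⟨s, ⟨s, hs, rfl⟩, rfl⟩

/-- one more step of an invariant flag -/
theorem step {S : Type*} [Group S] [Finite S] {p : ℕ} [Fact p.Prime] [CharP K p] (hS : IsPGroup p S)
    (ρ : S →* GL ι K) {k : ℕ} (hk : k < Fintype.card ι) (v : Fin k → ι → K)
    (hv : ∀ s i, ∃ c : Fin k → K, (ρ s).1 *ᵥ v i = ∑ j, c j • v j) :
    ∃ u, (∀ c : Fin k → K, ∑ j, c j • v j ≠ u) ∧
      ∀ s, ∃ c : Fin k → K, (ρ s).1 *ᵥ u = u + ∑ j, c j • v j := by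
  let r : Representation K S (ι → K) :=
    (Matrix.toLinAlgEquiv' (R := K) (n := ι)).toMonoidHom.comp ((Units.coeHom _).comp ρ)
  have hr : ∀ s w, r s w = (ρ s).1 *ᵥ w := fun _ _ => rfl
  let W := Submodule.span K (Set.range v)
  have hW : ∀ s, W ≤ W.comap (r s) := fun s => Submodule.span_le.2 (by
    rintro _ ⟨i, rfl⟩
    obtain ⟨c, hc⟩ := hv s i
    exact (Submodule.mem_span_range_iff_exists_fun K).2 ⟨c, hc.symm⟩)
  obtain ⟨_, ⟨u, -, rfl⟩, h1, h2⟩ := Perm.exists_fixed_of_isPGroup hS (r.quotient W hW)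
    ((⊤ : Submodule K (ι → K)).map W.mkQ) (by rintro s _ ⟨v, -, rfl⟩; exact ⟨_, trivial, rfl⟩) (fun e => by
      rw [← le_bot_iff, Submodule.map_le_iff_le_comap, Submodule.comap_bot, Submodule.ker_mkQ, top_le_iff] at e
      have := finrank_range_le_card (R := K) v
      rw [Set.finrank, show Submodule.span K (Set.range v) = ⊤ from e, finrank_top,
        Module.finrank_fintype_fun_eq_card, Fintype.card_fin] at this
      omega)
  refine ⟨u, fun c e => h1 ((Submodule.Quotient.mk_eq_zero W).2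
    ((Submodule.mem_span_range_iff_exists_fun K).2 ⟨c, e⟩)), fun s => ?_⟩
  obtain ⟨c, hc⟩ := (Submodule.mem_span_range_iff_exists_fun K).1 ((Submodule.Quotient.eq W).1 (h2 s))
  exact ⟨c, by rw [hc, hr]; abel⟩

end Gen

variable {G K : Type*} [Group G] [Field K] {π : G →* PG4 K}

/-- upper unitriangular -/
def ut (a b c d e f : K) : M4 K := fromBlocks !![1, a; 0, 1] !![b, c; d, e] 0 !![1, f; 0, 1]

theorem ut_mul (a b c d e f a' b' c' d' e' f' : K) : ut a b c d e f * ut a' b' c' d' e' f' =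
    ut (a + a') (b + a * d' + b') (c + a * e' + b * f' + c') (d + d') (e + d * f' + e') (f + f') := by
  ext i j
  rcases i with i | i <;> rcases j with j | j <;> fin_cases i <;> fin_cases j <;>
    simp [ut, mul_apply, Fin.sum_univ_two] <;> ring

theorem ut_eq {g : G} {a b c d e f a' b' c' d' e' f' : K} (h : Rep π g (ut a b c d e f))
    (h' : Rep π g (ut a' b' c' d' e' f')) : a = a' ∧ b = b' ∧ c = c' ∧ d = d' ∧ e = e' ∧ f = f' := by
  obtain ⟨t, -, ht⟩ := h.unique h'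
  have h0 := congrFun₂ ht (.inl 0) (.inl 0)
  have h1 := congrFun₂ ht (.inl 0) (.inl 1)
  have h2 := congrFun₂ ht (.inl 0) (.inr 0)
  have h3 := congrFun₂ ht (.inl 0) (.inr 1)
  have h4 := congrFun₂ ht (.inl 1) (.inr 0)
  have h5 := congrFun₂ ht (.inl 1) (.inr 1)
  have h6 := congrFun₂ ht (.inr 0) (.inr 1)
  simp [ut] at h0 h1 h2 h3 h4 h5 h6
  subst h0
  simp_all

theorem ut_tv (hx : Cx π) {g : G} {c e : K} (h : Rep π g (ut 0 0 c 0 e 0)) : g = 1 := by
  have e0 : ut 0 0 c 0 e 0 = 1 + vecMulVec (Sum.elim ![c, e] 0) (Sum.elim 0 ![0, 1]) := by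
    ext i j
    rcases i with i | i <;> rcases j with j | j <;> fin_cases i <;> fin_cases j <;> simp [ut, vecMulVec_apply]
  rw [e0] at h
  rw [hx.nt g _ _ (by simp [dotProduct]) h, add_zero] at h
  exact h.eq_one' hx.inj

theorem ut_tv' (hx : Cx π) {g : G} {b c : K} (h : Rep π g (ut 0 b c 0 0 0)) : g = 1 := by
  have e0 : ut 0 b c 0 0 0 = 1 + vecMulVec (Sum.elim ![1, 0] 0) (Sum.elim 0 ![b, c]) := by
    ext i j
    rcases i with i | i <;> rcases j with j | j <;> fin_cases i <;> fin_cases j <;> simp [ut, vecMulVec_apply]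
  rw [e0] at h
  rw [hx.nt g _ _ (by simp [dotProduct]) h, add_zero] at h
  exact h.eq_one' hx.inj

theorem exists_ut [Finite G] [IsAlgClosed K] (π : G →* PG4 K) {p : ℕ} [Fact p.Prime] [CharP K p]
    {U : Subgroup G} (hU : IsPGroup p U) :
    ∃ B, ∀ g ∈ U, ∃ a b c d e f, Rep (cb π B) g (ut a b c d e f) := by
  obtain ⟨S, _, hS, h1, h2⟩ := exists_lift π hU
  let ρ : S →* GL I4 K := (MonoidHom.snd _ _).comp S.subtype
  obtain ⟨v0, n0, f0⟩ := step hS ρ (k := 0) (by simp) ![] fun _ i => i.elim0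
  simp only [Finset.univ_eq_empty, Finset.sum_empty, add_zero, exists_const] at n0 f0
  obtain ⟨v1, n1, f1⟩ := step hS ρ (k := 1) (by simp) ![v0] fun s i => ⟨![1], by fin_cases i; simp [f0]⟩
  simp only [Fin.sum_univ_one, cons_val_zero] at n1 f1
  choose c1 f1 using f1
  obtain ⟨v2, n2, f2⟩ := step hS ρ (k := 2) (by simp) ![v0, v1] fun s i => by
    fin_cases i
    · exact ⟨![1, 0], by simp [f0]⟩
    · exact ⟨![c1 s 0, 1], by simp [f1, add_comm]⟩
  simp only [Fin.sum_univ_two, cons_val_zero, cons_val_one] at n2 f2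
  choose c2 f2 using f2
  obtain ⟨v3, n3, f3⟩ := step hS ρ (k := 3) (by simp) ![v0, v1, v2] fun s i => by
    fin_cases i
    · exact ⟨![1, 0, 0], by simp [f0, Fin.sum_univ_three]⟩
    · exact ⟨![c1 s 0, 1, 0], by simp [f1, add_comm, Fin.sum_univ_three]⟩
    · exact ⟨![c2 s 0, c2 s 1, 1], by simp [f2, add_comm, Fin.sum_univ_three]⟩
  simp only [Fin.sum_univ_three, cons_val_zero, cons_val_one, cons_val] at n3 f3
  choose c3 f3 using f3
  let B : M4 K := Matrix.of fun i j => Sum.elim ![v0, v1] ![v2, v3] j i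
  have hB : IsUnit B := linearIndependent_cols_iff_isUnit.1 (Fintype.linearIndependent_iff.2 fun t ht => by
    have ht : t (.inl 0) • v0 + t (.inl 1) • v1 + (t (.inr 0) • v2 + t (.inr 1) • v3) = 0 := by
      rw [← ht, Fintype.sum_sum_type, Fin.sum_univ_two, Fin.sum_univ_two]; rfl
    have key {w x : I4 → K} {a : K} (h : ¬ a = 0) (e : w + a • x = 0) : -a⁻¹ • w = x := by
      rw [eq_neg_of_add_eq_zero_left e, smul_neg, neg_smul, neg_neg, inv_smul_smul₀ h]
    have t3 : t (.inr 1) = 0 := by_contra fun h => n3 (-(t (.inr 1))⁻¹ • ![t (.inl 0), t (.inl 1), t (.inr 0)]) (by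
      rw [← key h ((add_assoc _ _ _).trans ht)]; simp [smul_smul])
    rw [t3, zero_smul, add_zero] at ht
    have t2 : t (.inr 0) = 0 := by_contra fun h => n2 (-(t (.inr 0))⁻¹ • ![t (.inl 0), t (.inl 1)]) (by
      rw [← key h ht]; simp [smul_smul])
    rw [t2, zero_smul, add_zero] at ht
    have t1 : t (.inl 1) = 0 := by_contra fun h => n1 (-(t (.inl 1))⁻¹ • ![t (.inl 0)]) (by
      rw [← key h ht]; simp [smul_smul])
    have t0 : t (.inl 0) = 0 := by
      simp only [t1, zero_smul, add_zero, smul_eq_zero] at ht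
      exact ht.resolve_right (n0 ![]).symm
    simp [t0, t1, t2, t3])
  refine ⟨hB.unit, fun g hg => ?_⟩
  obtain ⟨s, hs, rfl⟩ := h2 g hg
  let s' : S := ⟨s, hs⟩
  refine ⟨c1 s' 0, c2 s' 0, c3 s' 0, c2 s' 1, c3 s' 1, c3 s' 2, (h1 s hs).cb_of _ ?_⟩
  ext i j
  have g0 := congrFun (f0 s') i
  have g1 := congrFun (f1 s') i
  have g2 := congrFun (f2 s') i
  have g3 := congrFun (f3 s') i
  change (s.2.1 *ᵥ Sum.elim ![v0, v1] ![v2, v3] j) i = _
  change (s.2.1 *ᵥ _) i = _ at g0 g1 g2 g3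
  rcases j with j | j <;> fin_cases j <;>
    simp [B, mul_apply, ut, g0, g1, g2, g3] <;> ring

/-- the commutator of two unitriangular elements -/
theorem comm_ut {U : Subgroup G} (h : ∀ g ∈ U, ∃ a b c d e f, Rep π g (ut a b c d e f)) {x y : G}
    (hx : x ∈ U) (hy : y ∈ U) {a b c d e f a' b' c' d' e' f' : K} (h1 : Rep π x (ut a b c d e f))
    (h2 : Rep π y (ut a' b' c' d' e' f')) :
    ∃ t, Rep π ⁅x, y⁆ (ut 0 (a * d' - a' * d) t 0 (d * f' - d' * f) 0) := by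
  obtain ⟨a0, b0, c0, d0, e0, f0, h0⟩ := h ⁅x, y⁆ (mul_mem (mul_mem (mul_mem hx hy) (inv_mem hx)) (inv_mem hy))
  have h3 := (h0.mul h2).mul h1
  rw [show ⁅x, y⁆ * y * x = x * y by simp [commutatorElement_def], ut_mul, ut_mul] at h3
  obtain ⟨e1, e2, -, e4, e5, e6⟩ := ut_eq ((h1.mul h2).congr (ut_mul ..)) h3
  obtain rfl : a0 = 0 := by linear_combination -e1
  obtain rfl : d0 = 0 := by linear_combination -e4
  obtain rfl : f0 = 0 := by linear_combination -e6
  obtain rfl : b0 = a * d' - a' * d := by linear_combination -e2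
  obtain rfl : e0 = d * f' - d' * f := by linear_combination -e5
  exact ⟨_, h0⟩

theorem class_two (hx : Cx π) {U : Subgroup G} (h : ∀ g ∈ U, ∃ a b c d e f, Rep π g (ut a b c d e f))
    {x y z : G} (h1 : x ∈ U) (h2 : y ∈ U) (h3 : z ∈ U) : Commute ⁅x, y⁆ z := by
  obtain ⟨_, _, _, _, _, _, hx1⟩ := h x h1
  obtain ⟨_, _, _, _, _, _, hy1⟩ := h y h2
  obtain ⟨_, _, _, _, _, _, hz1⟩ := h z h3
  obtain ⟨_, h4⟩ := comm_ut h h1 h2 hx1 hy1
  obtain ⟨_, h5⟩ := comm_ut h (mul_mem (mul_mem (mul_mem h1 h2) (inv_mem h1)) (inv_mem h2)) h3 h4 hz1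
  simp only [zero_mul, mul_zero, sub_self] at h5
  exact commutatorElement_eq_one_iff_commute.1 (ut_tv' hx h5)

theorem pat [DecidableEq K] {c : K} {d : I4 → K} (h3 : ∀ i, d i ^ 3 = 1)
    (h : ∀ j, ∏ i, (if d i = d j then c * d j else 1) = 1) :
    (∀ i, d i = d (.inl 0)) ∨ ∃ k t, d k ≠ t ∧ t ^ 3 = 1 ∧ ∀ i, i ≠ k → d i = t := by
  simp only [Fintype.prod_sum_type, Fin.prod_univ_two, Sum.forall, Fin.forall_fin_two, Sum.exists,
    Fin.exists_fin_two, ne_eq, Sum.inl.injEq, Sum.inr.injEq, reduceCtorEq, not_false_eq_true, not_true_eq_false,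
    zero_ne_one, one_ne_zero, forall_const, false_implies, true_and, and_true, if_true] at h h3 ⊢
  generalize d (.inl 0) = x0 at *
  generalize d (.inl 1) = x1 at *
  generalize d (.inr 0) = x2 at *
  generalize d (.inr 1) = x3 at *
  obtain ⟨⟨a0, a1⟩, a2, a3⟩ := h3
  obtain ⟨⟨b0, b1⟩, b2, b3⟩ := h
  have two {x y : K} (hx : x ^ 3 = 1) (hy : y ^ 3 = 1) (h1 : c * x * (c * x) = 1) (h2 : c * y * (c * y) = 1) :
      x = y := by grind
  by_cases e1 : x1 = x0 <;> by_cases e2 : x2 = x0 <;> by_cases e3 : x3 = x0 <;> by_cases e4 : x2 = x1 <;>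
    by_cases e5 : x3 = x1 <;> by_cases e6 : x3 = x2 <;>
    simp only [*, eq_comm (a := x0), eq_comm (a := x1) (b := x2), eq_comm (a := x1) (b := x3),
      eq_comm (a := x2) (b := x3), if_true, if_false, mul_one, one_mul] at b0 b1 b2 b3 <;>
    first
    | exact absurd (‹x1 = x0›.trans ‹x2 = x0›.symm).symm ‹_›
    | exact Or.inl ⟨‹_›, ‹_›, ‹_›⟩
    | exact Or.inr (Or.inl (Or.inl ⟨x1, Ne.symm ‹_›, a1, rfl, ‹_›, ‹_›⟩))
    | exact Or.inr (Or.inl (Or.inr ⟨x0, ‹_›, a0, rfl, ‹_›, ‹_›⟩))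
    | exact Or.inr (Or.inr (Or.inl ⟨x0, ‹_›, a0, ⟨rfl, ‹_›⟩, ‹_›⟩))
    | exact Or.inr (Or.inr (Or.inr ⟨x0, ‹_›, a0, ⟨rfl, ‹_›⟩, ‹_›⟩))
    | (exfalso; clear a0 a1 a2 a3 b0 b1 b2 b3 two; grind)
    | (exfalso; clear a0 a1 a2 a3 two; grind)
    | (exfalso; grind)

end Tri

open Tri

variable {G K : Type*} [Group G] [Finite G] [Field K] [IsAlgClosed K] {π : G →* PG4 K}

theorem p_comm (p : ℕ) [Fact p.Prime] [CharP K p] (hx : Cx π) (hp : p ≠ 2) {U : Subgroup G}
    (hU : IsPGroup p U) : ∀ a ∈ U, ∀ b ∈ U, a * b = b * a := by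
  intro x h1 y h2
  obtain ⟨B, h⟩ := exists_ut π hU
  have hx := hx.cb B
  obtain ⟨a, b, c, d, e, f, hx1⟩ := h x h1
  obtain ⟨a', b', c', d', e', f', hy1⟩ := h y h2
  obtain ⟨t, h4⟩ := comm_ut h h1 h2 hx1 hy1
  have k1 := h4.mul hx1
  have k2 := h4.mul hy1
  rw [(class_two hx h h1 h2 h1).eq, ut_mul] at k1
  rw [(class_two hx h h1 h2 h2).eq, ut_mul] at k2
  have l1 := (ut_eq k1 ((hx1.mul h4).congr (ut_mul ..))).2.2.1
  have l2 := (ut_eq k2 ((hy1.mul h4).congr (ut_mul ..))).2.2.1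
  have h2 : (2 : K) ≠ 0 := fun e => hp ((Nat.prime_dvd_prime_iff_eq Fact.out Nat.prime_two).1
    ((CharP.cast_eq_zero_iff K p 2).1 (by simpa using e)))
  have : (a * d' - a' * d) * (d * f' - d' * f) = 0 :=
    (mul_eq_zero.1 (by linear_combination (d' * l1 - d * l2) * (-1))).resolve_left h2
  refine commutatorElement_eq_one_iff_mul_comm.1 ?_
  rcases mul_eq_zero.1 this with e0 | e0 <;> rw [e0] at h4
  exacts [ut_tv hx h4, ut_tv' hx h4]

theorem two_class [CharP K 2] (hx : Cx π) {U : Subgroup G} (hU : IsPGroup 2 U) :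
    ∀ a ∈ U, ∀ b ∈ U, ∀ c ∈ U, Commute ⁅a, b⁆ c := by
  obtain ⟨B, h⟩ := exists_ut π hU
  exact fun a ha b hb c hc => class_two (hx.cb B) h ha hb hc

theorem c7 (hx : Cx π) (h3 : (3 : K) ≠ 0) {a b : G} (h1 : ⁅a, b⁆ ≠ 1) (h2 : ⁅a, b⁆ ^ 3 = 1)
    (ha : Commute ⁅a, b⁆ a) (hb : Commute ⁅a, b⁆ b) : ∃ (v φ : I4 → K) (μ : K),
      μ ^ 2 + μ + 1 = 0 ∧ φ ⬝ᵥ v = 1 ∧ Rep π ⁅a, b⁆ (1 + (μ - 1) • vecMulVec v φ) := by
  classical
  have ho : Nat.card (Subgroup.zpowers ⁅a, b⁆) = 3 := by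
    rw [Nat.card_zpowers, orderOf_eq_prime h2 h1]
  obtain ⟨B, χ, hD, -⟩ := weights hx (Subgroup.zpowers ⁅a, b⁆) (by
    rintro _ ⟨i, rfl⟩ _ ⟨j, rfl⟩; exact zpow_mul_comm ..) (by rw [ho]; decide) (by rw [ho]; exact_mod_cast h3)
  let y : Subgroup.zpowers ⁅a, b⁆ := ⟨_, Subgroup.mem_zpowers _⟩
  obtain ⟨d, hd⟩ : ∃ d : I4 → K, d = fun i => (χ i y : K) := ⟨_, rfl⟩
  have hD : Rep (cb π B) ⁅a, b⁆ (diagonal d) := hd ▸ hD y
  have d3 : ∀ i, d i ^ 3 = 1 := fun i => by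
    rw [hd, ← Units.val_pow_eq_pow_val, ← map_pow, show y ^ 3 = 1 from Subtype.ext h2, map_one, Units.val_one]
  obtain ⟨A, hA⟩ := exists_rep (cb π B) a
  obtain ⟨C, hC⟩ := exists_rep (cb π B) b
  obtain ⟨c, hc, e⟩ := ((hD.mul hC).mul hA).unique
    (show ⁅a, b⁆ * b * a = a * b by simp [commutatorElement_def] ▸ hA.mul hC)
  have cm {g : G} {M : M4 K} (hM : Rep (cb π B) g M) (hg : Commute ⁅a, b⁆ g) (f : K → K) :
      diagonal (fun i => f (d i)) * M = M * diagonal fun i => f (d i) := by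
    have := (com_of_odd (π := cb π B) (by decide : Odd 3) h2 hg.eq).eq hD hM
    ext i j
    have := congrFun₂ this i j
    simp only [diagonal_mul, mul_diagonal] at this ⊢
    by_cases h0 : M i j = 0
    · simp [h0]
    · rw [mul_right_cancel₀ h0 (this.trans (mul_comm _ _)), mul_comm]
  refine (pat (c := c) d3 fun j => ?_).elim (fun h => ?_) fun ⟨k, t, h4, h5, h6⟩ => ?_
  rotate_left
  · exact absurd (Rep.eq_one (hx.cb B).inj (c := d (.inl 0)) (hD.congr (by
      rw [smul_one_eq_diagonal]; exact congrArg _ (funext h)))) h1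
  · have t0 : t ≠ 0 := by rintro rfl; simp at h5
    have := rep_cb_iff.1 ((hD.smul (inv_ne_zero t0)).congr (N := 1 + vecMulVec ((d k / t - 1) • Pi.single k 1)
      (Pi.single k 1)) (by
        ext i j
        by_cases e1 : i = k
        · subst e1
          by_cases e2 : j = i
          · simp [e2, vecMulVec_apply, div_eq_inv_mul]
          · simp [e2, Ne.symm e2, vecMulVec_apply]
        · by_cases e2 : i = j
          · subst e2; simp [e1, h6 i e1, vecMulVec_apply, t0]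
          · simp [e1, e2, vecMulVec_apply]))
    rw [cj_one_add_vecMulVec, mulVec_smul, smul_vecMulVec] at this
    refine ⟨_, _, d k / t, ?_, by rw [dot_cj]; simp, this⟩
    have := d3 k
    refine (mul_eq_zero.1 (?_ : (d k / t - 1) * _ = 0)).resolve_left (sub_ne_zero.2 fun e => h4 ?_)
    · rw [show ∀ x : K, (x - 1) * (x ^ 2 + x + 1) = x ^ 3 - 1 from fun x => by ring, div_pow, this, h5]; simp
    · rwa [div_eq_one_iff_eq t0] at e
  obtain ⟨E, hE⟩ : ∃ E : M4 K, E = diagonal fun i => if d i = d j then 1 else 0 := ⟨_, rfl⟩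
  have EE : E * E = E := by rw [hE, diagonal_mul_diagonal]; congr 1; ext i; split_ifs <;> simp
  have EA : E * A = A * E := hE ▸ cm hA ha fun x => if x = d j then 1 else 0
  have EC : E * C = C * E := hE ▸ cm hC hb fun x => if x = d j then 1 else 0
  have DE : E * diagonal d = d j • E := by
    rw [hE, diagonal_mul_diagonal, ← diagonal_smul]; congr 1; ext i; split_ifs with h <;> simp [h]
  have mm {X Y : M4 K} (hX : E * X = X * E) : (E * X + (1 - E)) * (E * Y + (1 - E)) = E * (X * Y) + (1 - E) := by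
    have : E * X * E = E * X := by rw [mul_assoc, ← hX, ← mul_assoc, EE]
    simp only [add_mul, mul_add, sub_mul, mul_sub, one_mul, mul_one, ← mul_assoc, this, EE]
    abel
  have nz {g : G} {X : M4 K} (hg : Rep (cb π B) g X) (hX : E * X = X * E) : (E * X + (1 - E)).det ≠ 0 := fun e0 => by
    have := congrArg det (mm (Y := X⁻¹) hX)
    rw [det_mul, e0, hg.mul_inv, mul_one, add_sub_cancel] at this
    simp at this
  have k1 := mm (Y := C) EA
  have k2 := mm (Y := A) EC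
  have k3 := mm (X := (c * d j) • 1) (Y := C * A) (by simp)
  have k4 : E * (A * C) = E * ((c * d j) • (1 : M4 K) * (C * A)) := by
    rw [e, mul_smul_comm, mul_assoc, ← mul_assoc E, DE]; simp [mul_smul]
  have k5 := congrArg det (k3.trans (k4 ▸ k1.symm))
  rw [← k2, det_mul, det_mul, det_mul, mul_comm (det (E * A + _))] at k5
  have k6 := mul_right_cancel₀ (mul_ne_zero (nz hC EC) (nz hA EA)) (k5.trans (one_mul _).symm)
  refine (det_diagonal.symm.trans (congrArg det ?_)).trans k6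
  rw [hE]
  ext i l
  by_cases e1 : i = l
  · subst e1; by_cases e2 : d i = d j <;> simp [e2]
  · simp [e1]

theorem not_heis0 [CharP K 3] (hx : Cx π) : ¬ Heis0 G := by
  rintro ⟨a, b, ha, hb, h1, h2, h3, h4⟩
  have pg {x : G} {n : ℕ} (h : x ^ 3 ^ n = 1) : IsPGroup 3 (Subgroup.zpowers x) := by
    rintro ⟨_, i, rfl⟩
    exact ⟨n, Subtype.ext (by rw [SubgroupClass.coe_pow, ← zpow_natCast, zpow_comm, zpow_natCast, h, _root_.one_zpow]; rfl)⟩
  have : Fact (Nat.Prime 3) := ⟨Nat.prime_three⟩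
  have k1 : IsPGroup 3 (Subgroup.zpowers a ⊔ Subgroup.zpowers ⁅a, b⁆ : Subgroup G) :=
    (pg (n := 2) ha).to_sup_of_normal_right' (pg (n := 1) h2) (Subgroup.zpowers_le.2
      (Subgroup.centralizer_le_normalizer _ (by rintro _ ⟨i, rfl⟩; exact (h3.zpow_left i).eq)))
  have k2 := (pg (n := 2) hb).to_sup_of_normal_right' k1 (Subgroup.zpowers_le.2
    (Subgroup.mem_normalizer_fintype fun n hn => (?_ : _ ≤ Subgroup.comap (MulAut.conj b).toMonoidHom
      (Subgroup.zpowers a ⊔ Subgroup.zpowers ⁅a, b⁆)) hn))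
  · exact h1 (commutatorElement_eq_one_iff_mul_comm.2 (p_comm 3 hx (by decide) k2 a
      (Subgroup.mem_sup_right (Subgroup.mem_sup_left (Subgroup.mem_zpowers a))) b
      (Subgroup.mem_sup_left (Subgroup.mem_zpowers b))))
  refine sup_le (Subgroup.zpowers_le.2 ?_) (Subgroup.zpowers_le.2 ?_)
  · change b * a * b⁻¹ ∈ Subgroup.zpowers a ⊔ Subgroup.zpowers ⁅a, b⁆
    rw [show b * a * b⁻¹ = ⁅a, b⁆⁻¹ * a by simp [commutatorElement_def, mul_assoc]]
    exact mul_mem (inv_mem (Subgroup.mem_sup_right (Subgroup.mem_zpowers _)))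
      (Subgroup.mem_sup_left (Subgroup.mem_zpowers _))
  · change b * ⁅a, b⁆ * b⁻¹ ∈ Subgroup.zpowers a ⊔ Subgroup.zpowers ⁅a, b⁆
    rw [← h4.eq, mul_inv_cancel_right]
    exact Subgroup.mem_sup_right (Subgroup.mem_zpowers _)

theorem not_heis (p : ℕ) [Fact p.Prime] [CharP K p] (hx : Cx π) : ¬ Heis G := by
  rintro ⟨a, b, ha, hb, h1, h2, h3, h4, h5⟩
  by_cases hp : (3 : K) = 0
  · have : CharP K 3 := (CharP.charP_iff_prime_eq_zero Nat.prime_three).2 (by simpa using hp)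
    exact not_heis0 hx ⟨a, b, ha, hb, h1, h2, h3, h4⟩
  obtain ⟨v, φ, μ, hμ, h6, h7⟩ := c7 hx hp h1 h2 h3 h4
  obtain ⟨k, hk⟩ := isConj_iff.1 h5
  obtain ⟨H, hH⟩ := exists_rep π k
  have mm (s t : K) : (1 + s • vecMulVec v φ) * (1 + t • vecMulVec v φ) = 1 + (s + t + s * t) • vecMulVec v φ := by
    simp only [add_mul, mul_add, one_mul, mul_one, smul_mul_smul_comm, vecMulVec_mul_vecMulVec, h6, one_smul,
      add_smul]
    abel
  have dd (s : K) : (1 + s • vecMulVec v φ).det = 1 + s := by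
    rw [← smul_vecMulVec, vecMulVec_eq Unit, det_one_add_replicateCol_mul_replicateRow]
    simp [h6]
  have tt (s : K) : (1 + s • vecMulVec v φ).trace = 4 + s := by
    rw [trace_add, trace_smul, trace_vecMulVec, dotProduct_comm, h6]; simp
  have h8 := h7.inv' (N := 1 + (μ ^ 2 - 1) • vecMulVec v φ) (by
    rw [mm, show μ - 1 + (μ ^ 2 - 1) + (μ - 1) * (μ ^ 2 - 1) = 0 by grind, zero_smul, add_zero])
  obtain ⟨c, -, e⟩ := h8.unique (hk ▸ hH.conj h7)
  have e1 := congrArg det e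
  have e2 := congrArg trace e
  have cj (X Y : M4 K) : H * X * H⁻¹ * (H * Y * H⁻¹) = H * (X * Y) * H⁻¹ := by
    simp only [mul_assoc, ← mul_assoc H⁻¹ H, hH.inv_mul, one_mul]
  have tc (X : M4 K) : trace (H * X * H⁻¹) = trace X := by rw [trace_mul_cycle, hH.inv_mul, one_mul]
  rw [det_mul, det_mul, mul_right_comm, ← det_mul, hH.mul_inv, det_smul, dd, dd] at e1
  rw [tc, trace_smul, tt, tt] at e2
  have e4 := congrArg (fun M => M * M * M) e
  simp only [cj, mm, smul_mul_smul_comm] at e4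
  rw [show μ - 1 + (μ - 1) + (μ - 1) * (μ - 1) + (μ - 1) + (μ - 1 + (μ - 1) + (μ - 1) * (μ - 1)) * (μ - 1) = 0 by grind,
    show μ ^ 2 - 1 + (μ ^ 2 - 1) + (μ ^ 2 - 1) * (μ ^ 2 - 1) + (μ ^ 2 - 1) +
      (μ ^ 2 - 1 + (μ ^ 2 - 1) + (μ ^ 2 - 1) * (μ ^ 2 - 1)) * (μ ^ 2 - 1) = 0 by grind] at e4
  have e5 := congrFun₂ e4 (.inl 0) (.inl 0)
  clear e4
  simp only [zero_smul, add_zero, mul_one, hH.mul_inv, Matrix.smul_apply, one_apply_eq, smul_eq_mul, det_one, one_mul,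
    Fintype.card_sum, Fintype.card_fin] at e1 e2 e5
  have m3 : μ ^ 3 = 1 := by linear_combination (μ - 1) * hμ
  have e6 : c = μ ^ 2 := by linear_combination -μ * e1 + c * μ ^ 3 * e5 - c * m3
  have e7 : μ ^ 2 = 1 := mul_left_cancel₀ hp (by rw [e6] at e2; linear_combination -e2 - μ * m3)
  exact hp (by linear_combination hμ * (2 - μ) + (μ - 1) * e7)

end CfsgLib.D4
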