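import Cfsg.Agent.Lib.D4.QD1
import Cfsg.Agent.Lib.D4.Tri

/-! Opposite big planes.  See `plans/D4.md`. -/

set_option autoImplicit false

namespace CfsgLib.D4

open Matrix Cfsg Cfsg.Geo CfsgLib.Asch
open scoped MatrixGroups commutatorElement

variable {G K : Type*} [Group G] [Finite G] [Field K] [IsAlgClosed K] {π : G →* PG4 K}

namespace QD

open CfsgLib.Dickson

section Frame

omit [Finite G] [IsAlgClosed K]

variable {L M : Submodule K (I4 → K)} {N X : M4 K} {B : M2 K}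

/-- upper nilpotent block matrix -/
abbrev nU (B : M2 K) : M4 K := fromBlocks 0 B 0 0

/-- lower nilpotent block matrix -/
abbrev nL (B : M2 K) : M4 K := fromBlocks 0 0 B 0

/-- the first coordinate plane -/
def L0 (K : Type*) [Field K] : Submodule K (I4 → K) := LinearMap.ker (LinearMap.funLeft K K Sum.inr)

/-- the second coordinate plane -/
def M0 (K : Type*) [Field K] : Submodule K (I4 → K) := LinearMap.ker (LinearMap.funLeft K K Sum.inl)

theorem mem_L0 {v : I4 → K} : v ∈ L0 K ↔ v ∘ Sum.inr = 0 := Iff.rfl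

theorem mem_M0 {v : I4 → K} : v ∈ M0 K ↔ v ∘ Sum.inl = 0 := Iff.rfl

theorem elim_eq_zero {u w : Fin 2 → K} : (Sum.elim u w : I4 → K) = 0 ↔ u = 0 ∧ w = 0 :=
  ⟨fun h => ⟨funext fun i => congrFun h (.inl i), funext fun i => congrFun h (.inr i)⟩,
    fun h => by rw [h.1, h.2]; exact Sum.elim_zero_zero⟩

theorem disj0 : L0 K ⊓ M0 K = ⊥ := (Submodule.eq_bot_iff _).2 fun v hv => by
  rw [← Sum.elim_comp_inl_inr v, mem_L0.1 hv.1, mem_M0.1 hv.2]; exact Sum.elim_zero_zero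

theorem shapeL (h1 : ∀ v, X *ᵥ v ∈ L0 K) (h2 : ∀ v ∈ L0 K, X *ᵥ v = 0) : ∃ B, X = nU B := by
  refine ⟨X.toBlocks₁₂, ?_⟩
  ext i j
  have a := fun k => congrFun (mem_L0.1 (h1 (Pi.single j 1))) k
  rcases j with j | j
  · have := congrFun (h2 (Pi.single (.inl j) 1) (funext fun k => by simp)) i
    rcases i with i | i <;> simpa using this
  · rcases i with i | i
    · rfl
    · simpa using a i

theorem shapeM (h1 : ∀ v, X *ᵥ v ∈ M0 K) (h2 : ∀ v ∈ M0 K, X *ᵥ v = 0) : ∃ B, X = nL B := by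
  refine ⟨X.toBlocks₂₁, ?_⟩
  ext i j
  have a := fun k => congrFun (mem_M0.1 (h1 (Pi.single j 1))) k
  rcases j with j | j
  · rcases i with i | i
    · simpa using a i
    · rfl
  · have := congrFun (h2 (Pi.single (.inr j) 1) (funext fun k => by simp)) i
    rcases i with i | i <;> simpa using this

theorem nU_mem {g : G} (h : Rep π g (fromBlocks 1 B 0 1)) : nU B ∈ AL π (L0 K) :=
  ⟨⟨g, h.congr (by rw [← fromBlocks_one, fromBlocks_add]; simp)⟩,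
    fun v => by simp [mem_L0, fromBlocks_mulVec],
    fun v hv => by simp [fromBlocks_mulVec, mem_L0.1 hv]⟩

theorem nL_mem {g : G} (h : Rep π g (fromBlocks 1 0 B 1)) : nL B ∈ AL π (M0 K) :=
  ⟨⟨g, h.congr (by rw [← fromBlocks_one, fromBlocks_add]; simp)⟩,
    fun v => by simp [mem_M0, fromBlocks_mulVec],
    fun v hv => by simp [fromBlocks_mulVec, mem_M0.1 hv]⟩

theorem one_add_nU (B : M2 K) : 1 + nU B = fromBlocks 1 B 0 1 := by
  rw [← fromBlocks_one, fromBlocks_add]; simp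

theorem one_sub_nU (B : M2 K) : 1 - nU B = fromBlocks 1 (-B) 0 1 := by
  rw [← one_add_nU, sub_eq_add_neg, fromBlocks_neg]; simp

theorem one_add_nL (B : M2 K) : 1 + nL B = fromBlocks 1 0 B 1 := by
  rw [← fromBlocks_one, fromBlocks_add]; simp

theorem one_sub_nL (B : M2 K) : 1 - nL B = fromBlocks 1 0 (-B) 1 := by
  rw [← one_add_nL, sub_eq_add_neg, fromBlocks_neg]; simp

theorem nU_eq_zero : nU B = 0 ↔ B = 0 := by
  rw [← fromBlocks_zero, fromBlocks_inj]; simp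

theorem nL_eq_zero : nL B = 0 ↔ B = 0 := by
  rw [← fromBlocks_zero, fromBlocks_inj]; simp

theorem det_nU (hx : Cx π) (h2 : Module.finrank K (L0 K) = 2) (h : nU B ∈ AL π (L0 K))
    (h0 : B ≠ 0) : B.det ≠ 0 := fun e => by
  obtain ⟨w, w0, hw⟩ := exists_mulVec_eq_zero_iff.2 e
  exact h0 (nU_eq_zero.1 (sing hx h2 h (v := Sum.elim 0 w) w0 (by simp [fromBlocks_mulVec, hw])))

theorem det_nL (hx : Cx π) (h2 : Module.finrank K (M0 K) = 2) (h : nL B ∈ AL π (M0 K))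
    (h0 : B ≠ 0) : B.det ≠ 0 := fun e => by
  obtain ⟨w, w0, hw⟩ := exists_mulVec_eq_zero_iff.2 e
  exact h0 (nL_eq_zero.1 (sing hx h2 h (v := Sum.elim w 0) w0 (by simp [fromBlocks_mulVec, hw])))

theorem frame [NeZero (2 : K)] (hx : Cx π) (hL : Module.finrank K L = 2)
    (hM : Module.finrank K M = 2) (h0 : L ⊓ M = ⊥) (hN : N ∈ AL π L) (hN0 : N ≠ 0) :
    ∃ B : GL I4 K, mp B⁻¹ L = L0 K ∧ mp B⁻¹ M = M0 K ∧ cj B⁻¹ N = nU 1 := by
  obtain ⟨E, E', i1, i2, -⟩ := Dim4.QD.exists_co hM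
  have dj : ∀ v, v ∈ L → v ∈ M → v = 0 := fun v a b => (Submodule.eq_bot_iff _).1 h0 v ⟨a, b⟩
  have k1 : ∀ w, E *ᵥ w ∈ L → w = 0 := fun w hw => by
    rw [← one_mulVec w, ← i1, ← mulVec_mulVec, dj _ hw (i2 w), mulVec_zero]
  have k2 : ∀ v, fromCols (N * E) E *ᵥ v ∈ L → v ∘ Sum.inr = 0 := fun v hv => by
    rw [fromCols_mulVec, ← mulVec_mulVec] at hv
    exact k1 _ ((L.add_mem_iff_right (hN.2.1 _)).1 hv)
  have k3 : ∀ v, fromCols (N * E) E *ᵥ v ∈ M → v ∘ Sum.inl = 0 := fun v hv => by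
    rw [fromCols_mulVec, ← mulVec_mulVec] at hv
    exact k1 _ ((lag hx hL hN hN0).1 _ (dj _ (hN.2.1 _) ((M.add_mem_iff_left (i2 _)).1 hv)))
  obtain ⟨B, hB⟩ : IsUnit (fromCols (N * E) E : M4 K) := by
    refine mulVec_injective_iff_isUnit.1 fun u v (e : _ *ᵥ u = _ *ᵥ v) => sub_eq_zero.1 ?_
    rw [← sub_eq_zero, ← mulVec_sub] at e
    rw [← Sum.elim_comp_inl_inr (u - v), k2 _ (e ▸ L.zero_mem), k3 _ (e ▸ M.zero_mem)]
    exact Sum.elim_zero_zero
  refine ⟨B, Submodule.ext fun v => ?_, Submodule.ext fun v => ?_, ?_⟩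
  · rw [mem_mp, inv_inv, hB]
    refine ⟨k2 v, fun h => ?_⟩
    rw [fromCols_mulVec, mem_L0.1 h, mulVec_zero, add_zero, ← mulVec_mulVec]
    exact hN.2.1 _
  · rw [mem_mp, inv_inv, hB]
    refine ⟨k3 v, fun h => ?_⟩
    rw [fromCols_mulVec, mem_M0.1 h, mulVec_zero, zero_add]
    exact i2 _
  · rw [cj_apply, inv_inv, mul_assoc, Units.inv_mul_eq_iff_eq_mul, hB, fromCols_mul_fromBlocks,
      mul_fromCols, ← Matrix.mul_assoc, mul_eq hN hN]
    simp

end Frame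

theorem comm_of_p (p : ℕ) [Fact p.Prime] [CharP K p] (hx : Cx π) (hp : p ≠ 2)
    {U : Subgroup (GL I4 K)} (hU : IsPGroup p U) (hle : U ≤ Ga π) {x y : GL I4 K} (h1 : x ∈ U)
    (h2 : y ∈ U) : (x : M4 K) * y = y * x := by
  have hU' : IsPGroup p ((U.map ProjGenLinGroup.mk).comap π) :=
    (hU.map _).comap_of_injective _ hx.inj
  have k : ∀ {x : GL I4 K} {g : G}, x ∈ U → Rep π g (x : M4 K) →
      g ∈ (U.map ProjGenLinGroup.mk).comap π := fun {x g} h ⟨x', e, e'⟩ =>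
    ⟨x, h, by rw [e', Units.ext e]⟩
  obtain ⟨g, hg⟩ := (hle h1).1
  obtain ⟨g', hg'⟩ := (hle h2).1
  obtain ⟨n, hn⟩ := hU' ⟨g, k h1 hg⟩
  exact (com_of_odd (((Fact.out : p.Prime).odd_of_ne_two hp).pow (n := n))
    (congrArg Subtype.val hn) (p_comm p hx hp hU' g (k h1 hg) g' (k h2 hg'))).eq hg hg'

open scoped IsMulCommutative in
/-- matrices over `K[θ]` as block matrices -/
def blk (θ : M2 K) : Matrix (Fin 2) (Fin 2) (Algebra.adjoin K {θ}) →* M4 K where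
  toFun A := fromBlocks (A 0 0) (A 0 1) (A 1 0) (A 1 1)
  map_one' := by simp
  map_mul' A B := by simp [fromBlocks_multiply, mul_apply]

open scoped IsMulCommutative in
/-- the image of `SL₂(K[θ])` -/
noncomputable def Yg (θ : M2 K) : Subgroup (GL I4 K) :=
  ((Units.map (blk θ)).comp (SpecialLinearGroup.toGL (n := Fin 2))).range

omit [IsAlgClosed K] in
open scoped IsMulCommutative in
theorem mem_Yg {θ : M2 K} {g : GL I4 K} : g ∈ Yg θ ↔ ∃ a ∈ Algebra.adjoin K {θ},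
    ∃ b ∈ Algebra.adjoin K {θ}, ∃ c ∈ Algebra.adjoin K {θ}, ∃ d ∈ Algebra.adjoin K {θ},
      (g : M4 K) = fromBlocks a b c d ∧ a * d - b * c = 1 := by
  constructor
  · rintro ⟨A, rfl⟩
    refine ⟨_, (A 0 0).2, _, (A 0 1).2, _, (A 1 0).2, _, (A 1 1).2, rfl, ?_⟩
    have := A.2
    rw [det_fin_two] at this
    exact congrArg Subtype.val this
  · rintro ⟨a, ha, b, hb, c, hc, d, hd, e, h⟩
    exact ⟨⟨!![⟨a, ha⟩, ⟨b, hb⟩; ⟨c, hc⟩, ⟨d, hd⟩], by rw [det_fin_two_of]; exact Subtype.ext h⟩,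
      Units.ext e.symm⟩

/-- a `p`-element over a lower unitriangular matrix -/
theorem exists_lift (p : ℕ) [Fact p.Prime] [CharP K p] {Γ : Subgroup (GL I4 K)} [Finite Γ]
    {e f : I4 → K} (f0 : f ≠ 0) {r : GL I4 K} (hr : r ∈ Γ) (hrp : r ^ p = 1)
    (r1 : (r : M4 K) *ᵥ f = f) (r2 : ∃ c : K, (r : M4 K) *ᵥ e = e + c • f) {t : K}
    (ht : SL2.ll t ∈ act Γ 0 e f) : ∃ U : Subgroup (GL I4 K), IsPGroup p U ∧ U ≤ Γ ∧ r ∈ U ∧
      ∃ y ∈ U, (y : M4 K) *ᵥ e = e + t • f := by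
  let W : Subgroup (GL I4 K) :=
    { carrier := {g | g ∈ Γ ∧ (g : M4 K) *ᵥ f = f ∧ ∃ c : K, (g : M4 K) *ᵥ e = e + c • f}
      one_mem' := ⟨Γ.one_mem, by simp, 0, by simp⟩
      mul_mem' := fun {a b} ⟨h1, h2, c, h3⟩ ⟨h1', h2', c', h3'⟩ => ⟨Γ.mul_mem h1 h1',
        by rw [Units.val_mul, ← mulVec_mulVec, h2', h2], c + c', by
          rw [Units.val_mul, ← mulVec_mulVec, h3', mulVec_add, mulVec_smul, h2, h3]; module⟩
      inv_mem' := fun {a} ⟨h1, h2, c, h3⟩ => ⟨Γ.inv_mem h1,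
        by conv_lhs => rw [← h2, inv_mulVec_mulVec], -c, by
          rw [← inv_mulVec_mulVec a (e + -c • f), mulVec_add, mulVec_smul, h2, h3]
          congr 1; module⟩ }
  have : Finite W := Finite.of_injective _ (Subgroup.inclusion_injective (fun _ h => h.1 : W ≤ Γ))
  choose c hc using fun g : W => g.2.2.2
  have uq : ∀ (g : W) (d : K), (g.1 : M4 K) *ᵥ e = e + d • f → c g = d := fun g d h =>
    smul_left_injective K f0 (add_left_cancel ((hc g).symm.trans h))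
  let χ : W →* Multiplicative K := MonoidHom.mk' (fun g => Multiplicative.ofAdd (c g)) fun a b =>
    congrArg Multiplicative.ofAdd (uq _ (c a + c b) (by
      rw [Subgroup.coe_mul, Units.val_mul, ← mulVec_mulVec, hc b, mulVec_add, mulVec_smul, hc a,
        a.2.2.1]
      module))
  obtain ⟨U, hU⟩ := IsPGroup.exists_le_sylow (p := p) (P := Subgroup.zpowers (⟨r, hr, r1, r2⟩ : W))
    (by
      rintro ⟨_, k, rfl⟩
      refine ⟨1, Subtype.ext (Subtype.ext ?_)⟩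
      simp only [pow_one, SubmonoidClass.coe_pow, SubgroupClass.coe_zpow, OneMemClass.coe_one]
      rw [← _root_.zpow_natCast, ← _root_.zpow_mul, mul_comm, _root_.zpow_mul, _root_.zpow_natCast,
        hrp, _root_.one_zpow])
  have top := (U.mapSurjective χ.rangeRestrict_surjective).is_maximal' (Q := ⊤)
    (fun a => ⟨1, Subtype.ext (Subtype.ext (Multiplicative.toAdd.injective (by simp)))⟩) le_top
  obtain ⟨y₀, hy₀, -, ⟨a, h2⟩, b, h3⟩ := ht
  simp only [SL2.ll_00, SL2.ll_01, SL2.ll_10, SL2.ll_11, smul_zero, add_zero, one_smul, zero_smul,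
    zero_add] at h2 h3
  obtain ⟨y, hy, e1⟩ := top.le (Subgroup.mem_top (χ.rangeRestrict ⟨y₀, hy₀, h3, t, h2⟩))
  refine ⟨U.1.map W.subtype, U.2.map _, ?_, ⟨_, hU (Subgroup.mem_zpowers _), rfl⟩, y, ⟨y, hy, rfl⟩, ?_⟩
  · rintro _ ⟨g, -, rfl⟩
    exact g.2.1
  · rw [hc y, show c y = t from (Multiplicative.ofAdd.injective (congrArg Subtype.val e1)).trans
      (uq _ _ h2)]

theorem eigen (p : ℕ) [Fact p.Prime] [CharP K p] (hx : Cx π) (hp : p ≠ 2) (hL : Big π (L0 K))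
    (hM : Big π (M0 K)) (hN : nU 1 ∈ AL π (L0 K)) {θ : M2 K} (hθ : nL θ ∈ AL π (M0 K))
    (θ0 : θ ≠ 0) {c : K} {w : Fin 2 → K} (w0 : w ≠ 0) (hw : θ *ᵥ w = c • w) :
    nL 1 ∈ AL π (M0 K) ∨ ((3 : K) = 0 ∧ c ^ 2 = -1) := by
  have : NeZero (2 : K) := ⟨two_ne p hp⟩
  have dθ := det_nL hx hM.1 hθ θ0
  have c0 : c ≠ 0 := fun e => dθ (exists_mulVec_eq_zero_iff.1 ⟨w, w0, by rw [hw, e, zero_smul]⟩)
  have := finite_Ga π
  have : Finite (Ga π ⊓ Yg θ : Subgroup _) :=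
    Finite.of_injective _ (Subgroup.inclusion_injective inf_le_left)
  have R1 := (Algebra.adjoin K {θ}).one_mem
  have R0 := (Algebra.adjoin K {θ}).zero_mem
  have Rθ := Algebra.self_mem_adjoin_singleton K θ
  have hs : un _ (mul_eq hN hN) ∈ Ga π ⊓ Yg θ :=
    ⟨un_mem hN, mem_Yg.2 ⟨1, R1, 1, R1, 0, R0, 1, R1, one_add_nU 1, by simp⟩⟩
  have hr : un _ (mul_eq hθ hθ) ∈ Ga π ⊓ Yg θ :=
    ⟨un_mem hθ, mem_Yg.2 ⟨1, R1, 0, R0, θ, Rθ, 1, R1, one_add_nL θ, by simp⟩⟩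
  have f0 : (Sum.elim 0 (c • w) : I4 → K) ≠ 0 := fun e => smul_ne_zero c0 w0 (elim_eq_zero.1 e).2
  have := finite_act (Γ := Ga π ⊓ Yg θ) (x := 0) (e := Sum.elim w 0) (f := Sum.elim 0 (c • w))
    fun s t _ e => by
      have e1 : s • w = 0 := funext fun i => by simpa using congrFun e (.inl i)
      have e2 : t • c • w = 0 := funext fun i => by simpa using congrFun e (.inr i)
      exact ⟨(smul_eq_zero.1 e1).resolve_right w0,
        (smul_eq_zero.1 e2).resolve_right (smul_ne_zero c0 w0)⟩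
  have r1 : (un _ (mul_eq hθ hθ) : M4 K) *ᵥ Sum.elim 0 (c • w) =
      (Sum.elim 0 (c • w) : I4 → K) := by
    rw [un_mulVec]; simp [fromBlocks_mulVec]
  have r2 : (un _ (mul_eq hθ hθ) : M4 K) *ᵥ Sum.elim w 0 =
      Sum.elim w 0 + (1 : K) • (Sum.elim 0 (c • w) : I4 → K) := by
    rw [un_mulVec]; simp [fromBlocks_mulVec, hw]
  have um : SL2.uu c ∈ act (Ga π ⊓ Yg θ) 0 (Sum.elim w 0) (Sum.elim 0 (c • w)) :=
    uu_mem hs (b := 0) (mulVec_zero _) (by rw [un_mulVec]; simp [fromBlocks_mulVec]) (by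
      rw [un_mulVec]
      ext (i | i) <;> simp [fromBlocks_mulVec])
  rcases Dim4.QD.pair (p := p) _ c0 um (ll_mem hr (b := 0) (mulVec_zero _) r1 (by simpa using r2))
    with ⟨K0, k1, k2⟩ | h3
  swap
  · exact Or.inr ⟨h3.1, h3.2.1⟩
  left
  obtain ⟨U, hU, hle, rU, y, yU, hy⟩ := exists_lift p f0 hr (Units.ext (by
      rw [Units.val_pow_eq_pow_val]
      change (1 + nL θ) ^ p = 1
      rw [add_pow_char_of_commute _ (Commute.one_left _), one_pow,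
        pow_eq_zero_of_le (Fact.out : p.Prime).two_le (by rw [sq, mul_eq hθ hθ]), add_zero]))
    r1 ⟨1, r2⟩ ((k2 _).2 (K0.neg_mem (K0.inv_mem ((k1 _).1 um))))
  have hc := comm_of_p p hx hp hU (hle.trans inf_le_left) yU rU
  obtain ⟨a, ha, b, hb, γ, hγ, d, hd, e, hdet⟩ := mem_Yg.1 (hle yU).2
  have uθ : IsUnit θ := (isUnit_iff_isUnit_det θ).2 dθ.isUnit
  change _ * (1 + nL θ) = (1 + nL θ) * _ at hc
  rw [mul_add, add_mul, mul_one, one_mul, add_right_inj, e, fromBlocks_multiply,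
    fromBlocks_multiply, fromBlocks_inj] at hc
  simp only [Matrix.mul_zero, Matrix.zero_mul, zero_add, add_zero] at hc
  obtain rfl : b = 0 := uθ.mul_left_eq_zero.1 hc.1
  obtain rfl : d = a := uθ.mul_right_cancel (by
    rw [hc.2.2.1, (Algebra.commute_of_mem_adjoin_self ha).eq])
  rw [zero_mul, sub_zero] at hdet
  obtain rfl : d = 1 := by
    obtain ⟨n, hn⟩ := hU ⟨y, yU⟩
    have h1 := congrArg (fun x : U => (x.1 : M4 K)) hn
    simp only [SubmonoidClass.coe_pow, Units.val_pow_eq_pow_val, e, OneMemClass.coe_one,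
      Units.val_one] at h1
    have pw : ∀ k : ℕ, ∃ z, fromBlocks d 0 γ d ^ k = fromBlocks (d ^ k) 0 z (d ^ k) := fun k => by
      induction k with
      | zero => exact ⟨0, by simp⟩
      | succ k ih =>
        obtain ⟨z, hz⟩ := ih
        exact ⟨_, by rw [pow_succ, hz, fromBlocks_multiply]; simp [pow_succ]; rfl⟩
    obtain ⟨z, hz⟩ := pw (p ^ n)
    rw [hz, ← fromBlocks_one, fromBlocks_inj] at h1
    obtain ⟨k, hk⟩ := ((Fact.out : p.Prime).odd_of_ne_two hp).pow (n := n)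
    rw [← h1.1, hk, pow_succ, pow_mul, sq, hdet, one_pow, one_mul]
  obtain ⟨g, hg⟩ := (hle yU).1.1
  have hγ' : nL γ ∈ AL π (M0 K) := nL_mem (e ▸ hg)
  have hγw : γ *ᵥ w = -w := funext fun i => by
    have := congrFun hy (.inr i)
    rw [e] at this
    simpa [fromBlocks_mulVec, c0] using this
  have dγ := det_nL hx hM.1 hγ' fun e => w0 (by simpa [e] using hγw)
  have uγ : IsUnit γ := (isUnit_iff_isUnit_det γ).2 dγ.isUnit
  have tw := tr_of_mem ((Ga π).mul_mem hs.1 (un_mem hγ'))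
  have key := adj p hx hp (tw.big hL) hM (fun h => by
    refine w0 (neg_eq_zero.1 (elim_eq_zero.1 ((Submodule.eq_bot_iff _).1 h (Sum.elim 0 (-w))
      ⟨⟨Sum.elim w 0, rfl, ?_⟩, rfl⟩)).2)
    rw [toLin'_apply, Units.val_mul, ← mulVec_mulVec, un_mulVec, un_mulVec]
    ext (i | i) <;> simp [fromBlocks_mulVec, hγw]) _ (tw.al hN) _ hθ
  rw [cj_mul] at key
  change (1 + nU 1) * ((1 + nL γ) * nU 1 * (1 - nL γ)) * (1 - nU 1) * _ =
    _ * ((1 + nU 1) * ((1 + nL γ) * nU 1 * (1 - nL γ)) * (1 - nU 1)) at key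
  simp only [one_add_nU, one_sub_nU, one_add_nL, one_sub_nL, fromBlocks_multiply, fromBlocks_inj,
    Matrix.mul_zero, Matrix.zero_mul, Matrix.mul_one, Matrix.one_mul, zero_add, add_zero] at key
  have cm := (Algebra.commute_of_mem_adjoin_self hγ).eq
  have e2 : (2 : K) • (θ * (γ * (1 + γ))) = 0 := by
    have a1 : θ * (γ * (1 + γ)) = (γ * (1 + γ)) * θ := by
      rw [← mul_assoc, cm, mul_assoc, mul_add, mul_assoc, add_mul, cm]; simp
    rw [two_smul]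
    nth_rw 1 [a1]
    rw [← sub_eq_zero.2 key.2.2.1]
    noncomm_ring
  have e3 := uγ.mul_right_eq_zero.1 (uθ.mul_right_eq_zero.1
    ((smul_eq_zero.1 e2).resolve_left (two_ne_zero' K)))
  convert neg_mem hγ' using 1
  rw [fromBlocks_neg, eq_neg_of_add_eq_zero_left e3]
  simp

theorem inv0 (p : ℕ) [Fact p.Prime] [CharP K p] (hx : Cx π) (hp : p ≠ 2) (hL : Big π (L0 K))
    (hM : Big π (M0 K)) (hN : nU 1 ∈ AL π (L0 K)) : nL 1 ∈ AL π (M0 K) := by
  have : NeZero (2 : K) := ⟨two_ne p hp⟩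
  by_contra hc
  have key : ∀ θ : M2 K, nL θ ∈ AL π (M0 K) → nL θ ≠ 0 → ∀ (c : K) w, w ≠ 0 → θ *ᵥ w = c • w →
      (3 : K) = 0 ∧ c ^ 2 = -1 := fun θ hθ θ0 c w w0 hw =>
    (eigen p hx hp hL hM hN hθ (fun e => θ0 (nL_eq_zero.2 e)) w0 hw).resolve_left hc
  obtain ⟨-, C, hC, C', hC', c0, c0', h1, h2⟩ := hM
  obtain ⟨A, rfl⟩ := shapeM hC.2.1 hC.2.2
  obtain ⟨A', rfl⟩ := shapeM hC'.2.1 hC'.2.2
  have h3 : (3 : K) = 0 := by
    obtain ⟨c, hc⟩ := Module.End.exists_eigenvalue (toLin' A)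
    obtain ⟨w, hw⟩ := hc.exists_hasEigenvector
    exact (key A hC c0 c w hw.2 hw.apply_eq_smul).1
  have k := fun C hC c0 => Dim4.QD.eig _ fun c w w0 hw => (key C hC c0 c w w0 hw).2
  have ea : nL (A + A') = nL A + nL A' := by simp [fromBlocks_add]
  have es : nL (A - A') = nL A - nL A' := by
    simp [sub_eq_add_neg, fromBlocks_add, fromBlocks_neg]
  have a1 := k _ hC c0
  have a2 := k _ hC' c0'
  have a3 := k _ (ea ▸ add_mem hC hC') fun e => h2 (eq_neg_of_add_eq_zero_right (ea ▸ e))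
  have a4 := k _ (es ▸ sub_mem hC hC') fun e => h1 (sub_eq_zero.1 (es ▸ e)).symm
  simp only [det_fin_two, trace_fin_two, Matrix.add_apply, Matrix.sub_apply] at a1 a2 a3 a4
  exact one_ne_zero (α := K) (by linear_combination a3 + a4 - 2 * a1 - 2 * a2 - h3)

end QD

theorem inv_al (p : ℕ) [Fact p.Prime] [CharP K p] (hx : Cx π) (hp : p ≠ 2) {L M : Submodule K (I4 → K)}
    (hL : Big π L) (hM : Big π M) (h0 : L ⊓ M = ⊥) {N : M4 K} (hN : N ∈ AL π L) (hN0 : N ≠ 0) :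
    ∃ C ∈ AL π M, ∀ l ∈ L, N *ᵥ C *ᵥ l = l := by
  have : NeZero (2 : K) := ⟨QD.two_ne p hp⟩
  obtain ⟨B, e1, e2, e3⟩ := QD.frame hx hL.1 hM.1 h0 hN hN0
  have h := QD.inv0 p (hx.cb B) hp (e1 ▸ (QD.tr_cb B).big hL) (e2 ▸ (QD.tr_cb B).big hM)
    (e1 ▸ e3 ▸ (QD.tr_cb B).al hN)
  refine ⟨_, QD.mp_mp_inv B M ▸ e2 ▸ (QD.tr_cb' B).al h, fun l hl => ?_⟩
  have hl' := QD.mem_L0.1 (e1 ▸ QD.mp_mem (x := B⁻¹) hl)
  rw [← cj_cj_inv B N, e3, mulVec_mulVec, ← map_mul, QD.cjv]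
  conv_rhs => rw [← mulVec_inv_mulVec B l]
  congr 1
  generalize ((B⁻¹ : GL I4 K) : M4 K) *ᵥ l = v at hl' ⊢
  conv_rhs => rw [← Sum.elim_comp_inl_inr v]
  simp [fromBlocks_multiply, fromBlocks_mulVec, hl']

end CfsgLib.D4
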