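import Cfsg.Agent.Lib.D4.QD2

/-! No big planes.  See `plans/D4.md`. -/

set_option autoImplicit false
set_option linter.unusedSimpArgs false

namespace CfsgLib.D4

open Matrix Cfsg Cfsg.Geo CfsgLib.Asch
open scoped MatrixGroups commutatorElement

variable {G K : Type*} [Group G] [Finite G] [Field K] [IsAlgClosed K] {π : G →* PG4 K}

namespace QD

section Graph

omit [Finite G] [IsAlgClosed K]

/-- the upper unitriangular block matrix -/
def sG (D : M2 K) : GL I4 K := un (nU D) (by simp [fromBlocks_multiply])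

theorem coe_sG (D : M2 K) : (sG D : M4 K) = fromBlocks 1 D 0 1 := one_add_nU D

theorem cj_sG (D q : M2 K) :
    cj (sG D) (nL q) = fromBlocks (D * q) (-(D * q * D)) q (-(q * D)) := by
  change (1 + nU D) * nL q * (1 - nU D) = _
  simp [one_add_nU, one_sub_nU, fromBlocks_multiply]

/-- the graph of `D` -/
abbrev PD (D : M2 K) : Submodule K (I4 → K) := mp (sG D) (M0 K)

theorem mem_PD (D : M2 K) (u : Fin 2 → K) : (Sum.elim (D *ᵥ u) u : I4 → K) ∈ PD D :=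
  ⟨Sum.elim 0 u, rfl, by simp [coe_sG, fromBlocks_mulVec]⟩

theorem of_mem_PD {D : M2 K} {v : I4 → K} (h : v ∈ PD D) : ∃ u, v = Sum.elim (D *ᵥ u) u := by
  obtain ⟨w, hw, rfl⟩ := h
  exact ⟨w ∘ Sum.inr, by simp [coe_sG, fromBlocks_mulVec, mem_M0.1 hw]⟩

theorem disjPD (D : M2 K) : L0 K ⊓ PD D = ⊥ := (Submodule.eq_bot_iff _).2 fun v hv => by
  obtain ⟨u, rfl⟩ := of_mem_PD hv.2
  obtain rfl : u = 0 := mem_L0.1 hv.1
  simp

theorem PD_zero : PD (0 : M2 K) = M0 K := mp_eq fun v hv => by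
  rwa [coe_sG, fromBlocks_one, one_mulVec]

theorem mp_PD (B D : M2 K) : mp (sG B) (PD D) = PD (D + B) := by
  rw [mp, PD, mp, ← Submodule.map_comp, ← toLin'_mul, PD, mp]
  simp [coe_sG, fromBlocks_multiply]

theorem shapeP {D : M2 K} {X : M4 K} (h : X ∈ AL π (PD D)) : ∃ q, X = cj (sG D) (nL q) := by
  have := (tr_cb (sG D)).al h
  rw [mp_inv_mp] at this
  obtain ⟨q, hq⟩ := shapeM this.2.1 this.2.2
  exact ⟨q, by rw [← hq, cj_cj_inv]⟩

theorem m2_ext {A B : M2 K} (h : ∀ v, A *ᵥ v = B *ᵥ v) : A = B :=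
  Matrix.toLin'.injective (LinearMap.ext h)

theorem blk_elim (a b c d : M2 K) (u w : Fin 2 → K) : fromBlocks a b c d *ᵥ Sum.elim u w =
    Sum.elim (a *ᵥ u + b *ᵥ w) (c *ᵥ u + d *ᵥ w) := fromBlocks_mulVec a b c d _

theorem elim_inj {u w u' w' : Fin 2 → K} (h : (Sum.elim u w : I4 → K) = Sum.elim u' w') :
    u = u' ∧ w = w' :=
  ⟨funext fun i => congrFun h (.inl i), funext fun i => congrFun h (.inr i)⟩

end Graph

section Main

variable (p : ℕ) [Fact p.Prime] [CharP K p] (hx : Cx π) (hp : p ≠ 2) (hL : Big π (L0 K))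
  (hM : Big π (M0 K)) {B D q : M2 K}
include hx hp hL hM

theorem invA (h : nU B ∈ AL π (L0 K)) (h0 : B ≠ 0) : ∃ q, nL q ∈ AL π (M0 K) ∧ B * q = 1 := by
  obtain ⟨C, hC, e⟩ := inv_al p hx hp hL hM disj0 h fun e => h0 (nU_eq_zero.1 e)
  obtain ⟨q, rfl⟩ := shapeM hC.2.1 hC.2.2
  refine ⟨q, hC, m2_ext fun u => ?_⟩
  have := e (Sum.elim u 0) rfl
  simp only [blk_elim, cj_sG, zero_mulVec, mulVec_zero, add_zero, zero_add] at this
  simp only [mulVec_mulVec] at this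
  rw [one_mulVec, (elim_inj this).1]

theorem invA' (h : nL q ∈ AL π (M0 K)) (h0 : q ≠ 0) : ∃ B, nU B ∈ AL π (L0 K) ∧ q * B = 1 := by
  obtain ⟨C, hC, e⟩ := inv_al p hx hp hM hL (inf_comm (L0 K) _ ▸ disj0) h
    fun e => h0 (nL_eq_zero.1 e)
  obtain ⟨B, rfl⟩ := shapeL hC.2.1 hC.2.2
  refine ⟨B, hC, m2_ext fun u => ?_⟩
  have := e (Sum.elim 0 u) rfl
  simp only [blk_elim, cj_sG, zero_mulVec, mulVec_zero, add_zero, zero_add] at this
  simp only [mulVec_mulVec] at this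
  rw [one_mulVec, (elim_inj this).2]

theorem alP (hP : Big π (PD D)) {X : M4 K} (h : X ∈ AL π (PD D)) :
    ∃ q, nL q ∈ AL π (M0 K) ∧ X = cj (sG D) (nL q) := by
  obtain ⟨q, rfl⟩ := shapeP h
  refine ⟨q, ?_, rfl⟩
  by_cases q0 : q = 0
  · rw [nL_eq_zero.2 q0]; exact zero_mem
  obtain ⟨C, hC, e⟩ := inv_al p hx hp hP hL (inf_comm (L0 K) _ ▸ disjPD D) h
    (by simpa [nL_eq_zero] using q0)
  obtain ⟨B, rfl⟩ := shapeL hC.2.1 hC.2.2
  have e1 : q * B = 1 := m2_ext fun u => by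
    have := e _ (mem_PD D u)
    simp only [blk_elim, cj_sG, zero_mulVec, mulVec_zero, add_zero, zero_add] at this
    simp only [mulVec_mulVec] at this
    rw [one_mulVec, (elim_inj this).2]
  obtain ⟨q', h1, h2⟩ := invA p hx hp hL hM hC (by rintro rfl; simp at e1)
  rwa [← mul_one q, ← h2, ← mul_assoc, e1, one_mul]

theorem alP' (hP : Big π (PD D)) (h : nL q ∈ AL π (M0 K)) : cj (sG D) (nL q) ∈ AL π (PD D) := by
  by_cases q0 : q = 0
  · rw [nL_eq_zero.2 q0, map_zero]; exact zero_mem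
  obtain ⟨B, hB, e1⟩ := invA' p hx hp hL hM h q0
  obtain ⟨X, hX, e⟩ := inv_al p hx hp hL hP (disjPD D) hB (by
    rw [Ne, nU_eq_zero]; rintro rfl; simp at e1)
  obtain ⟨q', rfl⟩ := shapeP hX
  have h2 : B * q' = 1 := m2_ext fun u => by
    have := e (Sum.elim u 0) rfl
    simp only [blk_elim, cj_sG, zero_mulVec, mulVec_zero, add_zero, zero_add] at this
    simp only [mulVec_mulVec] at this
    rw [one_mulVec, (elim_inj this).1]
  rwa [← mul_one q, ← h2, ← mul_assoc, e1, one_mul]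

theorem meet (hP : Big π (PD D)) (h : PD D ⊓ M0 K ≠ ⊥) : D = 0 := by
  obtain ⟨-, C, hC, -, -, c0, -⟩ := id hM
  obtain ⟨q, rfl⟩ := shapeM hC.2.1 hC.2.2
  have e := adj p hx hp hP hM h _ (alP' p hx hp hL hM hP hC) _ hC
  have u : IsUnit q := (isUnit_iff_isUnit_det q).2
    (det_nL hx hM.1 hC fun e => c0 (nL_eq_zero.2 e)).isUnit
  simp only [cj_sG, fromBlocks_multiply, fromBlocks_inj, Matrix.mul_zero, Matrix.zero_mul, zero_add,
    add_zero] at e
  have : (2 : K) • (q * (D * q)) = 0 := by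
    rw [two_smul]
    nth_rw 1 [← e.2.2.1]
    noncomm_ring
  exact u.mul_left_eq_zero.1 (u.mul_right_eq_zero.1
    ((smul_eq_zero.1 this).resolve_left (two_ne p hp)))

theorem dcd (hP : Big π (PD D)) (h : nL q ∈ AL π (M0 K)) : nU (D * q * D) ∈ AL π (L0 K) := by
  by_cases h0 : D = 0 ∨ q = 0
  · rw [nU_eq_zero.2 (by rcases h0 with e | e <;> simp [e])]; exact zero_mem
  push Not at h0
  obtain ⟨C, hC, e⟩ := inv_al p hx hp hP hM (by_contra fun e => h0.1 (meet p hx hp hL hM hP e))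
    (alP' p hx hp hL hM hP h) (by simpa [nL_eq_zero] using h0.2)
  obtain ⟨c, rfl⟩ := shapeM hC.2.1 hC.2.2
  have e1 : -q * (D * (c * D)) = 1 := m2_ext fun u => by
    have := e _ (mem_PD D u)
    simp only [blk_elim, cj_sG, zero_mulVec, mulVec_zero, add_zero, zero_add] at this
    simp only [mulVec_mulVec] at this
    rw [one_mulVec, neg_mul, ← mul_assoc, ← neg_mul, (elim_inj this).2]
  obtain ⟨B, hB, e2⟩ := invA' p hx hp hL hM hC (by rintro rfl; simp at e1)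
  rw [mul_eq_one_comm, mul_assoc, mul_eq_one_comm, mul_assoc, mul_assoc] at e1
  have e3 : D * q * D = -B := by
    calc D * q * D = B * c * (D * q * D) := by rw [mul_eq_one_comm.1 e2, one_mul]
      _ = -(B * (c * (D * (-q * D)))) := by noncomm_ring
      _ = -B := by rw [e1, mul_one]
  convert neg_mem hB using 1
  rw [e3, fromBlocks_neg]
  simp

/-- the upper blocks -/
def Jr (π : G →* PG4 K) : AddSubgroup (M2 K) where
  carrier := {B | nU B ∈ AL π (L0 K)}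
  zero_mem' := by
    change nU 0 ∈ AL π (L0 K)
    rw [nU_eq_zero.2 rfl]; exact zero_mem
  add_mem' {a b} ha hb := by
    change nU (a + b) ∈ AL π (L0 K)
    convert add_mem ha hb using 1
    simp [fromBlocks_add]
  neg_mem' {a} ha := by
    change nU (-a) ∈ AL π (L0 K)
    convert neg_mem ha using 1
    simp [fromBlocks_neg]

omit hx hp hL hM [IsAlgClosed K] in
theorem finite_Jr : Finite (Jr π) := by
  have := finite_Ga π
  refine Finite.of_injective (fun B : Jr π => (⟨_, un_mem B.2⟩ : Ga π)) fun B B' e => ?_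
  have : 1 + nU B.1 = 1 + nU B'.1 := congrArg (fun x : Ga π => (x.1 : M4 K)) e
  exact Subtype.ext (fromBlocks_inj.1 (add_left_cancel this)).2.1

omit hM in
theorem graph (hN : nU 1 ∈ AL π (L0 K)) {P : Submodule K (I4 → K)} (hP : Big π P)
    (h : L0 K ⊓ P = ⊥) (h2 : Module.finrank K (M0 K) = 2) : ∃ D, P = PD D := by
  obtain ⟨Q, hQ, e⟩ := inv_al p hx hp hL hP h hN (by simp [nU_eq_zero])
  refine ⟨Q.toBlocks₁₁, (Submodule.eq_of_le_of_finrank_le (fun v hv => ?_)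
    (by rw [finrank_mp, hP.1, h2])).symm⟩
  obtain ⟨u, rfl⟩ := of_mem_PD hv
  convert hQ.2.1 (Sum.elim u 0) using 1
  have := e (Sum.elim u 0) rfl
  rw [← fromBlocks_toBlocks Q] at this
  conv_rhs => rw [← fromBlocks_toBlocks Q]
  ext (i | i)
  · simp [fromBlocks_mulVec]
  · simpa [fromBlocks_mulVec] using (congrFun this (.inl i)).symm

theorem plane (hN : nU 1 ∈ AL π (L0 K)) (hP : Big π (PD D)) : D ∈ Jr π := by
  have : NeZero (2 : K) := ⟨two_ne p hp⟩
  have := finite_Jr (π := π)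
  have h1 := inv0 p hx hp hL hM hN
  have a : D * 1 * D ∈ Jr π := dcd p hx hp hL hM hP h1
  have b : (D + 1) * 1 * (D + 1) ∈ Jr π :=
    dcd p hx hp hL hM (mp_PD 1 D ▸ (tr_of_mem (un_mem hN)).big hP) h1
  refine Dim4.QD.half _ ?_
  convert (Jr π).sub_mem ((Jr π).sub_mem b a) (show 1 ∈ Jr π from hN) using 1
  noncomm_ring

end Main

theorem trans (p : ℕ) [Fact p.Prime] [CharP K p] (hx : Cx π) (hp : p ≠ 2)
    {L M P : Submodule K (I4 → K)} (hL : Big π L) (hM : Big π M) (hP : Big π P) (h1 : L ⊓ M = ⊥)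
    (h2 : L ⊓ P = ⊥) (h3 : P ⊓ M ≠ ⊥) : P = M := by
  have : NeZero (2 : K) := ⟨two_ne p hp⟩
  obtain ⟨-, N, hN, -, -, h0, -⟩ := id hL
  obtain ⟨B, e1, e2, e3⟩ := frame hx hL.1 hM.1 h1 hN h0
  have hL' := e1 ▸ (tr_cb B).big hL
  have hM' := e2 ▸ (tr_cb B).big hM
  have hP' := (tr_cb B).big hP
  obtain ⟨D, hD⟩ := graph p (hx.cb B) hp hL' (e1 ▸ e3 ▸ (tr_cb B).al hN) hP'
    (e1 ▸ (mp_inf_eq_bot _).2 h2) hM'.1
  have := meet p (hx.cb B) hp hL' hM' (hD ▸ hP') (hD ▸ e2 ▸ fun e => h3 ((mp_inf_eq_bot _).1 e))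
  rw [this, PD_zero, ← e2] at hD
  rw [← mp_mp_inv B P, hD, mp_mp_inv]

omit [IsAlgClosed K] in
theorem mem_norm {S : Set G} {g : G} (h : ∀ s ∈ S, g * s * g⁻¹ ∈ Subgroup.closure S) :
    g ∈ Subgroup.normalizer (Subgroup.closure S : Set G) :=
  Subgroup.mem_normalizer_fintype fun _ hn =>
    Subgroup.closure_induction (p := fun x _ => g * x * g⁻¹ ∈ Subgroup.closure S) h (by simp)
      (fun a b _ _ ha hb => by simpa [mul_assoc] using Subgroup.mul_mem _ ha hb)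
      (fun a _ ha => by simpa [mul_assoc] using Subgroup.inv_mem _ ha) hn

theorem gen (p : ℕ) [Fact p.Prime] [CharP K p] (hx : Cx π) (hp : p ≠ 2)
    {L : Submodule K (I4 → K)} (hL : Big π L) : Subgroup.closure
      {g | ∃ P, Big π P ∧ (P = L ∨ L ⊓ P = ⊥) ∧ ∃ X ∈ AL π P, Rep π g (1 + X)} = ⊤ := by
  have := hx.simple
  obtain ⟨-, N, hN, -, -, h0, -⟩ := id hL
  obtain ⟨s, hs⟩ := hN.1
  have k : ∀ S : Set G, s ∈ S → Subgroup.normalizer (Subgroup.closure S : Set G) = ⊤ →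
      Subgroup.closure S = ⊤ := fun S h1 h2 =>
    (Subgroup.normalizer_eq_top_iff.1 h2).eq_bot_or_eq_top.resolve_left fun e => by
      have : s = 1 := Subgroup.mem_bot.1 (e ▸ Subgroup.subset_closure h1)
      subst this
      obtain ⟨c, -, hc⟩ := hs.scalar_of_one
      have e1 : N = (c - 1) • 1 := by rw [sub_smul, ← hc]; simp
      have e2 := mul_eq hN hN
      rw [e1, smul_mul_smul_comm, smul_eq_zero, mul_self_eq_zero] at e2
      exact h0 (by rw [e1, e2.resolve_right (by simp), zero_smul])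
  have top := k {g | ∃ P, Big π P ∧ ∃ X ∈ AL π P, Rep π g (1 + X)} ⟨L, hL, N, hN, hs⟩
    (eq_top_iff.2 fun g _ => mem_norm (by
      rintro t ⟨P, hP, X, hX, e⟩
      obtain ⟨x, hx⟩ := ProjGenLinGroup.mk_surjective (π g)
      have hg := rep_of_eq hx.symm
      refine Subgroup.subset_closure ⟨_, (tr_of_rep hg).big hP, _, (tr_of_rep hg).al hX, ?_⟩
      rw [← map_one (cj x), ← map_add]
      exact (hg.mul e).mul (hg.inv' x.mul_inv)))
  refine k _ ⟨L, hL, Or.inl rfl, N, hN, hs⟩ (eq_top_iff.2 (top ▸ (Subgroup.closure_le _).2 ?_))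
  rintro t ⟨Q, hQ, Y, hY, e⟩
  refine mem_norm ?_
  rintro g ⟨P, hP, hP', X, hX, e'⟩
  have hg := Subgroup.subset_closure (k := {g | ∃ P, Big π P ∧ (P = L ∨ L ⊓ P = ⊥) ∧
    ∃ X ∈ AL π P, Rep π g (1 + X)}) ⟨P, hP, hP', X, hX, e'⟩
  by_cases hc : Q = L ∨ L ⊓ Q = ⊥
  · have ht := Subgroup.subset_closure (k := {g | ∃ P, Big π P ∧ (P = L ∨ L ⊓ P = ⊥) ∧
      ∃ X ∈ AL π P, Rep π g (1 + X)}) ⟨Q, hQ, hc, Y, hY, e⟩
    exact Subgroup.mul_mem _ (Subgroup.mul_mem _ ht hg) (Subgroup.inv_mem _ ht)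
  push Not at hc
  have h1 : P ⊓ Q ≠ ⊥ := by
    rcases hP' with rfl | hP'
    · exact hc.2
    · exact fun h => hc.1 (trans p hx hp hP hL hQ (inf_comm L P ▸ hP') h (inf_comm L Q ▸ hc.2))
  have h2 := adj p hx hp hP hQ h1 X hX Y hY
  rwa [e.commute hx.inj e' (by rw [add_mul, add_mul, mul_add, mul_add, mul_add, mul_add, h2]; simp; abel),
    mul_inv_cancel_right]

theorem not_big0 (p : ℕ) [Fact p.Prime] [CharP K p] (hx : Cx π) (hp : p ≠ 2) (hL : Big π (L0 K))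
    (hM : Big π (M0 K)) (hN : nU 1 ∈ AL π (L0 K)) : False := by
  have : NeZero (2 : K) := ⟨two_ne p hp⟩
  have := finite_Jr (π := π)
  have jc := Dim4.jordan_comm (Jr π) hN (fun d hd => by
      have := dcd p hx hp hL hM (D := d) ((tr_of_mem (un_mem hd)).big hM) (inv0 p hx hp hL hM hN)
      rwa [mul_one] at this)
    fun d hd h0 => det_nU hx hL.1 hd h0
  obtain ⟨Z, z1, z2⟩ : ∃ Z : M2 K, (∀ c : K, Z ≠ c • 1) ∧ ∀ X ∈ Jr π, Z * X = X * Z := by
    by_cases h : ∀ X ∈ Jr π, ∃ c : K, X = c • 1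
    · refine ⟨!![0, 1; 0, 0], fun c e => by simpa using congrFun (congrFun e 0) 1, fun X hX => ?_⟩
      obtain ⟨c, hc⟩ := h X hX
      simp [hc]
    · push Not at h
      obtain ⟨Y, hY, h⟩ := h
      exact ⟨_, h, jc _ hY⟩
  obtain ⟨c, hc⟩ := hx.scalar (gen p hx hp hL) (Z := bd Z Z) (by
    rintro g ⟨P, hP, hP', X, hX, e⟩
    refine ⟨_, e, ?_⟩
    rw [mul_add, add_mul, mul_one, one_mul, add_right_inj]
    rcases hP' with rfl | hP'
    · obtain ⟨B, rfl⟩ := shapeL hX.2.1 hX.2.2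
      simp [fromBlocks_multiply, z2 B hX]
    obtain ⟨D, rfl⟩ := graph p hx hp hL hN hP hP' hM.1
    obtain ⟨q, hq, rfl⟩ := alP p hx hp hL hM hP hX
    have a : Commute Z D := z2 D (plane p hx hp hL hM hN hP)
    have b : Commute Z q := by
      by_cases q0 : q = 0
      · simp [q0]
      obtain ⟨B, hB, e⟩ := invA' p hx hp hL hM hq q0
      change Z * q = q * Z
      rw [← one_mul (Z * q), ← e, mul_assoc, ← mul_assoc B, ← z2 B hB, mul_assoc,
        mul_eq_one_comm.1 e, mul_one]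
    simp only [cj_sG, fromBlocks_multiply, Matrix.zero_mul, Matrix.mul_zero, add_zero, zero_add]
    rw [(a.mul_right b).eq, ((a.mul_right b).mul_right a).neg_right.eq, b.eq,
      (b.mul_right a).neg_right.eq])
  rw [← fromBlocks_one] at hc
  exact z1 c (bd_eq_smul.1 hc).1

end QD

theorem not_big (p : ℕ) [Fact p.Prime] [CharP K p] (hx : Cx π) (hp : p ≠ 2) (L : Submodule K (I4 → K)) : ¬ Big π L := by
  intro hL
  have : NeZero (2 : K) := ⟨QD.two_ne p hp⟩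
  obtain ⟨-, N, hN, -, -, h0, -⟩ := id hL
  by_cases h : ∃ M, Big π M ∧ L ⊓ M = ⊥
  · obtain ⟨M, hM, h⟩ := h
    obtain ⟨B, e1, e2, e3⟩ := QD.frame hx hL.1 hM.1 h hN h0
    exact QD.not_big0 p (hx.cb B) hp (e1 ▸ (QD.tr_cb B).big hL) (e2 ▸ (QD.tr_cb B).big hM)
      (e1 ▸ e3 ▸ (QD.tr_cb B).al hN)
  obtain ⟨c, hc⟩ := hx.scalar (QD.gen p hx hp hL) (Z := N) (by
    rintro g ⟨P, hP, rfl | hP', X, hX, e⟩
    · exact ⟨_, e, by rw [mul_add, add_mul, QD.mul_eq hN hX, QD.mul_eq hX hN, mul_one, one_mul]⟩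
    · exact absurd ⟨P, hP, hP'⟩ h)
  have e2 := QD.mul_eq hN hN
  rw [hc, smul_mul_smul_comm, smul_eq_zero, mul_self_eq_zero] at e2
  exact h0 (by rw [hc, e2.resolve_right (by simp), zero_smul])

theorem qd (p : ℕ) [Fact p.Prime] [CharP K p] (hx : Cx π) (hp : p ≠ 2) {g g' : G} {N N' : M4 K}
    (hg : Rep π g (1 + N)) (hg' : Rep π g' (1 + N')) (h1 : N * N = 0) (h2 : N' * N' = 0)
    (h3 : N * N' = 0) (h4 : N' * N = 0) (h0 : N ≠ 0) : N' = 0 ∨ N' = N ∨ N' = -N := by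
  have m : ∀ {X : M4 K}, N * X = 0 → ∀ v, X *ᵥ v ∈ LinearMap.ker (toLin' N) := fun e v => by
    simp [e]
  have a : N ∈ AL π (LinearMap.ker (toLin' N)) := ⟨⟨g, hg⟩, m h1, fun v hv => hv⟩
  have r : Module.finrank K (LinearMap.ker (toLin' N)) = 2 := by
    have a1 := LinearMap.finrank_range_add_finrank_ker (toLin' N)
    have a2 : Module.finrank K (LinearMap.range (toLin' N)) ≤
        Module.finrank K (LinearMap.ker (toLin' N)) :=
      Submodule.finrank_mono (by rintro _ ⟨v, rfl⟩; exact m h1 v)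
    have a3 : ¬ Module.finrank K (LinearMap.range (toLin' N)) ≤ 1 := fun e =>
      h0 (hx.eq_zero_of_rank h1 hg e)
    rw [Dim4.finrank_V4] at a1
    omega
  have b : N' ∈ AL π (LinearMap.ker (toLin' N)) := ⟨⟨g', hg'⟩, m h3, fun v hv => by
    obtain ⟨w, rfl⟩ := (QD.lag hx r a h0).2 v hv
    simp [h4]⟩
  have _ := h2
  by_contra! hc
  exact not_big p hx hp _ ⟨r, N, a, N', b, h0, hc⟩

end CfsgLib.D4
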