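import Cfsg.Agent.Lib.D4.Mono

/-! Transfer and reflections.  See `plans/D4.md`. -/

set_option autoImplicit false
set_option linter.unusedSectionVars false

namespace CfsgLib.D4

open Matrix Cfsg Cfsg.Geo CfsgLib.Asch
open scoped MatrixGroups commutatorElement

variable {G K : Type*} [Group G] [Finite G] [Field K] [IsAlgClosed K] {π : G →* PG4 K}

omit [IsAlgClosed K] in
theorem exists_refl_mem (hx : Cx π) (S : Sylow 2 G) (hr : ∃ r, Refl π r) :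
    ∃ r ∈ S, Refl π r := by
  obtain ⟨r, hr⟩ := hr
  have : IsPGroup 2 (Subgroup.zpowers r) := by
    rintro ⟨_, i, rfl⟩
    exact ⟨1, Subtype.ext (by
      simp only [SubgroupClass.coe_pow, OneMemClass.coe_one, pow_one]
      rw [← zpow_natCast, ← _root_.zpow_mul, mul_comm, _root_.zpow_mul, zpow_natCast,
        hr.sq hx.inj, _root_.one_zpow])⟩
  obtain ⟨T, hT⟩ := this.exists_le_sylow
  obtain ⟨g, rfl⟩ := MulAction.exists_smul_eq G T S
  exact ⟨g * r * g⁻¹, Subgroup.smul_mem_pointwise_smul _ (MulAut.conj g) _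
    (hT (Subgroup.mem_zpowers r)), hr.conj g⟩

omit [IsAlgClosed K] in
theorem tc (hx : Cx π) (S : Sylow 2 G) {A : Type*} [CommGroup A] (φ : S →* A) {a : A} (ha : a ≠ 1)
    (h2 : (2 : K) ≠ 0) (hr : ∃ r, Refl π r) (h : ∀ s : S, Refl π s → φ s = a) : False := by
  classical
  obtain ⟨r, rS, hr⟩ := exists_refl_mem hx S hr
  have r2 := hr.sq hx.inj
  have a2 : a ^ 2 = 1 := by
    rw [← h ⟨r, rS⟩ hr, ← map_pow, ← map_one φ]; exact congrArg φ (Subtype.ext r2)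
  have h1 : MonoidHom.transfer (H := (S : Subgroup G)) φ r = 1 :=
    Abelianization.commutator_subset_ker _ (hx.perfect ▸ Subgroup.mem_top r)
  haveI := Fintype.ofFinite (Quotient (MulAction.orbitRel (Subgroup.zpowers r) (G ⧸ (S : Subgroup G))))
  rw [MonoidHom.transfer_eq_prod_quotient_orbitRel_zpowers_quot,
    Finset.prod_congr rfl (g := fun q => a ^ Function.minimalPeriod (r • ·) q.out),
    Finset.prod_pow_eq_pow_sum, ← Subgroup.index_eq_sum_minimalPeriod] at h1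
  · obtain ⟨k, hk⟩ : Odd (S : Subgroup G).index :=
      Nat.not_even_iff_odd.1 fun e => S.not_dvd_index e.two_dvd
    rw [hk, pow_succ, pow_mul, a2, one_pow, one_mul] at h1
    exact ha h1
  · intro q _
    generalize_proofs _ h3
    generalize Function.minimalPeriod (r • ·) q.out = n at h3 ⊢
    rcases Nat.even_or_odd' n with ⟨k, rfl | rfl⟩
    · rw [pow_mul a, a2, one_pow, ← map_one φ]
      exact congrArg φ (Subtype.ext (by simp [pow_mul, r2]))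
    · rw [pow_succ a, pow_mul a, a2, one_pow, one_mul]
      refine h _ ?_
      simpa [pow_succ, pow_mul, r2, ← pow_two] using hr.conj q.out.out⁻¹

namespace TCp

variable {S : Sylow 2 G} {g h r w z : G}

theorem neg_ne (h2 : (2 : K) ≠ 0) : (-1 : K) ≠ 1 := fun e => h2 (by linear_combination -e)

/-- characters given by relations -/
theorem tc1 (hx : Cx π) (h2 : (2 : K) ≠ 0) (hr : ∃ r, Refl π r) (S : Sylow 2 G) (R : G → K → Prop)
    (ex : ∀ g ∈ S, ∃ a, a ≠ 0 ∧ R g a) (un : ∀ g a b, R g a → R g b → a = b)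
    (mul : ∀ g h a b, R g a → R h b → R (g * h) (a * b))
    (re : ∀ g ∈ S, Refl π g → R g (-1)) : False := by
  choose f f0 hf using fun g : S => ex g g.2
  refine tc hx S (MonoidHom.mk' (fun g => Units.mk0 (f g) (f0 g)) fun a b =>
    Units.ext (un _ _ _ (hf (a * b)) (mul _ _ _ _ (hf a) (hf b)))) (a := -1)
    (fun e => neg_ne h2 (by simpa using congrArg Units.val e)) h2 hr fun s hs =>
    Units.ext (un _ _ _ (hf s) (re s s.2 hs))

/-- extension of an invariant character -/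
theorem tc2 (hx : Cx π) (h2 : (2 : K) ≠ 0) (hr : ∃ r, Refl π r) (hz : z ^ 2 = 1)
    (zc : ∀ g ∈ S, g * z = z * g) (wS : w ∈ S) (hw : Anti π w z) (R : G → K → Prop)
    (ex : ∀ g ∈ S, Com π g z → ∃ a, a ≠ 0 ∧ R g a) (un : ∀ g a b, R g a → R g b → a = b)
    (mul : ∀ g h a b, R g a → R h b → R (g * h) (a * b))
    (cj : ∀ g a, R g a → R (w * g * w⁻¹) a) (re : ∀ g ∈ S, Refl π g → R g (-1)) : False := by
  obtain ⟨b, b0, hb⟩ := ex _ (mul_mem wS wS) (hw.mul_anti hw)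
  obtain ⟨ω, hω⟩ := IsAlgClosed.exists_pow_nat_eq b two_pos
  have ω0 : ω ≠ 0 := by rintro rfl; exact b0 (by simpa using hω.symm)
  refine tc1 hx h2 hr S (fun g a => (Com π g z ∧ R g a) ∨ (Anti π g z ∧ ∃ c, R (g * w⁻¹) c ∧
    a = c * ω)) (fun g hg => ?_) ?_ ?_ fun g hg hr =>
      .inl ⟨(hr.com hx.inj h2 (zc g hg).symm).symm, re g hg hr⟩
  · rcases com_or_anti (π := π) hz (zc g hg) with c | c
    · obtain ⟨a, a0, ha⟩ := ex g hg c
      exact ⟨a, a0, .inl ⟨c, ha⟩⟩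
    · obtain ⟨a, a0, ha⟩ := ex _ (mul_mem hg (inv_mem wS)) (c.mul_anti hw.inv)
      exact ⟨_, mul_ne_zero a0 ω0, .inr ⟨c, a, ha, rfl⟩⟩
  · rintro g a b (⟨c, h⟩ | ⟨c, x, h, rfl⟩) (⟨d, k⟩ | ⟨d, y, k, rfl⟩)
    exacts [un _ _ _ h k, absurd d (c.not_anti h2), absurd c (d.not_anti h2), by rw [un _ _ _ h k]]
  · rintro g g' a a' (⟨c, h⟩ | ⟨c, x, h, rfl⟩) (⟨d, k⟩ | ⟨d, y, k, rfl⟩)
    · exact .inl ⟨c.mul d, mul _ _ _ _ h k⟩
    · exact .inr ⟨c.mul_anti d, _, mul_assoc g _ _ ▸ mul _ _ _ _ h k, by ring⟩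
    · refine .inr ⟨c.mul_com d, x * a', ?_, by ring⟩
      convert mul _ _ _ _ h (cj _ _ k) using 1
      group
    · refine .inl ⟨c.mul_anti d, ?_⟩
      convert mul _ _ _ _ (mul _ _ _ _ h (cj _ _ k)) hb using 1
      · group
      · rw [← hω]; ring

theorem mon_mul (σ τ : Equiv.Perm I4) (d e : I4 → K) :
    mon σ d * mon τ e = mon (σ * τ) fun j => d (τ j) * e j := by
  ext i j
  simp [mon, mul_apply]
  rfl

theorem det_refl {v φ : I4 → K} (h : φ ⬝ᵥ v = -2) : (1 + vecMulVec v φ).det = -1 := by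
  rw [vecMulVec_eq Unit, det_one_add_replicateCol_mul_replicateRow, h]
  norm_num

end TCp

open TCp

theorem fin12 (hx : Cx π) (h2 : (2 : K) ≠ 0) (hr : ∃ r, Refl π r) (S : Sylow 2 G)
    (h : ∀ g ∈ S, ∃ (σ : Equiv.Perm I4) (d : I4 → K), (∀ i, d i ^ 12 = 1) ∧ Rep π g (mon σ d)) :
    False := by
  have d0 : ∀ {x : K}, x ^ 12 = 1 → x ≠ 0 := by rintro _ e rfl; simp at e
  refine tc1 hx h2 hr S (fun g a => ∃ σ d, (∀ i, d i ^ 12 = 1) ∧ Rep π g (mon σ d) ∧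
    a = (mon σ d).det ^ 3) (fun g hg => ?_) ?_ ?_ fun g hg ⟨v, φ, e, hg'⟩ => ?_
  · obtain ⟨σ, d, hd, hM⟩ := h g hg
    exact ⟨_, pow_ne_zero _ hM.det_ne, σ, d, hd, hM, rfl⟩
  · rintro g _ _ ⟨σ, d, hd, hM, rfl⟩ ⟨τ, e, he, hN, rfl⟩
    obtain ⟨c, -, hc⟩ := hM.unique hN
    have h1 := congrFun (congrFun hc (τ (.inl 0))) (.inl 0)
    simp only [mon, of_apply, if_true, Matrix.smul_apply, smul_eq_mul] at h1
    split_ifs at h1
    · have h3 := he (.inl 0)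
      rw [h1, mul_pow, hd, mul_one] at h3
      rw [hc, det_smul, mul_pow, ← pow_mul]
      simp [h3]
    · exact absurd (by simpa using h1) (d0 (he _))
  · rintro g g' _ _ ⟨σ, d, hd, hM, rfl⟩ ⟨τ, e, he, hN, rfl⟩
    exact ⟨σ * τ, _, fun i => by rw [mul_pow, hd, he, one_mul], (hM.mul hN).congr (mon_mul ..),
      by rw [← mon_mul, det_mul, mul_pow]⟩
  · obtain ⟨σ, d, hd, hM⟩ := h g hg
    refine ⟨σ, d, hd, hM, ?_⟩
    obtain ⟨c, c0, hc⟩ := hg'.unique hM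
    have key : ∀ i j, (if i = σ j then d j else 0) = c * ((if i = j then 1 else 0) + v i * φ j) :=
      fun i j => by simpa [mon, one_apply, vecMulVec_apply] using congrFun (congrFun hc i) j
    obtain ⟨i, hi⟩ : ∃ i, v i * φ i = 0 := by
      by_contra! hn
      have h0 : ∀ i, i ≠ .inl 0 → i = σ (.inl 0) := fun i hi => by
        by_contra e
        have := key i (.inl 0)
        rw [if_neg e, if_neg hi, zero_add] at this
        exact mul_ne_zero c0 (mul_ne_zero (left_ne_zero_of_mul (hn i))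
          (right_ne_zero_of_mul (hn _))) this.symm
      exact absurd ((h0 (.inl 1) (by decide)).trans (h0 (.inr 0) (by decide)).symm) (by decide)
    have h1 := key i i
    rw [hi, if_pos rfl, add_zero, mul_one] at h1
    split_ifs at h1
    · rw [hc, det_smul, det_refl e, mul_pow, ← pow_mul, ← h1]
      simp [hd]; norm_num
    · exact absurd h1.symm c0

namespace TCp

variable {S : Sylow 2 G} {g h r w z : G}

theorem a1 (hx : Cx π) (h2 : (2 : K) ≠ 0) (zc : ∀ g ∈ S, g * z = z * g) : ¬ Refl π z := by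
  intro hz
  have hz' := hz
  obtain ⟨v, φ, e, hZ⟩ := hz'
  have v0 : v ≠ 0 := by rintro rfl; exact h2 (by simpa using e.symm)
  have eig : ∀ g ∈ S, ∀ M, Rep π g M → ∃ a : K, a ≠ 0 ∧ M *ᵥ v = a • v := fun g hg M hM => by
    have h1 := congrArg (· *ᵥ v) ((hz.com hx.inj h2 (zc g hg)).eq hM hZ)
    simp only [mul_add, add_mul, mul_one, one_mul, add_mulVec, add_right_inj, ← mulVec_mulVec,
      vecMulVec_mulVec, e, mulVec_smul, op_smul_eq_smul] at h1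
    have h3 : M *ᵥ v = ((-2)⁻¹ * φ ⬝ᵥ M *ᵥ v) • v := by
      rw [mul_smul, ← h1, smul_smul, inv_mul_cancel₀ (neg_ne_zero.2 h2), one_smul]
    refine ⟨_, fun e => v0 ?_, h3⟩
    rw [e, zero_smul] at h3
    exact eq_zero_of_mulVec_eq_zero hM.det_ne h3
  refine tc1 hx h2 ⟨z, hz⟩ S (fun g a => ∃ M, Rep π g M ∧ M *ᵥ v = v ∧ a = M.det) (fun g hg => ?_)
    ?_ ?_ fun g hg hr => ?_
  · obtain ⟨M, hM⟩ := exists_rep π g
    obtain ⟨a, a0, ha⟩ := eig g hg M hM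
    have := hM.smul (inv_ne_zero a0)
    exact ⟨_, this.det_ne, _, this, by rw [smul_mulVec, ha, smul_smul, inv_mul_cancel₀ a0, one_smul],
      rfl⟩
  · rintro g _ _ ⟨M, hM, e1, rfl⟩ ⟨N, hN, e2, rfl⟩
    obtain ⟨c, -, rfl⟩ := hM.unique hN
    rw [smul_mulVec, e1] at e2
    rw [smul_left_injective K v0 (e2.trans (one_smul K v).symm), one_smul]
  · rintro g g' _ _ ⟨M, hM, e1, rfl⟩ ⟨N, hN, e2, rfl⟩
    exact ⟨_, hM.mul hN, by rw [← mulVec_mulVec, e2, e1], (det_mul _ _).symm⟩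
  · obtain ⟨M, hM, m2, -, hd⟩ := hr.exists_rep
    obtain ⟨a, a0, ha⟩ := eig g hg M hM
    have h1 : (a * a) • v = v := by
      rw [mul_smul, ← ha, ← mulVec_smul, ← ha, mulVec_mulVec, m2, one_mulVec]
    have h3 : a * a = 1 := smul_left_injective K v0 (h1.trans (one_smul K v).symm)
    refine ⟨_, hM.smul a0, by rw [smul_mulVec, ha, smul_smul, h1], ?_⟩
    rw [det_smul, hd]
    simp only [Fintype.card_sum, Fintype.card_fin]
    linear_combination (a ^ 2 + 1) * h3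

theorem det2_smul (c : K) (A : M2 K) : (c • A).det = c ^ 2 * A.det := by simp

theorem a2 (hx : Cx π) (h2 : (2 : K) ≠ 0) (hr : ∃ r, Refl π r) (z2 : z ^ 2 = 1) (z1 : z ≠ 1)
    (zc : ∀ g ∈ S, g * z = z * g) : ∃ w ∈ S, Anti π w z := by
  by_contra! hn
  obtain ⟨B, hz⟩ := inv_nf hx.inj h2 z2 z1 (a1 hx h2 zc)
  have hc : ∀ g ∈ S, Com (cb π B) g z := fun g hg =>
    (com_cb B).2 ((com_or_anti z2 (zc g hg)).resolve_right (hn g hg))
  have hd : ∀ {g : G} {A C : M2 K}, Rep (cb π B) g (bd A C) → A.det ≠ 0 ∧ C.det ≠ 0 := fun {_ A C} h =>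
    mul_ne_zero_iff.1 (det_bd A C ▸ h.det_ne)
  refine tc1 (hx.cb B) h2 (by simpa only [refl_cb] using hr) S
    (fun g a => ∃ A C, Rep (cb π B) g (bd A C) ∧ a = A.det / C.det) (fun g hg => ?_) ?_ ?_
    fun g hg hr => ?_
  · obtain ⟨A, C, h⟩ := (mem_C0_iff h2 hz).2 (hc g hg)
    exact ⟨_, div_ne_zero (hd h).1 (hd h).2, A, C, h, rfl⟩
  · rintro g _ _ ⟨A, C, h, rfl⟩ ⟨A', C', h', rfl⟩
    obtain ⟨c, c0, e⟩ := h.unique h'
    obtain ⟨rfl, rfl⟩ := bd_eq_smul.1 e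
    rw [det2_smul, det2_smul, mul_div_mul_left _ _ (pow_ne_zero 2 c0)]
  · rintro g g' _ _ ⟨A, C, h, rfl⟩ ⟨A', C', h', rfl⟩
    exact ⟨_, _, (h.mul h').congr (bd_mul ..), by rw [det_mul, det_mul, div_mul_div_comm]⟩
  · obtain ⟨A, -, e, h | h⟩ := refl_blocks h2 hz hr (hc g hg)
    · exact ⟨_, _, h, by simp [e]⟩
    · exact ⟨_, _, h, by simp [e]⟩

/-- the sign of a monomial matrix -/
def Sg (A : M2 K) (s : K) : Prop :=
  (s = 1 ∧ A 0 1 = 0 ∧ A 1 0 = 0) ∨ (s = -1 ∧ A 0 0 = 0 ∧ A 1 1 = 0)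

section Sg

variable {A B : M2 K} {s t : K}

theorem exists_sg (h : DA A) : ∃ s, Sg A s :=
  h.elim (fun h => ⟨1, .inl ⟨rfl, h⟩⟩) fun h => ⟨-1, .inr ⟨rfl, h⟩⟩

theorem Sg.pm (h : Sg A s) : s = 1 ∨ s = -1 := h.imp And.left And.left

theorem Sg.sq (h : Sg A s) : s * s = 1 := by rcases h.pm with rfl | rfl <;> simp

theorem Sg.smul (h : Sg A s) (c : K) : Sg (c • A) s := by
  rcases h with ⟨rfl, a, b⟩ | ⟨rfl, a, b⟩ <;> simp [Sg, a, b]

theorem Sg.mul (h : Sg A s) (k : Sg B t) : Sg (A * B) (s * t) := by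
  rcases h with ⟨rfl, a, b⟩ | ⟨rfl, a, b⟩ <;> rcases k with ⟨rfl, c, d⟩ | ⟨rfl, c, d⟩ <;>
    simp [Sg, mul_apply, Fin.sum_univ_two, a, b, c, d]

theorem Sg.un (hA : A.det ≠ 0) (h : Sg A s) (k : Sg A t) : s = t := by
  rcases h with ⟨rfl, a, b⟩ | ⟨rfl, a, b⟩ <;> rcases k with ⟨rfl, c, d⟩ | ⟨rfl, c, d⟩ <;>
    first | rfl | exact absurd (by simp [det_fin_two, a, b, c, d]) hA

theorem sg_one : Sg (1 : M2 K) 1 := .inl ⟨rfl, by simp, by simp⟩

theorem Sg.comm (h2 : (2 : K) ≠ 0) (h : Sg A 1) (k : Sg B 1) : A * B = B * A := by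
  rcases h with ⟨-, a, b⟩ | ⟨e, -⟩
  swap
  · exact absurd e.symm (neg_ne h2)
  rcases k with ⟨-, c, d⟩ | ⟨e, -⟩
  swap
  · exact absurd e.symm (neg_ne h2)
  ext i j
  fin_cases i <;> fin_cases j <;> simp [mul_apply, Fin.sum_univ_two, a, b, c, d, mul_comm]

theorem Sg.mul_self (h2 : (2 : K) ≠ 0) (h : Sg A (-1)) : A * A = (-A.det) • 1 := by
  rcases h with ⟨e, -⟩ | ⟨-, a, b⟩
  · exact absurd e (neg_ne h2)
  ext i j
  fin_cases i <;> fin_cases j <;> simp [mul_apply, Fin.sum_univ_two, det_fin_two, a, b, mul_comm]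

end Sg

/-- the three characters of the stabiliser of the blocks -/
def Rr (π : G →* PG4 K) (g : G) (ρ s t : K) : Prop :=
  ∃ A B, Rep π g (bd A B) ∧ ρ = A.det / B.det ∧ Sg A s ∧ Sg B t

theorem det_ne {A B : M2 K} (h : Rep π g (bd A B)) : A.det ≠ 0 ∧ B.det ≠ 0 :=
  mul_ne_zero_iff.1 (det_bd A B ▸ h.det_ne)

section Rr

variable {ρ s t ρ' s' t' : K}

theorem Rr.ne (h : Rr π g ρ s t) : ρ ≠ 0 := by
  obtain ⟨A, B, h, rfl, -⟩ := h
  exact div_ne_zero (det_ne h).1 (det_ne h).2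

theorem Rr.un (h : Rr π g ρ s t) (k : Rr π g ρ' s' t') : ρ = ρ' ∧ s = s' ∧ t = t' := by
  obtain ⟨A, B, h, rfl, a, b⟩ := h
  obtain ⟨C, D, k, rfl, c, d⟩ := k
  obtain ⟨x, x0, e⟩ := h.unique k
  obtain ⟨rfl, rfl⟩ := bd_eq_smul.1 e
  exact ⟨by rw [det2_smul, det2_smul, mul_div_mul_left _ _ (pow_ne_zero 2 x0)],
    (a.smul x).un (det_ne k).1 c, (b.smul x).un (det_ne k).2 d⟩

theorem Rr.mul {g' : G} (h : Rr π g ρ s t) (k : Rr π g' ρ' s' t') :
    Rr π (g * g') (ρ * ρ') (s * s') (t * t') := by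
  obtain ⟨A, B, h, rfl, a, b⟩ := h
  obtain ⟨C, D, k, rfl, c, d⟩ := k
  exact ⟨_, _, (h.mul k).congr (bd_mul ..), by rw [det_mul, det_mul, div_mul_div_comm], a.mul c,
    b.mul d⟩

theorem Rr.conj {U V : M2 K} (hw : Rep π w (ad U V)) (hU : DA U) (hV : DA V) (h : Rr π g ρ s t)
    (k : Rr π (w * g * w⁻¹) ρ' s' t') : ρ' * ρ = 1 ∧ s' = t ∧ t' = s := by
  obtain ⟨A, B, h, rfl, a, b⟩ := h
  obtain ⟨C, D, k, rfl, c, d⟩ := k
  obtain ⟨u, hu⟩ := exists_sg hU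
  obtain ⟨v, hv⟩ := exists_sg hV
  have h1 := k.mul hw
  rw [inv_mul_cancel_right] at h1
  obtain ⟨x, x0, e⟩ := (hw.mul h).unique h1
  simp only [fromBlocks_multiply, fromBlocks_smul, fromBlocks_inj, Matrix.mul_zero, Matrix.zero_mul,
    add_zero, zero_add, smul_zero, true_and, and_true] at e
  have hw0 := hw.det_ne
  have U0 : U.det ≠ 0 := fun e => by
    obtain ⟨y, y0, hy⟩ := exists_mulVec_eq_zero_iff.2 e
    exact hw0 (exists_mulVec_eq_zero_iff.1 ⟨Sum.elim 0 y, fun e => y0 (congrArg (· ∘ Sum.inr) e), by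
      simp [fromBlocks_mulVec, hy]⟩)
  have V0 : V.det ≠ 0 := fun e => by
    obtain ⟨y, y0, hy⟩ := exists_mulVec_eq_zero_iff.2 e
    exact hw0 (exists_mulVec_eq_zero_iff.1 ⟨Sum.elim y 0, fun e => y0 (congrArg (· ∘ Sum.inl) e), by
      simp [fromBlocks_mulVec, hy]⟩)
  have e1 := congrArg det e.1
  have e2 := congrArg det e.2
  rw [det2_smul, det_mul, det_mul] at e1 e2
  have e3 : C.det = x ^ 2 * B.det := mul_right_cancel₀ U0 (by linear_combination e1)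
  have e4 : D.det = x ^ 2 * A.det := mul_right_cancel₀ V0 (by linear_combination e2)
  have f1 := (c.mul hu).un (by rw [det_mul]; exact mul_ne_zero (det_ne k).1 U0)
    (e.1 ▸ (hu.mul b).smul x)
  have f2 := (d.mul hv).un (by rw [det_mul]; exact mul_ne_zero (det_ne k).2 V0)
    (e.2 ▸ (hv.mul a).smul x)
  refine ⟨?_, by linear_combination u * f1 - (s' - t) * hu.sq,
    by linear_combination v * f2 - (t' - s) * hv.sq⟩
  have := (det_ne h).1
  have := (det_ne h).2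
  rw [e3, e4]; field_simp

theorem Rr.com (h2 : (2 : K) ≠ 0) {g' : G} (h : Rr π g ρ 1 1) (k : Rr π g' ρ' 1 1) : Com π g g' := by
  obtain ⟨A, B, h, -, a, b⟩ := h
  obtain ⟨C, D, k, -, c, d⟩ := k
  exact ⟨_, _, h, k, by rw [bd_mul, bd_mul, a.comm h2 c, b.comm h2 d]⟩

theorem Rr.sq (h2 : (2 : K) ≠ 0) (h : Rr π g ρ (-1) (-1)) : Rep π (g * g) (bd (ρ • 1) 1) := by
  obtain ⟨A, B, h, rfl, a, b⟩ := h
  have := (det_ne h).2
  refine ((h.mul h).smul (inv_ne_zero (neg_ne_zero.2 this))).congr ?_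
  rw [bd_mul, a.mul_self h2, b.mul_self h2, eq_comm, bd_eq_smul, smul_smul, smul_smul,
    inv_mul_cancel₀ (neg_ne_zero.2 this), one_smul]
  exact ⟨by congr 1; field_simp, rfl⟩

end Rr

theorem refl_mul (h2 : (2 : K) ≠ 0) (hz : Rep π z zz) (hr : Refl π r) (hc : Com π r z) :
    Refl π (r * z) := by
  obtain ⟨A, a, e, h | h⟩ := refl_blocks h2 hz hr hc
  · exact refl_of_left h2 (A := -A) (by simpa using a) (by simpa [det_neg] using e)
      (((h.mul hz).smul (neg_ne_zero.2 one_ne_zero)).congr (by simp [bd_mul, fromBlocks_neg]))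
  · exact refl_of_right h2 (A := -A) (by simpa using a) (by simpa [det_neg] using e)
      ((h.mul hz).congr (by simp [bd_mul]))

theorem a3 (hx : Cx π) (h2 : (2 : K) ≠ 0) (hr : ∃ r, Refl π r) (z2 : z ^ 2 = 1) (z1 : z ≠ 1)
    (zc : ∀ g ∈ S, g * z = z * g) (hz : Rep π z zz)
    (hm : ∀ g ∈ S, ∃ A B, DA A ∧ DA B ∧ (Rep π g (bd A B) ∨ Rep π g (ad A B))) :
    ∃ c ∈ Zc π z, c ^ 2 = z := by
  by_contra h4
  obtain ⟨w, wS, hw⟩ := a2 hx h2 hr z2 z1 zc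
  have ex : ∀ g ∈ S, Com π g z → ∃ ρ s t, Rr π g ρ s t := fun g hg hc => by
    obtain ⟨A, B, a, b, h | h⟩ := hm g hg
    · obtain ⟨s, hs⟩ := exists_sg a
      obtain ⟨t, ht⟩ := exists_sg b
      exact ⟨_, s, t, A, B, h, rfl, hs, ht⟩
    · exact absurd ((anti_iff h2 hz).2 ⟨_, _, h⟩) (hc.not_anti h2)
  have cm : ∀ {g ρ s t}, Rr π g ρ s t → Com π g z := fun ⟨A, B, h, _⟩ =>
    (mem_C0_iff h2 hz).1 ⟨A, B, h⟩
  have cS : ∀ g ∈ S, w * g * w⁻¹ ∈ S := fun g hg => mul_mem (mul_mem wS hg) (inv_mem wS)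
  have cj : ∀ g ∈ S, ∀ {ρ s t}, Rr π g ρ s t → Rr π (w * g * w⁻¹) ρ⁻¹ t s := fun g hg ρ s t h => by
    obtain ⟨ρ', s', t', k⟩ := ex _ (cS g hg) ((hw.mul_com (cm h)).mul_anti hw.inv)
    obtain ⟨U, V, a, b, e | e⟩ := hm w wS
    · exact absurd hw (((mem_C0_iff h2 hz).1 ⟨_, _, e⟩).not_anti h2)
    obtain ⟨e1, rfl, rfl⟩ := Rr.conj e a b h k
    rwa [eq_inv_of_mul_eq_one_left e1] at k
  have rc : ∀ g ∈ S, Refl π g → Com π g z := fun g hg hr =>
    (hr.com hx.inj h2 (zc g hg).symm).symm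
  have re : ∀ g ∈ S, Refl π g → ∃ s t, Rr π g (-1) s t ∧ (s = 1 ∨ t = 1) := fun g hg hr => by
    obtain ⟨ρ, s, t, A, B, h, rfl, a, b⟩ := ex g hg (rc g hg hr)
    obtain ⟨C, -, e, k | k⟩ := refl_blocks h2 hz hr (rc g hg hr) <;>
      obtain ⟨x, x0, e1⟩ := k.unique h <;> obtain ⟨rfl, rfl⟩ := bd_eq_smul.1 e1
    · exact ⟨s, t, ⟨_, _, h, by simp [e, x0], a, b⟩, .inr (b.un (det_ne h).2 (sg_one.smul x))⟩
    · exact ⟨s, t, ⟨_, _, h, by simp [e, x0, div_neg], a, b⟩,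
        .inl (a.un (det_ne h).1 (sg_one.smul x))⟩
  have pm : ∀ {g ρ s t}, Rr π g ρ s t → (s = 1 ∨ s = -1) ∧ (t = 1 ∨ t = -1) :=
    fun ⟨_, _, _, _, a, b⟩ => ⟨a.pm, b.pm⟩
  obtain ⟨n, nS, ν, hn⟩ : ∃ n ∈ S, ∃ ν, Rr π n ν (-1) (-1) := by
    by_contra! hn
    have hd : ∀ g ∈ S, Com π g z → ∃ ρ, Rr π g ρ 1 1 := fun g hg hc => by
      obtain ⟨ρ, s, t, h⟩ := ex g hg hc
      have k := h.mul (cj g hg h)
      obtain ⟨rfl | rfl, rfl | rfl⟩ := pm h
      · exact ⟨ρ, h⟩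
      · exact absurd (by simpa using k) (hn _ (mul_mem hg (cS g hg)) (ρ * ρ⁻¹))
      · exact absurd (by simpa using k) (hn _ (mul_mem hg (cS g hg)) (ρ * ρ⁻¹))
      · exact absurd h (hn g hg ρ)
    have hc : ∀ g ∈ S, ∀ g' ∈ S, Com π g z → Com π g' z → Com π g g' := fun g hg g' hg' c c' =>
      let ⟨_, h⟩ := hd g hg c; let ⟨_, k⟩ := hd g' hg' c'; h.com h2 k
    obtain ⟨r, rS, hr'⟩ := exists_refl_mem hx S hr
    have r1 := rc r rS hr'
    have r2 := rc _ (cS r rS) (hr'.conj w)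
    have yS := mul_mem rS (cS r rS)
    have ww := hw.mul_anti hw
    have h1 : Com π (r * (w * r * w⁻¹)) w := by
      have c1 : Com π (r * (w * r * w⁻¹) * (w * w)) (r * w) := by
        rw [show r * (w * r * w⁻¹) * (w * w) = (r * w) ^ 2 by rw [pow_two]; group]
        exact (Cz π _).pow_mem (com_self _) 2
      have c2 := ((hc r rS _ (mul_mem yS (mul_mem wS wS)) r1 ((r1.mul r2).mul ww)).inv.mul
        c1.symm).symm
      rw [inv_mul_cancel_left] at c2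
      have c3 := c2.mul ((com_self w).mul (com_self w)).inv
      rwa [mul_inv_cancel_right] at c3
    have h3 : ∀ g ∈ S, Com π g (r * (w * r * w⁻¹)) := fun g hg => by
      rcases com_or_anti (π := π) z2 (zc g hg) with c | c
      · exact hc g hg _ yS c (r1.mul r2)
      · simpa using (hc _ (mul_mem hg (inv_mem wS)) _ yS (c.mul_anti hw.inv) (r1.mul r2)).mul h1.symm
    obtain ⟨x, xS, hx'⟩ := a2 (S := S) (z := r * (w * r * w⁻¹)) hx h2 hr (by
      rw [Commute.mul_pow ((hc r rS _ (cS r rS) r1 r2).comm hx.inj), hr'.sq hx.inj,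
        (hr'.conj w).sq hx.inj, one_mul]) (fun e => by
      have e1 : w * r = r * w := by
        rw [← mul_inv_eq_iff_eq_mul, eq_inv_of_mul_eq_one_right e, inv_eq_iff_mul_eq_one,
          ← pow_two, hr'.sq hx.inj]
      exact (refl_mul h2 hz hr' r1).not_anti h2 ((hr'.com hx.inj h2 e1).symm.mul_anti hw.symm))
      fun g hg => (h3 g hg).comm hx.inj
    exact (h3 x xS).not_anti h2 hx'
  have k1 : ∀ g ∈ S, ∀ {ρ}, Rr π g ρ (-1) (-1) → ρ * ρ = 1 := fun g hg ρ h => by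
    have h1 := h.sq h2
    have two : ∀ k, ∀ c ∈ Zc π z, c ^ 2 ^ k = 1 → c = 1 ∨ c = z := fun k => by
      induction k with
      | zero => exact fun c _ e => .inl (by simpa using e)
      | succ k ih =>
        intro c hc e
        rcases ih _ (pow_mem hc 2) (by rw [← pow_mul, ← pow_succ']; exact e) with e' | e'
        · exact Zc_sq hx.inj h2 z2 z1 (a1 hx h2 zc) hc e'
        · exact absurd ⟨c, hc, e'⟩ h4
    obtain ⟨k, hk⟩ := S.isPGroup' ⟨g * g, mul_mem hg hg⟩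
    have h3 : g * g * (g * g) = 1 := by
      rcases two k _ ((mem_Zc_iff h2 hz).2 ⟨_, h1⟩) (congrArg Subtype.val hk) with e | e
      · rw [e, one_mul]
      · rw [e, ← pow_two, z2]
    obtain ⟨c, -, e⟩ := (h3 ▸ h1.mul h1).scalar_of_one
    have e1 := congrFun (congrFun e (.inl 0)) (.inl 0)
    have e2 := congrFun (congrFun e (.inr 0)) (.inr 0)
    simp [fromBlocks_multiply] at e1 e2
    exact e1.trans e2.symm
  have k2 : ∀ g ∈ S, ∀ {ρ s t}, Rr π g ρ s t → s * t = 1 → ρ * ρ = 1 := fun g hg ρ s t h e => by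
    obtain ⟨rfl | rfl, rfl | rfl⟩ := pm h
    · have := k1 _ (mul_mem hg nS) (by simpa using h.mul hn)
      linear_combination this - ρ * ρ * k1 n nS hn
    · exact absurd (by simpa using e) (neg_ne h2)
    · exact absurd (by simpa using e) (neg_ne h2)
    · exact k1 g hg h
  by_cases h0 : ∀ g ∈ S, ∀ ρ s t, Rr π g ρ s t → ρ * ρ = 1
  · refine tc2 hx h2 hr z2 zc wS hw (fun g a => g ∈ S ∧ ∃ s t, Rr π g a s t) (fun g hg hc => ?_)
      (fun g a b ⟨_, _, _, h⟩ ⟨_, _, _, k⟩ => (h.un k).1)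
      (fun g g' a b ⟨hg, _, _, h⟩ ⟨hg', _, _, k⟩ => ⟨mul_mem hg hg', _, _, h.mul k⟩)
      (fun g a ⟨hg, s, t, h⟩ => ⟨cS g hg, t, s, ?_⟩)
      fun g hg hr => let ⟨s, t, h, _⟩ := re g hg hr; ⟨hg, s, t, h⟩
    · obtain ⟨ρ, s, t, h⟩ := ex g hg hc
      exact ⟨ρ, h.ne, hg, s, t, h⟩
    · have := cj g hg h
      rwa [inv_eq_of_mul_eq_one_right (h0 g hg a s t h)] at this
  push Not at h0
  obtain ⟨g0, hg0, ρ0, s0, t0, h0, n0⟩ := h0
  have pm' : ∀ {g ρ s t}, Rr π g ρ s t → s * t = 1 ∨ s * t = -1 := fun h => by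
    obtain ⟨rfl | rfl, rfl | rfl⟩ := pm h <;> simp
  have e0 : s0 * t0 = -1 := (pm' h0).resolve_left fun e => n0 (k2 g0 hg0 h0 e)
  have e1 : ρ0 * ρ0 = -1 := (mul_self_eq_one_iff.1 (k2 _ (mul_mem hg0 hg0) (h0.mul h0)
    (by linear_combination (s0 * t0 - 1) * e0))).resolve_left n0
  have k3 : ∀ g ∈ S, ∀ {ρ s t}, Rr π g ρ s t → ρ * ρ = s * t := fun g hg ρ s t h => by
    rcases pm' h with e | e
    · rw [e, k2 g hg h e]
    · have := k2 _ (mul_mem hg hg0) (h.mul h0) (by linear_combination (s0 * t0) * e - e0)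
      linear_combination ρ * ρ * e1 - this - e
  refine tc2 hx h2 hr z2 zc wS hw (fun g a => g ∈ S ∧ ∃ ρ s t, Rr π g ρ s t ∧ a = ρ * t)
    (fun g hg hc => ?_) ?_ ?_ ?_ fun g hg hr => ?_
  · obtain ⟨ρ, s, t, h⟩ := ex g hg hc
    refine ⟨_, mul_ne_zero h.ne ?_, hg, ρ, s, t, h, rfl⟩
    rcases (pm h).2 with rfl | rfl <;> simp
  · rintro g _ _ ⟨-, ρ, s, t, h, rfl⟩ ⟨-, ρ', s', t', k, rfl⟩
    rw [(h.un k).1, (h.un k).2.2]
  · rintro g g' _ _ ⟨hg, ρ, s, t, h, rfl⟩ ⟨hg', ρ', s', t', k, rfl⟩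
    exact ⟨mul_mem hg hg', _, _, _, h.mul k, by ring⟩
  · rintro g _ ⟨hg, ρ, s, t, h, rfl⟩
    refine ⟨cS g hg, _, _, _, cj g hg h, ?_⟩
    have := k3 g hg h
    rw [eq_inv_mul_iff_mul_eq₀ h.ne, ← mul_assoc, this]
    rcases (pm h).2 with rfl | rfl <;> simp
  · obtain ⟨s, t, h, e⟩ := re g hg hr
    have := k3 g hg h
    refine ⟨hg, _, _, _, h, ?_⟩
    rcases e with rfl | rfl
    · linear_combination -this
    · simp

end TCp

theorem ra (hx : Cx π) (h2 : (2 : K) ≠ 0) (hr : ∃ r, Refl π r) {z : G}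
    (hz : IsTwoCentralInvolution z) : RA π z := by
  obtain ⟨ho, S, -, zc⟩ := hz
  have z2 : z ^ 2 = 1 := ho ▸ pow_orderOf_eq_one z
  have z1 : z ≠ 1 := by rintro rfl; simp at ho
  have h1 := a1 hx h2 zc
  obtain ⟨w, -, hw⟩ := a2 hx h2 hr z2 z1 zc
  obtain ⟨r, rS, hr'⟩ := exists_refl_mem hx S hr
  refine ⟨h1, ⟨w, hw⟩, ?_, r, hr', zc r rS⟩
  obtain ⟨B, hB⟩ := inv_nf hx.inj h2 z2 z1 h1
  obtain ⟨P, Q, hm⟩ := mono (hx.cb B).inj h2 hB S.isPGroup' zc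
  simpa only [Zc_cb] using a3 ((hx.cb B).cb (bdG P Q)) h2 (by simpa only [refl_cb] using hr) z2 z1 zc
    (hB.bdG_zz P Q) hm

end CfsgLib.D4
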