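import Cfsg.Agent.Lib.D4.TrL2

/-! Traces: `A₇`.  See `plans/D4.md`. -/

set_option autoImplicit false

namespace CfsgLib.D4

open Matrix Cfsg Cfsg.Geo CfsgLib.Asch
open scoped MatrixGroups commutatorElement

namespace A7

/-- what is used about the elements of `A₇` -/
def Cl {H : Type*} [Group H] (g a k u v : H) : Prop :=
  (a ^ 2 = 1 ∧ g = a * (k * a * k⁻¹) ∧ (g ^ 2 = 1 ∨ g ^ 3 = 1 ∨ (g ^ 5 = 1 ∧ u * g * u⁻¹ = g ^ 2) ∨
    (g ^ 4 = 1 ∧ u ^ 3 = 1 ∧ g ^ 2 * u * (g ^ 2)⁻¹ = u ∧ g * u ≠ u * g) ∨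
    (g ^ 6 = 1 ∧ u ^ 2 = 1 ∧ u * g * u⁻¹ = g ∧ v * u * v⁻¹ = g ^ 3 * u))) ∨
  (g ^ 7 = 1 ∧ g ≠ 1 ∧ u * g * u⁻¹ = g ^ 2)

instance {H : Type*} [Group H] [DecidableEq H] (g a k u v : H) : Decidable (Cl g a k u v) := by
  unfold Cl
  infer_instance

theorem Cl.map {H H' : Type*} [Group H] [Group H'] (α : H ≃* H') {g a k u v : H} (h : Cl g a k u v) :
    Cl (α g) (α a) (α k) (α u) (α v) := by
  simpa only [Cl, ← map_mul, ← map_pow, ← map_inv, MulEquiv.map_eq_one_iff, EmbeddingLike.apply_eq_iff_eq,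
    ne_eq] using h

open Equiv Equiv.Perm

/-- an even permutation -/
abbrev ev (g : Perm (Fin 7)) (h : sign g = 1 := by decide +kernel) : alternatingGroup (Fin 7) := ⟨g, h⟩

theorem of_type {r a k u v g : alternatingGroup (Fin 7)} (h : Cl r a k u v)
    (e : (g : Perm (Fin 7)).cycleType = (r : Perm (Fin 7)).cycleType) : ∃ a k u v, Cl g a k u v := by
  obtain ⟨s, hs⟩ := isConj_iff.1 (isConj_iff_cycleType_eq.2 e.symm)
  have := h.map (MulAut.conjNormal s)
  rw [show MulAut.conjNormal s r = g from Subtype.ext hs] at this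
  exact ⟨_, _, _, _, this⟩

theorem cl (g : alternatingGroup (Fin 7)) : ∃ a k u v, Cl g a k u v := by
  have he := mem_alternatingGroup.1 g.2
  rw [sign_of_cycleType, neg_one_pow_eq_one_iff_even (by decide)] at he
  rcases Mit.Tr.multiset_cases _ (fun x => two_le_of_mem_cycleType)
    ((g : Perm (Fin 7)).sum_cycleType_le.trans (by simp)) he with h | h | h | h | h | h | h | h
  · exact of_type (r := 1) (a := 1) (k := 1) (u := 1) (v := 1) (by decide +kernel)
      (h.trans (by decide +kernel))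
  · exact of_type (r := ev (c[0, 1] * c[2, 3])) (a := ev (c[2, 3] * c[5, 6])) (k := ev (c[0, 2] * c[1, 3]))
      (u := 1) (v := 1) (by decide +kernel) (h.trans (by decide +kernel))
  · exact of_type (r := ev c[0, 1, 2]) (a := ev (c[1, 2] * c[5, 6])) (k := ev c[0, 1, 2])
      (u := 1) (v := 1) (by decide +kernel) (h.trans (by decide +kernel))
  · exact of_type (r := ev (c[0, 1, 2] * c[3, 4, 5])) (a := ev (c[1, 2] * c[4, 5]))
      (k := ev (c[0, 1] * c[3, 4])) (u := 1) (v := 1) (by decide +kernel) (h.trans (by decide +kernel))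
  · exact of_type (r := ev (c[0, 1, 2] * c[3, 4] * c[5, 6])) (a := ev (c[1, 2] * c[5, 6]))
      (k := ev (c[0, 1] * c[3, 5, 4, 6])) (u := ev (c[3, 5] * c[4, 6])) (v := ev c[4, 5, 6])
      (by decide +kernel) (h.trans (by decide +kernel))
  · exact of_type (r := ev (c[0, 1, 2, 3] * c[4, 5])) (a := ev (c[1, 3] * c[4, 5]))
      (k := ev c[0, 4, 2, 5, 1]) (u := ev c[4, 5, 6]) (v := 1) (by decide +kernel)
      (h.trans (by decide +kernel))
  · exact of_type (r := ev c[0, 1, 2, 3, 4]) (a := ev (c[1, 4] * c[2, 3])) (k := ev c[0, 2, 1])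
      (u := ev (c[1, 2, 4, 3] * c[5, 6])) (v := 1) (by decide +kernel) (h.trans (by decide +kernel))
  · exact of_type (r := ev c[0, 1, 2, 3, 4, 5, 6]) (a := 1) (k := 1) (u := ev (c[1, 2, 4] * c[3, 6, 5]))
      (v := 1) (by decide +kernel) (h.trans (by decide +kernel))

theorem cyc : ¬ 4 ∣ (Subgroup.zpowers (ev (c[0, 1, 2, 3] * c[4, 5]))).index := by
  have h := (Subgroup.zpowers (ev (c[0, 1, 2, 3] * c[4, 5]))).card_mul_index
  rw [Nat.card_zpowers, orderOf_eq_prime_pow (p := 2) (n := 1) (by decide +kernel) (by decide +kernel),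
    Mit.Tr.card_alt7] at h
  omega

variable {K : Type*} [Field K] {P : Type*} [Group P] (p : ℕ) [Fact p.Prime] [CharP K p] (ρ : P →* GL I4 K)

theorem int_of_pow {t : K} {k : ℕ} (h : t ^ p ^ (k + 1) = t ^ p ^ k) : ∃ a : ℤ, t = a := by
  rw [pow_succ', pow_mul] at h
  obtain ⟨a, ha⟩ := (mem_bot_iff_intCast p K).1 ((Subfield.mem_bot_iff_pow_eq_self K p).2 (pow_char_inj p h))
  exact ⟨a, ha.symm⟩

include p in
theorem int_of_real {x : P} (hr : tr ρ x⁻¹ = tr ρ x) (h : x ^ 4 = 1 ∨ x ^ 6 = 1) :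
    ∃ a : ℤ, tr ρ x = a := by
  have key : ∀ n : ℕ, x ^ n = 1 → p ^ 3 % n = p ^ 2 % n ∨ (p ^ 3 + p ^ 2) % n = 0 → ∃ a : ℤ, tr ρ x = a := by
    intro n hn k
    refine int_of_pow p (k := 2) ?_
    rcases k with k | k
    · rw [← tr_pow_char_pow, ← tr_pow_char_pow, pow_eq_pow_mod _ hn, k, ← pow_eq_pow_mod _ hn]
    · rw [← tr_pow_char_pow, ← hr, ← tr_pow_char_pow, inv_pow, eq_inv_of_mul_eq_one_left
        (show x ^ p ^ 3 * x ^ p ^ 2 = 1 by rw [← pow_add, pow_eq_pow_mod _ hn, k, pow_zero])]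
  rcases h with h | h <;> refine key _ h ?_ <;> rw [Nat.add_mod, Nat.pow_mod p 3, Nat.pow_mod p 2]
  · exact (by decide : ∀ r < 4, r ^ 3 % 4 = r ^ 2 % 4 ∨ (r ^ 3 % 4 + r ^ 2 % 4) % 4 = 0) _
      (Nat.mod_lt _ (by norm_num))
  · exact (by decide : ∀ r < 6, r ^ 3 % 6 = r ^ 2 % 6 ∨ (r ^ 3 % 6 + r ^ 2 % 6) % 6 = 0) _
      (Nat.mod_lt _ (by norm_num))

include p in
theorem int_of_five {x : P} (h : x ^ 5 = 1) (hc : IsConj x (x ^ 2)) : ∃ a : ℤ, tr ρ x = a := by
  have h2 := tr_isConj ρ hc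
  have h4 : tr ρ (x ^ 4) = tr ρ x := (tr_isConj ρ (by simpa [← pow_mul] using hc.pow 2)).trans h2
  have h3 : tr ρ (x ^ 3) = tr ρ x := (tr_isConj ρ (by
    have := hc.pow 4
    rwa [← pow_mul, pow_add x 5 3, h, one_mul] at this)).trans h4
  refine int_of_pow p (k := 1) ?_
  rw [← tr_pow_char_pow, ← tr_pow_char_pow, pow_eq_pow_mod _ h, pow_eq_pow_mod (p ^ 1) h, Nat.pow_mod, pow_one]
  have := Nat.mod_lt p (show 0 < 5 by norm_num)
  generalize p % 5 = r at *
  interval_cases r <;> simp [h2, h3, h4]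

/-- a real element of order eight has trace zero or is quadratic -/
theorem eight [IsAlgClosed K] (h2 : (2 : K) ≠ 0) {X : M4 K} (hd : X.det = 1) (h4 : X ^ 4 = -1)
    (h1 : (X ^ 3).trace = -X.trace) (h0 : (X ^ 2).trace = 0) :
    X.trace = 0 ∨ X.trace • X = (2 : K) • (X ^ 2 + 1) := by
  obtain ⟨B, d, h⟩ := Wt.sim_diag (fun _ : Unit => X) (n := 8)
    (by exact_mod_cast pow_ne_zero 3 h2) (fun _ _ => rfl)
    (fun _ => by rw [pow_mul X 4 2, h4, neg_one_sq])
  have e : X = cj B (diagonal (d ())) := by rw [cj_apply, ← h, Units.mul_inv_cancel_right]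
  generalize d () = d at e
  have ht : ∀ n : ℕ, (X ^ n).trace = ∑ i, d i ^ n := fun n => by
    rw [e, ← map_pow, cj_apply, trace_units_conj, diagonal_pow, trace_diagonal]
    rfl
  have h5 : ∀ i, d i ^ 4 = -1 := fun i => by
    have : diagonal d ^ 4 = -1 := (cj B).injective (by rw [map_pow, ← e, h4, map_neg, map_one])
    simpa [diagonal_pow] using congrFun (congrFun this i) i
  have t1 := ht 1
  rw [pow_one] at t1
  rw [ht, t1] at h1
  rw [ht] at h0
  rw [e, Wt.det_cj, det_diagonal] at hd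
  refine or_iff_not_imp_left.2 fun hn => ?_
  rw [t1] at hn ⊢
  rw [e, ← map_pow, ← map_one (cj B), ← map_add, ← map_smul, ← map_smul, diagonal_pow, ← diagonal_one,
    diagonal_add, ← diagonal_smul, ← diagonal_smul]
  refine congrArg _ (congrArg _ (funext fun i => mul_left_cancel₀ hn ?_))
  have a1 := h5 (.inl 0)
  have a2 := h5 (.inl 1)
  have a3 := h5 (.inr 0)
  have a4 := h5 (.inr 1)
  simp only [Fintype.sum_sum_type, Fin.sum_univ_two, Fintype.prod_sum_type, Fin.prod_univ_two, pow_one,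
    Pi.smul_apply, Pi.pow_apply, smul_eq_mul] at h1 h0 hd ⊢
  rcases i with i | i <;> fin_cases i <;> simp only [Fin.zero_eta, Fin.mk_one] <;> grind

end A7

variable {G K : Type*} [Group G] [Finite G] [Field K] [IsAlgClosed K] {π : G →* PG4 K}
  {P : Type*} [Group P] [Finite P] {q : P →* G} {ρ : P →* GL I4 K}

theorem tr_a7 (p : ℕ) [Fact p.Prime] [CharP K p] (hx : Cx π) (hl : Lin π q ρ) (e : G ≃* alternatingGroup (Fin 7)) :
    QuadTr ρ 1 2 := by
  have hZ := hl.ker_of_iso hx e _ inferInstance A7.cyc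
  have hk : ∀ z, q z = 1 → z = 1 ∨ (2 : K) ≠ 0 ∧ (ρ z : M4 K) = -1 := fun z hz => by
    have k : (ρ z : M4 K) = 1 → z = 1 := fun k => hl.inj (Units.ext (by simpa using k))
    refine (hZ z hz).elim (Or.inl <| k ·) fun k' => or_iff_not_imp_left.2 fun h1 => ⟨fun h2 => h1 (k ?_), k'⟩
    rw [k', neg_eq_iff_add_eq_zero, ← two_smul K, h2, zero_smul]
  have hneg : ∀ {z} (y), (ρ z : M4 K) = -1 → tr ρ (z * y) = -tr ρ y := fun y k => by simp [tr, k]
  have hodd : ∀ x n, Odd n → q x ^ n = 1 → ∃ u, q u = q x ∧ u ^ n = 1 ∧ ∃ ε : ℤ,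
      tr ρ x = ε * tr ρ u ∧ tr ρ x⁻¹ = ε * tr ρ u⁻¹ := fun x n hn h => by
    obtain ⟨u, hu, un⟩ := hl.lift_odd hx hn h
    obtain ⟨z, hz, rfl⟩ := hl.exists_ker hu.symm
    rcases hk z hz with rfl | ⟨-, k⟩
    · exact ⟨u, hu, un, 1, by simp, by simp⟩
    · refine ⟨u, hu, un, -1, by simp [hneg _ k], ?_⟩
      rw [(hl.central hx hz u).eq, _root_.mul_inv_rev, inv_eq_of_mul_eq_one_left (hl.ker_mul_self hZ hz),
        hneg _ k]
      simp
  have hconj : ∀ {u k n}, Odd n → u ^ n = 1 → k * q u * k⁻¹ = q u ^ 2 → IsConj u (u ^ 2) := by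
    intro u k n hn un h
    obtain ⟨k, rfl⟩ := hl.surj k
    exact isConj_iff.2 ⟨k, hl.eq_of_odd hx hn (by rw [conj_pow, un]; simp)
      (by rw [← pow_mul, mul_comm, pow_mul, un, one_pow]) (by simpa using h)⟩
  have h7 : ∀ u k, u ^ 7 = 1 → q u ≠ 1 → k * q u * k⁻¹ = q u ^ 2 →
      tr ρ u + tr ρ u⁻¹ = 1 ∧ tr ρ u * tr ρ u⁻¹ = 2 := fun u k un u1 h => by
    by_cases k7 : (7 : K) = 0
    · obtain rfl : p = 7 := (Nat.prime_dvd_prime_iff_eq Fact.out (by norm_num)).1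
        ((CharP.cast_eq_zero_iff K p 7).1 (by exact_mod_cast k7))
      have : ∀ y : P, y ^ 7 = 1 → tr ρ y = 4 := fun y hy => pow_char_inj 7 (k := 1) (by
        rw [← tr_pow_char_pow, pow_one, hy]
        simp only [tr, map_one, Units.val_one, trace_one, Wt.card_I4]
        linear_combination -2340 * k7)
      rw [this u un, this u⁻¹ (by rw [inv_pow, un, inv_one])]
      exact ⟨by linear_combination k7, by linear_combination 2 * k7⟩
    · obtain ⟨ζ, hζ, h1, h2, -⟩ := hl.tr_seven hx k7 u1 un h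
      have h3 := hζ.geom_sum_eq_zero (by norm_num)
      have h5 := hζ.pow_eq_one
      simp only [Finset.sum_range_succ, Finset.sum_range_zero] at h3
      rw [h1, h2]
      exact ⟨by grind, by grind⟩
  obtain ⟨g0, k0, g1, g7, gc, -⟩ := Mit.Tr.alt_seven
  obtain ⟨x0, hx0, x7⟩ := hl.lift_odd hx (g := e.symm g0) (n := 7) (by decide) (by rw [← map_pow, g7, map_one])
  obtain ⟨s0, p0⟩ := h7 x0 (e.symm k0) x7 (by simpa [hx0] using g1)
    (by rw [hx0, ← map_inv, ← map_mul, ← map_mul, gc, map_pow])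
  refine ⟨tr ρ x0, tr ρ x0⁻¹, by simpa using s0, by simpa using p0, ⟨x0, 0, 1, by simp, by simp⟩, fun x => ?_⟩
  obtain ⟨a, k, u, v, h⟩ := A7.cl (e (q x))
  replace h := h.map e.symm
  rw [e.symm_apply_apply] at h
  generalize e.symm a = a, e.symm k = k, e.symm u = u, e.symm v = v at h
  rcases h with ⟨a2, ha, h⟩ | ⟨h1, h2, h3⟩
  · have hc := hl.isConj_inv hx hZ a2 (isConj_iff.2 ⟨k, rfl⟩) ha
    have hr := tr_isConj ρ hc
    suffices ∃ a : ℤ, tr ρ x = a from let ⟨a, ha⟩ := this; ⟨a, 0, by simpa using ha, by simpa [hr] using ha⟩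
    have hsq : ∀ n, q x ^ n = 1 → x ^ (n + n) = 1 := fun n h => by
      rw [pow_add, hl.ker_mul_self hZ (by rwa [map_pow])]
    rcases h with h | h | ⟨h, h'⟩ | ⟨h, u3, h1, h2⟩ | ⟨h, u2, h1, h2⟩
    · exact A7.int_of_real p ρ hr (Or.inl (hsq 2 h))
    · exact A7.int_of_real p ρ hr (Or.inr (hsq 3 h))
    · obtain ⟨y, hy, y5, ε, h1, -⟩ := hodd x 5 (by decide) h
      obtain ⟨b, hb⟩ := A7.int_of_five p ρ y5 (hconj (by decide) y5 (hy ▸ h'))
      exact ⟨ε * b, by rw [h1, hb, Int.cast_mul]⟩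
    · rcases hk (x ^ 4) (by rwa [map_pow]) with h3 | ⟨h3, h4⟩
      · exact A7.int_of_real p ρ hr (Or.inl h3)
      obtain ⟨y, rfl, y3⟩ := hl.lift_odd hx (by decide) u3
      have h5 : x ^ 2 * y * (x ^ 2)⁻¹ = y := hl.eq_of_odd hx (by decide) (by rw [conj_pow, y3]; simp) y3
        (by simpa using h1)
      have h6 : tr ρ (x ^ 2) = 0 := by
        have := tr_isConj ρ (hc.pow 2)
        rw [show x⁻¹ ^ 2 = (x ^ 4)⁻¹ * x ^ 2 by group, inv_eq_of_mul_eq_one_left
          (hl.ker_mul_self hZ (by rwa [map_pow])), hneg _ h4] at this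
        exact (mul_eq_zero.1 (by linear_combination -this)).resolve_left h3
      have h8 : tr ρ (x ^ 3) = -tr ρ x := by
        rw [← hr, ← hneg _ h4, show x ^ 4 * x⁻¹ = x ^ 3 by group]
      rcases A7.eight h3 (hl.det x) (by simpa using h4) (by simpa [tr] using h8) (by simpa [tr] using h6)
        with k | k
      · exact ⟨0, by simpa using k⟩
      by_cases k0 : tr ρ x = 0
      · exact ⟨0, by simpa using k0⟩
      refine absurd (congrArg q (hl.inj (Units.ext (smul_right_injective _ k0 ?_)) : x * y = y * x))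
        (by simpa using h2)
      have h9 := congrArg (fun z => (ρ z : M4 K)) (mul_inv_eq_iff_eq_mul.1 h5)
      simp only [map_mul, map_pow, Units.val_mul, Units.val_pow_eq_pow_val] at h9 ⊢
      rw [← smul_mul_assoc, ← mul_smul_comm, k, smul_mul_assoc, mul_smul_comm, add_mul, mul_add, h9, one_mul,
        mul_one]
    · obtain ⟨y, rfl⟩ := hl.surj u
      obtain ⟨z, hz, h3⟩ := hl.exists_ker (x := y * x * y⁻¹) (y := x) (by simpa using h1)
      rcases hk z hz with rfl | ⟨h4, h5⟩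
      · have h4 := hl.sq_eq hx hZ (y := x ^ 3 * y) u2 (isConj_iff.2 ⟨v, by simpa using h2⟩)
        rw [one_mul, mul_inv_eq_iff_eq_mul] at h3
        rw [(Commute.pow_right h3 3).mul_mul_mul_comm, mul_eq_right, ← pow_add] at h4
        exact A7.int_of_real p ρ hr (Or.inr h4)
      · have h6 := tr_isConj ρ (isConj_iff.2 ⟨y, h3⟩)
        rw [hneg _ h5] at h6
        exact ⟨0, by simpa using (mul_eq_zero.1 (by linear_combination -h6)).resolve_left h4⟩
  · obtain ⟨y, hy, y7, ε, h4, h5⟩ := hodd x 7 (by decide) h1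
    obtain ⟨s1, p1⟩ := h7 y u y7 (hy ▸ h2) (hy ▸ h3)
    rcases mul_eq_zero.1 (show (tr ρ y - tr ρ x0) * (tr ρ y - tr ρ x0⁻¹) = 0 by grind) with k | k
    · exact ⟨0, ε, by rw [h4]; push_cast; grind, by rw [h5]; push_cast; grind⟩
    · exact ⟨ε, -ε, by rw [h4]; push_cast; grind, by rw [h5]; push_cast; grind⟩

end CfsgLib.D4
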