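import Cfsg.Agent.Lib.D4.Wt
import Cfsg.Agent.Lib.D4.Gen
import Cfsg.Agent.Lib.Mit.TrPSL
import Cfsg.Agent.Lib.Fusion.RankTwo
import Cfsg.Agent.Lib.Dickson.MinSimple

/-! Traces: generalities and `L₂(q)`.  See `plans/D4.md`. -/

set_option autoImplicit false

namespace CfsgLib.D4

open Matrix Cfsg Cfsg.Geo CfsgLib.Asch
open scoped MatrixGroups commutatorElement

variable {G K : Type*} [Group G] [Finite G] [Field K] [IsAlgClosed K] {π : G →* PG4 K}
  {P : Type*} [Group P] [Finite P] {q : P →* G} {ρ : P →* GL I4 K}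

set_option linter.unusedSectionVars false

theorem Lin.ker (hx : Cx π) (hl : Lin π q ρ) {x : P} :
    q x = 1 ↔ ∃ c : K, c ^ 4 = 1 ∧ (ρ x : M4 K) = c • 1 := by
  refine ⟨fun h => ?_, fun ⟨c, _, h⟩ => ((hl.rep x).congr h).eq_one hx.inj⟩
  obtain ⟨c, -, hc⟩ := (h ▸ hl.rep x).scalar_of_one
  refine ⟨c, ?_, hc⟩
  have := hl.det x
  rwa [hc, det_smul, det_one, mul_one] at this

theorem Lin.central (hx : Cx π) (hl : Lin π q ρ) {z : P} (h : q z = 1) (y : P) : Commute z y := by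
  obtain ⟨c, -, hc⟩ := (hl.ker hx).1 h
  exact hl.inj (Units.ext (by simp [hc]))

theorem Lin.pow_four (hx : Cx π) (hl : Lin π q ρ) {z : P} (h : q z = 1) : z ^ 4 = 1 := by
  obtain ⟨c, h4, hc⟩ := (hl.ker hx).1 h
  exact hl.inj (Units.ext (by simp [hc, smul_pow, h4]))

theorem Lin.exists_ker (_hl : Lin π q ρ) {x y : P} (e : q x = q y) : ∃ z, q z = 1 ∧ x = z * y :=
  ⟨x * y⁻¹, by simp [e], by simp⟩

/-- the lift of the same odd order -/
theorem Lin.lift_odd (hx : Cx π) (hl : Lin π q ρ) {g : G} {n : ℕ} (hn : Odd n) (hg : g ^ n = 1) :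
    ∃ x : P, q x = g ∧ x ^ n = 1 := by
  obtain ⟨x, rfl⟩ := hl.surj g
  refine ⟨x ^ (n * (3 * n) + 1), by rw [map_pow, pow_succ, pow_mul, hg, one_pow, one_mul], ?_⟩
  obtain ⟨m, rfl⟩ := hn
  rw [← pow_mul, show ((2 * m + 1) * (3 * (2 * m + 1)) + 1) * (2 * m + 1) =
    (2 * m + 1) * 4 * (3 * m * m + 3 * m + 1) by ring, pow_mul, pow_mul,
    hl.pow_four hx (by rw [map_pow, hg]), one_pow]

theorem Lin.eq_of_odd (hx : Cx π) (hl : Lin π q ρ) {x y : P} {n : ℕ} (hn : Odd n) (h1 : x ^ n = 1)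
    (h2 : y ^ n = 1) (e : q x = q y) : x = y := by
  obtain ⟨z, hz, rfl⟩ := hl.exists_ker e
  rw [(hl.central hx hz y).mul_pow, h2, mul_one] at h1
  have := pow_gcd_eq_one.2 ⟨hl.pow_four hx hz, h1⟩
  rw [(Nat.coprime_two_left.2 hn).pow_left 2, pow_one] at this
  rw [this, one_mul]

theorem Lin.ker_sq (hx : Cx π) (hl : Lin π q ρ) (C : Subgroup G) (hC : IsCyclic C)
    (h4 : ¬ 4 ∣ C.index) {x : P} (h : q x = 1) : (ρ x : M4 K) = 1 ∨ (ρ x : M4 K) = -1 := by
  obtain ⟨⟨g, hg⟩, hgen⟩ := hC.exists_generator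
  obtain ⟨u, rfl⟩ := hl.surj g
  have key : ∀ y : P, q y ∈ C → ∃ (k : ℤ) (z : P), q z = 1 ∧ y = z * u ^ k := fun y hy => by
    obtain ⟨k, hk⟩ := hgen ⟨_, hy⟩
    exact ⟨k, hl.exists_ker (by rw [map_zpow]; exact (congrArg Subtype.val hk).symm)⟩
  have h1 := Transfer.pow_index_mem_commutator_of_mem_center (H := C.comap q) (z := x)
    (by rw [Subgroup.mem_comap, h]; exact C.one_mem) (hl.perf ▸ Subgroup.mem_top x)
    (Subgroup.mem_center_iff.2 fun y => (hl.central hx h y).symm)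
  rw [Subgroup.commutator_eq_bot_iff_le_centralizer.2 fun a ha b hb => ?_,
    Subgroup.mem_bot, Subgroup.index_comap_of_surjective _ hl.surj] at h1
  · have h2 := orderOf_dvd_of_pow_eq_one (hl.pow_four hx h)
    have h3 := orderOf_dvd_of_pow_eq_one h1
    have h5 : orderOf x ∣ 2 := by
      have := Nat.le_of_dvd (by norm_num) h2
      generalize orderOf x = d at *
      interval_cases d <;> simp_all
    obtain ⟨c, -, hc⟩ := (hl.ker hx).1 h
    have h6 := congrArg (fun y => (ρ y : M4 K) (.inl 0) (.inl 0)) (orderOf_dvd_iff_pow_eq_one.1 h5)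
    simp only [map_pow, Units.val_pow_eq_pow_val, hc, smul_pow, one_pow, map_one, Units.val_one,
      Matrix.smul_apply, one_apply_eq, smul_eq_mul, mul_one, sq_eq_one_iff] at h6
    rcases h6 with rfl | rfl <;> simp [hc]
  · obtain ⟨k, z, hz, rfl⟩ := key a ha
    obtain ⟨l, w, hw, rfl⟩ := key b hb
    exact Commute.mul_left (hl.central hx hw _) (Commute.mul_right (hl.central hx hz _).symm
      (Commute.zpow_zpow_self u l k))

omit [Finite G] [IsAlgClosed K] [Finite P] in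
theorem tr_pow_char (p : ℕ) [Fact p.Prime] [CharP K p] (ρ : P →* GL I4 K) (x : P) : tr ρ (x ^ p) = tr ρ x ^ p := by
  have h : ∀ M : M4 K, (M ^ p).charpoly = M.charpoly.map (frobenius K p) := fun M => by
    refine Polynomial.expand_injective (Fact.out : p.Prime).pos ?_
    rw [← Polynomial.map_expand, Polynomial.map_frobenius_expand]
    unfold charpoly
    rw [AlgHom.map_det, ← det_pow]
    refine congrArg det (matPolyEquiv.injective ?_)
    rw [map_pow, matPolyEquiv_charmatrix, sub_pow_char_of_commute, ← Polynomial.C_pow]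
    · exact id (matPolyEquiv_eq_X_pow_sub_C p M)
    · exact (Polynomial.C M).commute_X
  rw [tr, tr, map_pow, Units.val_pow_eq_pow_val, trace_eq_neg_charpoly_coeff,
    trace_eq_neg_charpoly_coeff, h, Polynomial.coeff_map, ← map_neg, frobenius_def]

omit [Finite G] [IsAlgClosed K] [Finite P] in
theorem tr_pow_char_pow (p : ℕ) [Fact p.Prime] [CharP K p] (ρ : P →* GL I4 K) (x : P) (k : ℕ) :
    tr ρ (x ^ p ^ k) = tr ρ x ^ p ^ k := by
  induction k with
  | zero => simp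
  | succ k ih => rw [pow_succ, pow_mul, pow_mul, tr_pow_char, ih]

omit [Finite G] [IsAlgClosed K] [Finite P] in
theorem tr_isConj (ρ : P →* GL I4 K) {x y : P} (h : IsConj x y) : tr ρ y = tr ρ x := by
  obtain ⟨k, rfl⟩ := isConj_iff.1 h
  rw [tr, map_mul, map_mul, map_inv, Units.val_mul, Units.val_mul, trace_units_conj]

theorem Lin.ker_mul_self (hl : Lin π q ρ)
    (hZ : ∀ x, q x = 1 → (ρ x : M4 K) = 1 ∨ (ρ x : M4 K) = -1) {z : P} (h : q z = 1) : z * z = 1 :=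
  hl.inj (Units.ext (by rcases hZ z h with e | e <;> simp [e]))

/-- lifts of conjugate involutions have the same square -/
theorem Lin.sq_eq (hx : Cx π) (hl : Lin π q ρ)
    (hZ : ∀ x, q x = 1 → (ρ x : M4 K) = 1 ∨ (ρ x : M4 K) = -1) {x y : P} (ha : q x ^ 2 = 1)
    (h : IsConj (q x) (q y)) : y * y = x * x := by
  obtain ⟨k, hk⟩ := isConj_iff.1 h
  obtain ⟨k, rfl⟩ := hl.surj k
  obtain ⟨z, hz, rfl⟩ := hl.exists_ker (x := y) (y := k * x * k⁻¹) (by simp [hk])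
  rw [(hl.central hx hz _).symm.mul_mul_mul_comm, hl.ker_mul_self hZ hz, one_mul, conj_mul,
    (hl.central hx (by rwa [map_mul, ← sq]) k).symm.mul_inv_cancel]

/-- products of two involutions from one class are real in the cover -/
theorem Lin.isConj_inv (hx : Cx π) (hl : Lin π q ρ)
    (hZ : ∀ x, q x = 1 → (ρ x : M4 K) = 1 ∨ (ρ x : M4 K) = -1) {x : P} {a b : G} (ha : a ^ 2 = 1)
    (hab : IsConj a b) (e : q x = a * b) : IsConj x x⁻¹ := by
  obtain ⟨a, rfl⟩ := hl.surj a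
  have h1 := hl.sq_eq hx hZ (y := a⁻¹ * x) ha (by simpa [e] using hab)
  have h2 := hl.ker_mul_self hZ (z := a * a) (by rwa [map_mul, ← sq])
  refine isConj_iff.2 ⟨a⁻¹, ?_⟩
  rw [eq_inv_iff_mul_eq_one]
  calc a⁻¹ * x * a⁻¹⁻¹ * x = a⁻¹ * x * (a * a) * (a⁻¹ * x) := by group
    _ = a * a * (a⁻¹ * x * (a⁻¹ * x)) := by
      rw [← (hl.central hx (z := a * a) (by rwa [map_mul, ← sq]) _).eq, mul_assoc]
    _ = 1 := by rw [h1, h2]

omit [Finite G] [IsAlgClosed K] [Finite P] in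
theorem pow_char_inj (p : ℕ) [Fact p.Prime] [CharP K p] {a b : K} {k : ℕ} (h : a ^ p ^ k = b ^ p ^ k) :
    a = b :=
  iterateFrobenius_inj K p k h

theorem realTr_even [CharP K 2] (hx : Cx π) (hl : Lin π q ρ) (h : OddReal G) : RealTr ρ := by
  intro x
  obtain ⟨k, m, hm, e⟩ := Nat.exists_eq_two_pow_mul_odd (orderOf_pos x).ne'
  have h1 : (x ^ 2 ^ k) ^ m = 1 := by rw [← pow_mul, ← e, pow_orderOf_eq_one]
  refine pow_char_inj 2 (k := k) ?_
  rw [← tr_pow_char_pow, ← tr_pow_char_pow, inv_pow]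
  obtain ⟨c, hc⟩ := isConj_iff.1 (h (q (x ^ 2 ^ k)) (hm.of_dvd_nat
    (orderOf_dvd_of_pow_eq_one (by rw [← map_pow, h1, map_one]))))
  obtain ⟨c, rfl⟩ := hl.surj c
  exact tr_isConj ρ (isConj_iff.2 ⟨c, hl.eq_of_odd hx hm (by rw [conj_pow, h1]; simp)
    (by rw [inv_pow, h1, inv_one]) (by rw [map_mul, map_mul, map_inv, hc, map_inv])⟩)

theorem Lin.ker_of_iso (hx : Cx π) (hl : Lin π q ρ) {H : Type*} [Group H] (e : G ≃* H) (C : Subgroup H)
    (hC : IsCyclic C) (h4 : ¬ 4 ∣ C.index) (x : P) (h : q x = 1) :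
    (ρ x : M4 K) = 1 ∨ (ρ x : M4 K) = -1 :=
  hl.ker_sq hx (C.map e.symm.toMonoidHom)
    (isCyclic_of_surjective _ (MonoidHom.subgroupMap_surjective _ _))
    (by rwa [MulEquiv.toMonoidHom_eq_coe, Subgroup.index_map_equiv]) h

/-- the trace of an element of order seven -/
theorem Lin.tr_seven (hx : Cx π) (hl : Lin π q ρ) (h7 : (7 : K) ≠ 0) {x : P} {k : G} (h1 : q x ≠ 1)
    (hx7 : x ^ 7 = 1) (hk : k * q x * k⁻¹ = q x ^ 2) : ∃ ζ : K, IsPrimitiveRoot ζ 7 ∧
      tr ρ x = 1 + ζ + ζ ^ 2 + ζ ^ 4 ∧ tr ρ x⁻¹ = 1 + ζ ^ 3 + ζ ^ 5 + ζ ^ 6 ∧ ((ρ x : M4 K) - 1).rank ≤ 3 := by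
  obtain ⟨B, ζ, hζ, h⟩ := seven hx h7 h1 (by rw [← map_pow, hx7, map_one]) hk
  have z7 := hζ.pow_eq_one
  have hd : ∀ n : ℕ, dg 1 ζ (ζ ^ 2) (ζ ^ 4) ^ n = dg 1 (ζ ^ n) (ζ ^ (2 * n)) (ζ ^ (4 * n)) := fun n => by
    rw [dg_eq_diagonal, dg_eq_diagonal, diagonal_pow]
    refine congrArg _ (funext ?_)
    rintro (i | i) <;> fin_cases i <;> simp [pow_mul]
  have h2 : (ρ x : M4 K) = cj B (dg 1 ζ (ζ ^ 2) (ζ ^ 4)) := by
    refine Wt.uniq (n := 7) (by decide) (hl.rep x) (rep_cb_iff.1 h) (hl.det x) ?_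
      (by rw [← Units.val_pow_eq_pow_val, ← map_pow, hx7, map_one, Units.val_one]) ?_
    · rw [Wt.det_cj, det_bd, det_fin_two_of, det_fin_two_of]
      linear_combination z7
    · rw [← map_pow, hd, z7, mul_comm 2, mul_comm 4, pow_mul, pow_mul, z7, one_pow, one_pow, dg, d2_one,
        bd, fromBlocks_one, map_one]
  have h3 : ∀ n : ℕ, tr ρ (x ^ n) = 1 + ζ ^ n + ζ ^ (2 * n) + ζ ^ (4 * n) := fun n => by
    rw [tr, map_pow, Units.val_pow_eq_pow_val, h2, ← map_pow, hd, cj_apply, trace_units_conj,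
      dg_eq_diagonal, trace_diagonal]
    simp [add_assoc]
  refine ⟨ζ, hζ, by simpa using h3 1, ?_, ?_⟩
  · rw [inv_eq_of_mul_eq_one_left ((pow_succ x 6).symm.trans hx7), h3]
    linear_combination (ζ ^ 5 + ζ ^ 3 + ζ ^ 10 + ζ ^ 17) * z7
  · classical
    rw [h2, ← map_one (cj B), ← map_sub, cj_apply]
    refine ((rank_mul_le_left _ _).trans (rank_mul_le_right _ _)).trans ?_
    rw [dg_eq_diagonal, ← diagonal_one, diagonal_sub, rank_diagonal]
    exact Nat.le_of_lt_succ (Fintype.card_subtype_lt (x := .inl 0) (by simp))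

namespace TrL

open CfsgLib.Mit.Tr CfsgLib.Classical

/-- a product of two conjugate elements of order at most two -/
def Two {H : Type*} [Group H] (g : H) : Prop := ∃ a b : H, a ^ 2 = 1 ∧ IsConj a b ∧ g = a * b

theorem Two.map {H H' : Type*} [Group H] [Group H'] (f : H →* H') {g : H} (h : Two g) : Two (f g) :=
  let ⟨a, b, h1, h2, h3⟩ := h
  ⟨f a, f b, by rw [← map_pow, h1, map_one], f.map_isConj h2, by rw [h3, map_mul]⟩

theorem Two.conj {H : Type*} [Group H] {g : H} (h : Two g) (k : H) : Two (k * g * k⁻¹) :=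
  h.map (MulAut.conj k).toMonoidHom

theorem Two.symm {H H' : Type*} [Group H] [Group H'] (e : H ≃* H') {g : H} (h : Two (e g)) : Two g := by
  simpa using h.map e.symm.toMonoidHom

variable {E : Type*} [Field E] [Fintype E]

theorem conj_of_tr (h2 : (2 : E) ≠ 0) {x y : SL(2, E)} (hx : SL2.tr x = 0) (hy : SL2.tr y = 0) :
    IsConj (pm x) (pm y) :=
  (QuotientGroup.mk' _).map_isConj (SL2.isConj_of_tr_eq
    (by rw [hx]; exact fun e => mul_ne_zero h2 h2 (by linear_combination -e)) (hx.trans hy.symm))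

theorem two_of (h2 : (2 : E) ≠ 0) {x y : SL(2, E)} (h1 : SL2.tr y = 0) (h3 : SL2.tr (y * x) = 0) :
    Two (pm x) :=
  ⟨pm y⁻¹, pm (y * x), by
    rw [← pm_pow, pm_eq_one_iff, sq]
    exact ⟨-1, (sl2_sq_eq _).trans (by rw [← SL2.tr_eq_trace, SL2.tr_inv, h1]; simp)⟩,
    conj_of_tr h2 ((SL2.tr_inv y).trans h1) h3, by rw [← pm_mul, inv_mul_cancel_left]⟩

theorem tr_of_sq {y : SL(2, E)} (h : y.1 * y.1 = -1) : SL2.tr y = 0 := by
  rw [sl2_sq_eq, sub_eq_neg_self, smul_eq_zero] at h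
  exact (SL2.tr_eq_trace y).trans (h.resolve_right fun e => by simpa [e] using y.2)

theorem two_or (h2 : (2 : E) ≠ 0) (g : PSL(2, E)) :
    Two g ∨ ¬ IsSquare (-1 : E) ∧ ∃ (y : PSL(2, E)) (c : E), g = y * U c * y⁻¹ := by
  obtain ⟨g, rfl⟩ := QuotientGroup.mk_surjective g
  by_cases h : g.1.trace ^ 2 = 4
  · obtain ⟨y, c, e⟩ := exists_conj_U h2 g h
    refine or_iff_not_imp_right.2 fun hn => ?_
    obtain ⟨i, hi⟩ : IsSquare (-1 : E) := not_not.1 fun k => hn ⟨k, y, c, e⟩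
    refine (congrArg Two e).mpr ?_
    exact (two_of h2 (y := sl2Mk i 0 0 (-i) (by linear_combination hi))
      (by simp [SL2.tr_eq_trace, sl2Mk_val]) (by simp [SL2.tr_eq_trace, sl2Mk_val])).conj y
  · obtain ⟨y, h1, h3⟩ := sl2_exists_inverting h2 g h
    refine Or.inl (two_of h2 (tr_of_sq h1) (tr_of_sq ?_))
    have : y * g * (y * g) = g⁻¹ * (y * y) * g := by rw [← h3]; group
    rw [show y * y = -1 from Subtype.ext h1, mul_neg, neg_mul, mul_one, inv_mul_cancel] at this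
    exact congrArg Subtype.val this

theorem inv_conj (h2 : (2 : E) ≠ 0) {a b : PSL(2, E)} (a1 : a ≠ 1) (a2 : a ^ 2 = 1) (b1 : b ≠ 1)
    (b2 : b ^ 2 = 1) : IsConj a b := by
  have k : ∀ g : SL(2, E), pm g ≠ 1 → pm g ^ 2 = 1 → SL2.tr g = 0 := fun g h h' => by
    rw [sq, ← pm_mul] at h'
    rw [Ne, QuotientGroup.eq_one_iff, SL2.mem_center_iff_isScal] at h
    rw [QuotientGroup.eq_one_iff, SL2.mem_center_iff_isScal] at h'
    exact (SL2.sq_eq_neg_one_of_isScal_sq h h').1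
  obtain ⟨a, rfl⟩ := QuotientGroup.mk_surjective a
  obtain ⟨b, rfl⟩ := QuotientGroup.mk_surjective b
  exact conj_of_tr h2 (k a a1 a2) (k b b1 b2)

theorem exists_cyc (hE : Odd (Fintype.card E)) :
    ∃ C : Subgroup PSL(2, E), IsCyclic C ∧ ¬ 4 ∣ C.index := by
  have h1 := Fintype.one_lt_card (α := E)
  have hq := Nat.odd_iff.1 hE
  have hc := psl2_card_mul (F := E)
  rw [Nat.gcd_eq_left (by omega), ← sl2_card] at hc
  obtain ⟨g, m, hg, hm⟩ : ∃ (g : SL(2, E)) (m : ℕ), Nat.card SL(2, E) = orderOf g * (2 * m) ∧ Odd m := by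
    by_cases h : Fintype.card E % 4 = 3
    · obtain ⟨g, hg⟩ := sl2_exists_orderOf_eq_add_one (F := E)
      refine ⟨g, Fintype.card E * ((Fintype.card E - 1) / 2), ?_, hE.mul (Nat.odd_iff.2 (by omega))⟩
      rw [sl2_card', hg, mul_left_comm 2, Nat.mul_div_cancel' (by omega), mul_comm]
    · obtain ⟨g, hg⟩ := sl2_exists_orderOf_eq_sub_one (F := E)
      refine ⟨g, Fintype.card E * ((Fintype.card E + 1) / 2), ?_, hE.mul (Nat.odd_iff.2 (by omega))⟩
      rw [sl2_card', hg, mul_left_comm 2, Nat.mul_div_cancel' (by omega)]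
      ring
  refine ⟨Subgroup.zpowers (pm g), inferInstance, fun ⟨k, hk⟩ => ?_⟩
  have h2 := (Subgroup.zpowers (pm g)).card_mul_index
  obtain ⟨t, ht⟩ : orderOf g ∣ orderOf (pm g) * 2 := orderOf_dvd_of_pow_eq_one (by
    have := pow_orderOf_eq_one (pm g)
    rw [← pm_pow, QuotientGroup.eq_one_iff, SL2.mem_center_iff] at this
    rcases this with e | e <;> simp [pow_mul, e])
  rw [Nat.card_zpowers, hk] at h2
  have : orderOf g * m = orderOf g * (2 * (t * k)) := by nlinarith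
  exact Nat.not_even_iff_odd.2 hm ⟨t * k, by rw [Nat.eq_of_mul_eq_mul_left (orderOf_pos g) this, two_mul]⟩

theorem gen7 : ∃ u s g : PSL(2, ZMod 7), Subgroup.closure {u, s} = ⊤ ∧ u = U 1 ∧ s ≠ 1 ∧ s ^ 2 = 1 ∧
    (u * s) ^ 3 = 1 ∧ g ≠ 1 ∧ g ^ 7 = 1 ∧ (u * s)⁻¹ * g * (u * s)⁻¹⁻¹ = g ^ 2 := by
  refine ⟨pm (SL2.uu 1), pm SL2.ww, pm (SL2.mk2 2 2 3 0 (by decide)), ?_, rfl, ?_, ?_, ?_, ?_, ?_, ?_⟩
  · have := Fusion.SL2_zmod_eq_top (K := Subgroup.closure {SL2.uu (1 : ZMod 7), SL2.ww}) (a := 1) (b := -1)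
      (by decide) (by decide) (Subgroup.subset_closure (by simp)) (by
        rw [show SL2.ll (-1 : ZMod 7) = SL2.ww * SL2.uu 1 * SL2.ww⁻¹ from Subtype.ext (by decide +kernel)]
        exact mul_mem (mul_mem (Subgroup.subset_closure (by simp)) (Subgroup.subset_closure (by simp)))
          (inv_mem (Subgroup.subset_closure (by simp))))
    have h := congrArg (Subgroup.map (QuotientGroup.mk' (Subgroup.center SL(2, ZMod 7)))) this
    rwa [MonoidHom.map_closure, Set.image_pair, Subgroup.map_top_of_surjective _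
      (QuotientGroup.mk'_surjective _)] at h
  · rw [Ne, QuotientGroup.eq_one_iff, SL2.mem_center_iff]
    decide +kernel
  · rw [← pm_pow, QuotientGroup.eq_one_iff, SL2.mem_center_iff]
    decide +kernel
  · rw [← pm_mul, ← pm_pow, QuotientGroup.eq_one_iff, SL2.mem_center_iff]
    decide +kernel
  · rw [Ne, QuotientGroup.eq_one_iff, SL2.mem_center_iff]
    decide +kernel
  · rw [← pm_pow, QuotientGroup.eq_one_iff, SL2.mem_center_iff]
    decide +kernel
  · rw [inv_inv, mul_assoc, inv_mul_eq_iff_eq_mul, ← pm_pow]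
    exact congrArg pm (show _ * (_ * _) = _ * _ * _ by decide +kernel)

theorem seven_conj {g : PSL(2, ZMod 7)} (h1 : g ≠ 1) (h7 : g ^ 7 = 1) : ∃ k, k * g * k⁻¹ = g ^ 2 := by
  obtain ⟨k, hk⟩ := U7_conj
  rcases cases7 g with ⟨-, h | h⟩ | ⟨y, rfl | rfl⟩
  · exact absurd (by simpa using pow_gcd_eq_one.2 ⟨h, h7⟩) h1
  · exact absurd (by simpa using pow_gcd_eq_one.2 ⟨h, h7⟩) h1
  · exact ⟨y * k * y⁻¹, by rw [conj_pow, ← hk]; group⟩
  · exact ⟨y * k * y⁻¹, by rw [conj_pow, inv_pow, ← hk]; group⟩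

end TrL

open TrL Mit.Tr in
theorem tr_l2 (p : ℕ) [Fact p.Prime] [CharP K p] (hx : Cx π) (hl : Lin π q ρ) {E : Type*} [Field E] [Fintype E]
    (hE : Odd (Fintype.card E)) (e : G ≃* PSL(2, E)) :
    RealTr ρ ∨ (p ≠ 7 ∧ Nonempty (G ≃* PSL(2, ZMod 7))) := by
  have h2 := SL2.two_ne_zero_of_odd hE
  obtain ⟨C, hC, h4⟩ := exists_cyc hE
  have hZ := hl.ker_of_iso hx e C hC h4
  refine or_iff_not_imp_left.2 fun hn => ?_
  obtain ⟨x, hn⟩ := not_forall.1 hn
  obtain ⟨hi, y, c, hy⟩ := (two_or h2 (e (q x))).resolve_left fun k =>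
    let ⟨a, b, h1, h2, h3⟩ := k.symm e
    hn (tr_isConj ρ (hl.isConj_inv hx hZ h1 h2 h3))
  have hp : (p : E) ≠ 0 := fun h0 => hn (pow_char_inj p (k := 1) (by
    rw [← tr_pow_char_pow, ← tr_pow_char_pow, inv_pow, inv_eq_of_mul_eq_one_left (hl.ker_mul_self hZ
      (e.injective (by rw [map_pow, map_pow, hy, conj_pow, U_pow, pow_one, h0]; simp [U_zero])))]))
  let f : Multiplicative E →* G := e.symm.toMonoidHom.comp (MonoidHom.mk' (fun c => U c.toAdd) fun a b => U_add _ _)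
  have hd : Nat.card f.range ∣ Fintype.card E := by
    simpa using Subgroup.card_range_dvd f
  obtain ⟨a, ha⟩ := IsCyclic.exists_ofOrder_eq_natCard (α := Eˣ)
  rw [Nat.card_units, Nat.card_eq_fintype_card] at ha
  obtain ⟨h, hh⟩ := exists_conj_sq a.ne_zero
  have hn : ∀ n : ℕ, h ^ n * U 1 * (h ^ n)⁻¹ = U (((a : E) ^ 2) ^ n) := fun n => by
    induction n with
    | zero => simp
    | succ n ih => rw [pow_succ', pow_succ' ((a : E) ^ 2), ← hh, ← ih]; group
  have key : ∀ n : ℕ, (∀ b ∈ f.range, Commute (e.symm h ^ n) b) → Fintype.card E - 1 ∣ 2 * n := fun n k => by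
    have k1 := (k _ ⟨.ofAdd 1, rfl⟩).map e
    rw [map_pow, e.apply_symm_apply, show e (f (.ofAdd 1)) = U 1 from e.apply_symm_apply _] at k1
    have k2 := hn n
    rw [k1.mul_inv_cancel, ← mul_inv_eq_one, ← U_neg, ← U_add, U_eq_one_iff, add_neg_eq_zero] at k2
    exact ha ▸ orderOf_dvd_of_pow_eq_one (Units.ext (by simp [pow_mul, ← k2]))
  have h3 : ¬ Nat.card E ≤ 3 := fun k => hx.not_solvable
    (have := Dickson.psl_isSolvable k; Group.isSolvable_of_isSolvable_injective (f := e.toMonoidHom) e.injective)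
  rw [FiniteField.isSquare_neg_one_iff, not_not] at hi
  rw [Nat.card_eq_fintype_card] at h3
  have h7 : Fintype.card E = 7 := by
    rcases w34 hx f.range (by
      rintro _ ⟨a, rfl⟩ _ ⟨b, rfl⟩
      rw [← map_mul, ← map_mul, mul_comm]) (hE.of_dvd_nat hd) (fun k => not_isUnit_prime_of_dvd_card
        (((CharP.cast_eq_zero_iff K p _).1 k).trans hd) hp.isUnit) (h := e.symm h) (by
      rintro _ ⟨b, rfl⟩
      exact ⟨.ofAdd (a ^ 2 * b.toAdd), e.injective (by simp [f, hh])⟩) with k | k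
    · have := Nat.le_of_dvd (by norm_num) (key 3 k)
      omega
    · have h8 := key 4 k
      have := Nat.le_of_dvd (by norm_num) h8
      rw [show Fintype.card E = 7 by omega] at h8
      omega
  refine ⟨?_, ⟨e.trans (Classical.pslMapEquiv (ZMod.ringEquivOfPrime E (by norm_num) h7).symm)⟩⟩
  rintro rfl
  exact hp (h7 ▸ FiniteField.cast_card_eq_zero E)

/-- an involution of determinant one -/
theorem rank_le_two {g : G} {A : M4 K} (hA : Rep π g A) (h2 : A * A = 1) (hd : A.det = 1) (h1 : A ≠ -1) :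
    (A - 1).rank ≤ 2 := by
  have h3 := rank_add_rank_le_card_of_mul_eq_zero (A := A - 1) (B := -A - 1)
    (by rw [sub_mul, mul_sub, mul_neg, h2, mul_one, one_mul]; abel)
  rw [Wt.card_I4] at h3
  by_cases h : (2 : K) = 0
  · rw [show -A = A by rw [neg_eq_iff_add_eq_zero, ← two_smul K, h, zero_smul]] at h3
    omega
  by_contra hn
  obtain ⟨M, hM, m2, -, md⟩ := (refl_of_rank (hA.smul (c := -1) (by simp)) (by simp [h2])
    (fun e => h1 (by rw [← e]; simp)) (by rw [neg_one_smul]; omega)).exists_rep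
  obtain ⟨c, -, rfl⟩ := hA.unique hM
  rw [smul_mul_smul_comm, h2] at m2
  have h4 : c * c = 1 := by simpa using congrFun (congrFun m2 (.inl 0)) (.inl 0)
  rw [det_smul, hd, Wt.card_I4] at md
  exact h (by linear_combination md - (c * c + 1) * h4)

open TrL Mit.Tr in
theorem l27 (p : ℕ) [Fact p.Prime] [CharP K p] (hx : Cx π) (hl : Lin π q ρ) (h7 : p ≠ 7) (e : G ≃* PSL(2, ZMod 7)) :
    p ≠ 2 ∧ (∀ x : P, q x ≠ 1 → q x ^ 2 = 1 → (ρ x : M4 K) * (ρ x : M4 K) = -1) ∧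
      (∀ x : P, q x = 1 → (ρ x : M4 K) = 1 ∨ (ρ x : M4 K) = -1) ∧
      ∀ x : P, x ≠ 1 → x ^ 7 = 1 → tr ρ x⁻¹ ≠ tr ρ x := by
  obtain ⟨C, hC, h4⟩ := exists_cyc (E := ZMod 7) (by decide)
  have hZ := hl.ker_of_iso hx e C hC h4
  have k7 : (7 : K) ≠ 0 := fun k => h7 ((Nat.prime_dvd_prime_iff_eq Fact.out (by norm_num)).1
    ((CharP.cast_eq_zero_iff K p 7).1 (by exact_mod_cast k)))
  have hs : ∀ x : P, x ≠ 1 → x ^ 7 = 1 → ∃ ζ : K, IsPrimitiveRoot ζ 7 ∧ tr ρ x = 1 + ζ + ζ ^ 2 + ζ ^ 4 ∧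
      tr ρ x⁻¹ = 1 + ζ ^ 3 + ζ ^ 5 + ζ ^ 6 ∧ ((ρ x : M4 K) - 1).rank ≤ 3 := fun x h1 hx7 => by
    have h2 : q x ≠ 1 := fun k => h1 (hl.eq_of_odd hx (by decide) hx7 (one_pow _) (k.trans (map_one q).symm))
    obtain ⟨k, hk⟩ := seven_conj (g := e (q x)) (by simpa using h2) (by rw [← map_pow, ← map_pow, hx7]; simp)
    exact hl.tr_seven hx k7 (k := e.symm k) h2 hx7 (e.injective (by simpa using hk))
  obtain ⟨u, s, g, hg, hu, s1, s2, u3, g1, g7, gc⟩ := gen7
  obtain ⟨x, hx1, x7⟩ := hl.lift_odd hx (g := e.symm u) (n := 7) (by decide)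
    (by rw [← map_pow, hu, U7_pow, map_one])
  obtain ⟨y, hy1, y3⟩ := hl.lift_odd hx (g := e.symm (u * s)⁻¹) (n := 3) (by decide)
    (by rw [← map_pow, inv_pow, u3]; simp)
  have ht : q (x⁻¹ * y⁻¹) = e.symm s := by simp [hx1, hy1]
  have t1 : q (x⁻¹ * y⁻¹) ≠ 1 := by simpa [ht] using s1
  have t2 : q (x⁻¹ * y⁻¹) ^ 2 = 1 := by rw [ht, ← map_pow, s2, map_one]
  have key : (ρ (x⁻¹ * y⁻¹) : M4 K) * ρ (x⁻¹ * y⁻¹) ≠ 1 := fun k => by
    have h1 := scott hx (a := e.symm u) (b := e.symm s) (by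
      have := congrArg (Subgroup.map e.symm.toMonoidHom) hg
      rwa [MonoidHom.map_closure, Set.image_pair, Subgroup.map_top_of_surjective _ e.symm.surjective] at this)
      (hx1 ▸ hl.rep x) (ht ▸ hl.rep _) (C := ρ y) (by simp)
    obtain ⟨-, -, -, -, h2⟩ := hs x (fun k => U7_ne (e.symm.injective (by simpa [k, hu] using hx1.symm))) x7
    have h3 := rank_le_two (hl.rep _) k (hl.det _) fun k' =>
      t1 ((hl.ker hx).2 ⟨-1, by norm_num, by simp only [k', neg_smul, one_smul]⟩)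
    have h5 := seven_rank hx k7 (g := e.symm g) (k := q y) (by simpa using g1)
      (by rw [← map_pow, g7, map_one]) (by rw [hy1, ← map_inv, ← map_mul, ← map_mul, gc, map_pow])
      (by rw [← map_pow, y3, map_one]) (hl.rep y)
      (by rw [← Units.val_pow_eq_pow_val, ← map_pow, y3, map_one, Units.val_one]) (hl.det y)
    omega
  have key2 := (hZ (x⁻¹ * y⁻¹ * (x⁻¹ * y⁻¹)) (by rwa [map_mul, ← sq])).resolve_left
    (by rwa [map_mul, Units.val_mul])
  refine ⟨?_, fun z z1 z2 => ?_, hZ, fun z z1 z7 k => ?_⟩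
  · rintro rfl
    rw [map_mul, Units.val_mul] at key2
    exact key (by rw [key2, neg_eq_iff_add_eq_zero, ← two_smul K, CharTwo.two_eq_zero, zero_smul])
  · rw [← Units.val_mul, ← map_mul, hl.sq_eq hx hZ t2 ?_, key2]
    simpa using e.symm.toMonoidHom.map_isConj (inv_conj (by decide) (a := e (q (x⁻¹ * y⁻¹))) (b := e (q z))
      (e.map_ne_one_iff.2 t1) (by rw [← map_pow, t2, map_one]) (by simpa using z1)
      (by rw [← map_pow, z2, map_one]))
  · obtain ⟨ζ, hζ, h1, h2, -⟩ := hs z z1 z7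
    have h3 := hζ.geom_sum_eq_zero (by norm_num)
    have h5 := hζ.pow_eq_one
    simp only [Finset.sum_range_succ, Finset.sum_range_zero] at h3
    rw [h1, h2] at k
    exact k7 (by grind)

end CfsgLib.D4
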