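import Cfsg.Agent.Lib.D4.Defs
import Cfsg.Prelude.Def_ChevG2
import Cfsg.Agent.Lib.Chev.Units
import Cfsg.Agent.Lib.Chev.CertG2
import Cfsg.Agent.Lib.Classical.SmallIso
import Cfsg.Agent.Lib.Unitary.SU2
import Cfsg.Agent.Lib.Symp.Basic

/-! Heisenberg subgroups.  See `plans/D4.md`. -/

set_option autoImplicit false

namespace CfsgLib.D4

open Matrix Cfsg Cfsg.Geo CfsgLib.Asch
open scoped MatrixGroups commutatorElement

namespace Wit1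

open CfsgLib.Classical CfsgLib.Symp CfsgLib.Chev

variable {G H M : Type*} [Group G] [Group H] [Monoid M]

theorem heis_map (f : H →* G) (hf : ∀ y, f y = 1 → y ∈ Subgroup.center H) (h : Heis H) : Heis G := by
  obtain ⟨a, b, h1, h2, h3, h4, h5, h6, h7⟩ := h
  refine ⟨f a, f b, by rw [← map_pow, h1, map_one], by rw [← map_pow, h2, map_one], ?_⟩
  rw [← map_commutatorElement]
  refine ⟨fun e => h3 ?_, by rw [← map_pow, h4, map_one], h5.map f, h6.map f, map_inv f ⁅a, b⁆ ▸ f.map_isConj h7⟩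
  obtain ⟨c, hc⟩ := isConj_iff.1 h7
  rw [Subgroup.mem_center_iff.1 (hf _ e) c, mul_inv_cancel_right, eq_inv_iff_mul_eq_one] at hc
  rwa [pow_succ, pow_two, hc, one_mul] at h4

theorem heis_equiv (e : G ≃* H) (h : Heis H) : Heis G :=
  heis_map e.symm.toMonoidHom (fun y hy => by
    rw [(MulEquiv.map_eq_one_iff e.symm).1 hy]; exact one_mem _) h

theorem heis_quot (h : Heis H) : Heis (H ⧸ Subgroup.center H) :=
  heis_map (QuotientGroup.mk' _) (fun _ hy => (QuotientGroup.eq_one_iff _).1 hy) h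

theorem comm_eq {a b y : H} (h : a * b = y * (b * a)) : ⁅a, b⁆ = y := by
  rw [commutatorElement_def, h]; group

theorem heis_mat (ρ : H →* M) (hρ : Function.Injective ρ) (a b y c : H)
    (h : ρ a * ρ a * ρ a = 1 ∧ ρ b * ρ b * ρ b = 1 ∧ ρ a * ρ b = ρ y * (ρ b * ρ a) ∧ ρ y ≠ 1 ∧ ρ y * ρ y * ρ y = 1 ∧
      ρ y * ρ a = ρ a * ρ y ∧ ρ y * ρ b = ρ b * ρ y ∧ ρ y * ρ c * ρ y = ρ c) : Heis H := by
  simp only [← map_mul, ← map_one ρ, hρ.eq_iff, ne_eq] at h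
  obtain ⟨h1, h2, h3, h4, h5, h6, h7, h8⟩ := h
  have p3 : ∀ x : H, x ^ 9 = (x * x * x) ^ 3 := fun x => by rw [← pow_three', ← pow_mul]
  refine ⟨a, b, by rw [p3, h1, one_pow], by rw [p3, h2, one_pow], ?_⟩
  rw [comm_eq h3]
  refine ⟨h4, by rw [pow_three', h5], h6, h7, isConj_iff.2 ⟨c, ?_⟩⟩
  rw [mul_inv_eq_iff_eq_mul, eq_inv_mul_iff_mul_eq, ← mul_assoc, h8]

instance : Fact (Nat.Prime 3) := Nat.fact_prime_three

theorem sl3 : Heis SL(3, ZMod 3) :=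
  heis_mat SpecialLinearGroup.coeMonoidHom Subtype.val_injective ⟨!![1, 1, 0; 0, 1, 0; 0, 0, 1], by decide +kernel⟩
    ⟨!![1, 0, 0; 0, 1, 1; 0, 0, 1], by decide +kernel⟩ ⟨!![1, 0, 1; 0, 1, 0; 0, 0, 1], by decide +kernel⟩
    ⟨!![1, 0, 0; 0, 2, 0; 0, 0, 2], by decide +kernel⟩ (by decide +kernel)

theorem sl4 : Heis SL(4, ZMod 3) :=
  heis_mat SpecialLinearGroup.coeMonoidHom Subtype.val_injective
    ⟨!![1, 1, 0, 0; 0, 1, 0, 0; 0, 0, 1, 0; 0, 0, 0, 1], by decide +kernel⟩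
    ⟨!![1, 0, 0, 0; 0, 1, 1, 0; 0, 0, 1, 0; 0, 0, 0, 1], by decide +kernel⟩
    ⟨!![1, 0, 1, 0; 0, 1, 0, 0; 0, 0, 1, 0; 0, 0, 0, 1], by decide +kernel⟩
    ⟨!![1, 0, 0, 0; 0, 2, 0, 0; 0, 0, 2, 0; 0, 0, 0, 1], by decide +kernel⟩ (by decide +kernel)

/-- an explicit element of the special unitary group over the field with nine elements -/
def su {n : ℕ} (A : Matrix (Fin n) (Fin n) GF9) (h : A.det = 1 ∧ Aᵀ * A.map (fun x => x ^ 3) = 1) : SU n GF9 3 :=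
  ⟨⟨A, h.1⟩, (Unitary.mem_SU_iff card_GF9 _).2 h.2⟩

theorem su_inj (n : ℕ) : Function.Injective (SpecialLinearGroup.coeMonoidHom.comp (SU n GF9 3).subtype) :=
  Subtype.val_injective.comp Subtype.val_injective

theorem su3 : Heis (SU 3 GF9 3) :=
  heis_mat _ (su_inj 3) (su !![0, ⟨0, 1⟩, 0; 0, 0, ⟨2, 0⟩; ⟨0, 1⟩, 0, 0] (by decide +kernel))
    (su !![0, ⟨2, 2⟩, ⟨2, 1⟩; ⟨1, 1⟩, ⟨0, 2⟩, 1; ⟨1, 2⟩, 1, ⟨0, 1⟩] (by decide +kernel))
    (su !![⟨1, 2⟩, 1, ⟨2, 0⟩; ⟨2, 0⟩, ⟨1, 2⟩, ⟨0, 1⟩; 1, ⟨0, 1⟩, ⟨1, 2⟩] (by decide +kernel))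
    (su !![0, ⟨1, 1⟩, ⟨2, 2⟩; ⟨1, 1⟩, ⟨0, 2⟩, ⟨0, 2⟩; ⟨2, 2⟩, ⟨0, 2⟩, ⟨0, 2⟩] (by decide +kernel)) (by decide +kernel)

theorem su4 : Heis (SU 4 GF9 3) :=
  heis_mat _ (su_inj 4) (su !![0, ⟨0, 1⟩, 0, 0; 0, 0, ⟨2, 0⟩, 0; ⟨0, 1⟩, 0, 0, 0; 0, 0, 0, 1] (by decide +kernel))
    (su !![0, ⟨2, 2⟩, ⟨2, 1⟩, 0; ⟨1, 1⟩, ⟨0, 2⟩, 1, 0; ⟨1, 2⟩, 1, ⟨0, 1⟩, 0; 0, 0, 0, 1] (by decide +kernel))
    (su !![⟨1, 2⟩, 1, ⟨2, 0⟩, 0; ⟨2, 0⟩, ⟨1, 2⟩, ⟨0, 1⟩, 0; 1, ⟨0, 1⟩, ⟨1, 2⟩, 0; 0, 0, 0, 1] (by decide +kernel))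
    (su !![0, ⟨1, 1⟩, ⟨2, 2⟩, 0; ⟨1, 1⟩, ⟨0, 2⟩, ⟨0, 2⟩, 0; ⟨2, 2⟩, ⟨0, 2⟩, ⟨0, 2⟩, 0; 0, 0, 0, 1] (by decide +kernel))
    (by decide +kernel)

theorem g2 {F : Type*} [Field F] (h3 : (1 + 1 + 1 : F) = 0) : Heis (Lie.chevG2.group F) := by
  have c : ∀ {r s : ℕ}, r < 12 → s < 12 → s ≠ Lie.chevG2.neg r → ∀ t u : F, xU Lie.chevG2 F s u * xU Lie.chevG2 F r t =
      xU Lie.chevG2 F r t * xU Lie.chevG2 F s u * wordU Lie.chevG2 F (Lie.chevG2.commWord F r s t u) :=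
    fun hr hs hn t u => by rw [← xU_comm hr hs hn]; group
  have p : ∀ r, xU Lie.chevG2 F r 1 * xU Lie.chevG2 F r 1 * xU Lie.chevG2 F r 1 = 1 := fun r => by
    rw [← xU_add, ← xU_add, h3, xU_zero]
  have t1 : Lie.chevG2.commTerms 10 6 = [(11, -1, 1, 1)] := by decide
  have t2 : Lie.chevG2.commTerms 6 11 = [] := by decide
  have t3 : Lie.chevG2.commTerms 10 11 = [] := by decide
  have t4 : Lie.chevG2.pairing 6 11 = 1 := by decide
  have c1 := c (r := 10) (s := 6) (by decide) (by decide) (by decide) 1 1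
  have c2 := c (r := 6) (s := 11) (by decide) (by decide) (by decide) 1 1
  have c3 := c (r := 10) (s := 11) (by decide) (by decide) (by decide) 1 1
  have c4 := hU_conj_xU (D := Lie.chevG2) (F := F) (r := 6) (by decide) (neg_ne_zero.2 one_ne_zero) 11 1
  simp only [Lie.ChevalleyDatum.commWord, t1, t2, t3, t4, wordU, List.map_cons, List.map_nil, List.prod_cons,
    List.prod_nil, mul_one, pow_one, Int.cast_neg, Int.cast_one, neg_mul_neg, zpow_one] at c1 c2 c3 c4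
  refine heis_mat (Lie.chevG2.group F).subtype Subtype.val_injective ⟨_, xU_mem_group 6 1⟩ ⟨_, xU_mem_group 10 1⟩
    ⟨_, xU_mem_group 11 1⟩ ⟨_, hU_mem_group 6 (-1)⟩ ⟨p 6, p 10, ?_, fun e => ?_, p 11, c2, c3, ?_⟩
  · simp only [Subgroup.coe_subtype]
    rw [c1, ← mul_assoc, c3, mul_assoc, mul_assoc, c2]
  · exact one_ne_zero ((xU_eq_one_iff (by decide) _).1 e)
  · simp only [Subgroup.coe_subtype]
    rw [mul_assoc, mul_inv_eq_iff_eq_mul.1 c4, ← mul_assoc, ← xU_add, add_neg_cancel, xU_zero, one_mul]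

/-- the statement on transvections -/
def S43 (G : Type*) [Group G] : Prop := ∃ a b : G, a ^ 3 = 1 ∧ b ^ 3 = 1 ∧
    ⁅a, b⁆ ≠ 1 ∧ ⁅a, b⁆ ^ 3 = 1 ∧ Commute ⁅a, b⁆ a ∧ Commute ⁅a, b⁆ b ∧
    ∀ x y, IsConj ⁅a, b⁆ x → IsConj ⁅a, b⁆ y → x * y = y * x ∨ x * y * x = y * x * y

theorem S43.equiv (e : G ≃* H) (h : S43 H) : S43 G := by
  obtain ⟨a, b, h1, h2, h3, h4, h5, h6, h7⟩ := h
  refine ⟨e.symm a, e.symm b, by rw [← map_pow, h1, map_one], by rw [← map_pow, h2, map_one], ?_⟩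
  rw [← map_commutatorElement]
  refine ⟨fun e1 => h3 ((MulEquiv.map_eq_one_iff _).1 e1), by rw [← map_pow, h4, map_one], h5.map _, h6.map _, fun x y hx hy => ?_⟩
  have := h7 (e x) (e y) (by simpa using e.toMonoidHom.map_isConj hx) (by simpa using e.toMonoidHom.map_isConj hy)
  simpa only [← map_mul, e.injective.eq_iff] using this

theorem braid {F : Type*} [Field F] {m : ℕ} (hF : ∀ t : F, t = 0 ∨ t ^ 2 = 1) (u v : Fin m ⊕ Fin m → F) :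
    spT u 1 * spT v 1 = spT v 1 * spT u 1 ∨ spT u 1 * spT v 1 * spT u 1 = spT v 1 * spT u 1 * spT v 1 := by
  refine (hF (Forms.spB (Fin m) F u v)).imp (fun e => ?_) fun e => ?_
  · rw [eq_comm, ← mul_inv_eq_iff_eq_mul, conj_spT, spT_smul, e, mul_zero, zero_smul, add_zero]
  · have h : (spT u 1 * spT v 1) • u = Forms.spB (Fin m) F u v • v := by
      rw [mul_smul, spT_smul, spT_smul]
      simp only [map_add, map_smul, LinearMap.add_apply, LinearMap.smul_apply, spB_self, spB_comm v u, smul_eq_mul]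
      linear_combination (norm := module) (-e) • u
    rw [mul_assoc (spT v 1), ← mul_inv_eq_iff_eq_mul, conj_spT, h, spT_smul_left, one_mul, e]

theorem s43 : S43 (PSp 2 (ZMod 3)) := by
  let w : Fin 2 ⊕ Fin 2 → ZMod 3 := Sum.elim ![1, 0] ![0, 0]
  let b := spT (m := 2) (Sum.elim ![0, 1] ![0, 0]) (2 : ZMod 3) * spT (Sum.elim ![1, 1] ![0, 0]) 1
  let a := spT (m := 2) (Sum.elim ![0, 0] ![0, 1]) (2 : ZMod 3) * spT (Sum.elim ![1, 0] ![0, 1]) 1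
  have h : a * a * a = 1 ∧ b * b * b = 1 ∧ a * b = spT w 1 * (b * a) ∧ spT w 1 * spT w 1 * spT w 1 = 1 ∧
      spT w 1 * a = a * spT w 1 ∧ spT w 1 * b = b * spT w 1 ∧ spT w 1 ≠ 1 ∧ spT w 1 ≠ spNegOne _ _ := by
    decide +kernel
  obtain ⟨h1, h2, h3, h4, h5, h6, h7, h8⟩ := h
  let f := QuotientGroup.mk' (Subgroup.center (symplecticGroup (Fin 2) (ZMod 3)))
  refine ⟨f a, f b, by rw [← map_pow, pow_three', h1, map_one], by rw [← map_pow, pow_three', h2, map_one], ?_⟩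
  rw [← map_commutatorElement, comm_eq h3]
  refine ⟨fun e => (mem_center_iff.1 ((QuotientGroup.eq_one_iff _).1 e)).elim h7 h8,
    by rw [← map_pow, pow_three', h4, map_one], (show Commute _ _ from h5).map f, (show Commute _ _ from h6).map f,
    fun x y hx hy => ?_⟩
  have k : ∀ {x}, IsConj (f (spT w 1)) x → ∃ u, x = f (spT u 1) := fun hx => by
    obtain ⟨c, rfl⟩ := isConj_iff.1 hx
    obtain ⟨c, rfl⟩ := QuotientGroup.mk'_surjective _ c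
    exact ⟨c • w, by rw [← conj_spT, map_mul, map_mul, map_inv]⟩
  obtain ⟨u, rfl⟩ := k hx
  obtain ⟨v, rfl⟩ := k hy
  simp only [← map_mul]
  exact (braid (by decide) u v).imp (congrArg f) (congrArg f)

end Wit1

open Wit1 CfsgLib.Classical

variable {G : Type*} [Group G] {F : Type*} [Field F] [Fintype F]

theorem heis_L3 (hF : Fintype.card F = 3) (e : G ≃* PSL(3, F)) : Heis G :=
  heis_equiv (e.trans (pslMapEquiv (FiniteField.ringEquivOfCardEq (hF.trans (ZMod.card 3).symm)))) (heis_quot sl3)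

theorem heis_L4 (hF : Fintype.card F = 3) (e : G ≃* PSL(4, F)) : Heis G :=
  heis_equiv (e.trans (pslMapEquiv (FiniteField.ringEquivOfCardEq (hF.trans (ZMod.card 3).symm)))) (heis_quot sl4)

theorem heis_U3 (hF : Fintype.card F = 9) (e : G ≃* PSU 3 F 3) : Heis G :=
  heis_equiv (e.trans (Unitary.psuMapEquiv (FiniteField.ringEquivOfCardEq (hF.trans card_GF9.symm)))) (heis_quot su3)

theorem heis_U4 (hF : Fintype.card F = 9) (e : G ≃* PSU 4 F 3) : Heis G :=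
  heis_equiv (e.trans (Unitary.psuMapEquiv (FiniteField.ringEquivOfCardEq (hF.trans card_GF9.symm)))) (heis_quot su4)

theorem heis_G2 (hF : Fintype.card F = 3) (e : G ≃* Lie.chevG2.group F) : Heis G :=
  heis_equiv e (g2 (by
    have := FiniteField.cast_card_eq_zero F
    rw [hF] at this
    linear_combination this))

/-- transvections of `PSp₄(3)` -/
theorem s43_facts (hF : Fintype.card F = 3) (e : G ≃* PSp 2 F) : ∃ a b : G, a ^ 3 = 1 ∧ b ^ 3 = 1 ∧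
    ⁅a, b⁆ ≠ 1 ∧ ⁅a, b⁆ ^ 3 = 1 ∧ Commute ⁅a, b⁆ a ∧ Commute ⁅a, b⁆ b ∧
    ∀ x y, IsConj ⁅a, b⁆ x → IsConj ⁅a, b⁆ y → x * y = y * x ∨ x * y * x = y * x * y :=
  s43.equiv (e.trans (centerQuotEquiv (spMapEquiv (FiniteField.ringEquivOfCardEq (hF.trans (ZMod.card 3).symm)))))

end CfsgLib.D4
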