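import Cfsg.Agent.Lib.D4.TrL2
import Cfsg.Agent.Lib.D4.Tri
import Cfsg.Agent.Lib.D4.Wit1
import Cfsg.Agent.Lib.LnRec.Lin

/-! Traces: `PSp₄(3)`.  See `plans/D4.md`. -/

set_option autoImplicit false

namespace CfsgLib.D4

open Matrix Cfsg Cfsg.Geo CfsgLib.Asch
open scoped MatrixGroups commutatorElement

variable {G K : Type*} [Group G] [Finite G] [Field K] [IsAlgClosed K] {π : G →* PG4 K}
  {P : Type*} [Group P] [Finite P] {q : P →* G} {ρ : P →* GL I4 K}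

namespace TrU

/-- pairs of conjugate elements of `ℤ[μ]` -/
def RR (μ : K) (hμ : μ ^ 2 + μ + 1 = 0) : Subring (K × K) where
  carrier := {s | ∃ a b : ℤ, s.1 = a + b * μ ∧ s.2 = a + b * μ ^ 2}
  zero_mem' := ⟨0, 0, by simp, by simp⟩
  one_mem' := ⟨1, 0, by simp, by simp⟩
  add_mem' := fun ⟨a, b, h, h'⟩ ⟨c, d, k, k'⟩ => ⟨a + c, b + d, by
    rw [Prod.fst_add, h, k]; push_cast; ring, by rw [Prod.snd_add, h', k']; push_cast; ring⟩
  neg_mem' := fun ⟨a, b, h, h'⟩ => ⟨-a, -b, by rw [Prod.fst_neg, h]; push_cast; ring, by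
    rw [Prod.snd_neg, h']; push_cast; ring⟩
  mul_mem' := fun ⟨a, b, h, h'⟩ ⟨c, d, k, k'⟩ => ⟨a * c - b * d, a * d + b * c - b * d, by
    rw [Prod.fst_mul, h, k]; push_cast; linear_combination (b * d : K) * hμ, by
    rw [Prod.snd_mul, h', k']; push_cast; linear_combination (b * d * (μ ^ 2 - μ + 1) : K) * hμ⟩

/-- the homology `1 + (μ - 1) v φ` -/
abbrev hm (μ : K) (v φ : I4 → K) : M4 K := 1 + (μ - 1) • vecMulVec v φ

omit [IsAlgClosed K] in
theorem hm_mulVec (μ : K) (v φ u : I4 → K) : hm μ v φ *ᵥ u = u + ((μ - 1) * (φ ⬝ᵥ u)) • v := by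
  rw [add_mulVec, one_mulVec, smul_mulVec, vecMulVec_mulVec, op_smul_eq_smul, smul_smul]

omit [IsAlgClosed K] in
theorem vecMul_hm (μ : K) (v φ u : I4 → K) : u ᵥ* hm μ v φ = u + ((μ - 1) * (u ⬝ᵥ v)) • φ := by
  rw [vecMul_add, vecMul_one, vecMul_smul, vecMul_vecMulVec, smul_smul]

omit [IsAlgClosed K] in
theorem hm_mul {μ ν : K} {v φ : I4 → K} (h : φ ⬝ᵥ v = 1) : hm μ v φ * hm ν v φ = hm (μ * ν) v φ := by
  rw [add_mul, mul_add, mul_add, smul_mul_smul_comm, vecMulVec_sq, h]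
  simp only [one_mul, mul_one]
  module

omit [IsAlgClosed K] in
theorem hm_one (v φ : I4 → K) : hm 1 v φ = 1 := by simp [hm]

omit [IsAlgClosed K] [Finite G] in
/-- the invariant of a pair -/
theorem kap {μ : K} (hμ : μ ^ 2 + μ + 1 = 0) (h1 : μ ≠ 1) {d e : G} {v φ w ψ : I4 → K}
    (hd : Rep π d (hm μ v φ)) (he : Rep π e (hm μ w ψ)) (hv : φ ⬝ᵥ v = 1) (hw : ψ ⬝ᵥ w = 1) :
    (d * e = e * d → φ ⬝ᵥ w * (ψ ⬝ᵥ v) = 0 ∨ φ ⬝ᵥ w * (ψ ⬝ᵥ v) = 1) ∧
      (d * e * d = e * d * e → 3 * (φ ⬝ᵥ w * (ψ ⬝ᵥ v)) = 1 ∨ φ ⬝ᵥ w * (ψ ⬝ᵥ v) = 1) := by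
  obtain ⟨u, hu, a, b⟩ := LnRec.exists_ker2 (ι := I4) (by simp) φ ψ
  have f1 : hm μ v φ *ᵥ u = u := by simp [hm_mulVec, a]
  have f2 : hm μ w ψ *ᵥ u = u := by simp [hm_mulVec, b]
  have c1 : ∀ c : K, u = c • u → c = 1 := fun c e =>
    (smul_left_injective K hu (e.symm.trans (one_smul K u).symm))
  have l0 := sub_ne_zero.2 h1
  have m0 : μ ≠ 0 := by rintro rfl; simp at hμ
  constructor
  · intro h
    obtain ⟨c, -, e⟩ := (he.mul hd).unique (h ▸ hd.mul he)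
    have := congrArg (· *ᵥ u) e
    simp only [smul_mulVec, ← mulVec_mulVec, f1, f2] at this
    rw [c1 c this, one_smul] at e
    have := congrArg (fun M => φ ⬝ᵥ M *ᵥ w) e
    simp only [← mulVec_mulVec, hm_mulVec, dotProduct_add, dotProduct_smul, hv, hw, smul_eq_mul] at this
    rw [← sub_eq_zero (b := 1), ← mul_eq_zero]
    apply mul_left_cancel₀ (mul_ne_zero l0 l0)
    linear_combination (-(ψ ⬝ᵥ v)) * this
  · intro h
    obtain ⟨c, -, e⟩ := ((he.mul hd).mul he).unique (h ▸ (hd.mul he).mul hd)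
    have := congrArg (· *ᵥ u) e
    simp only [smul_mulVec, ← mulVec_mulVec, f1, f2] at this
    rw [c1 c this, one_smul] at e
    have := congrArg (fun M => φ ⬝ᵥ M *ᵥ v) e
    simp only [← mulVec_mulVec, hm_mulVec, dotProduct_add, dotProduct_smul, hv, hw, smul_eq_mul] at this
    rw [← sub_eq_zero (b := 1), ← sub_eq_zero (b := 1) (a := _ * (ψ ⬝ᵥ v)), ← mul_eq_zero]
    apply mul_left_cancel₀ (mul_ne_zero l0 m0)
    linear_combination (exp := 1) this + ((μ - 1) * (φ ⬝ᵥ w * (ψ ⬝ᵥ v)) * (φ ⬝ᵥ w * (ψ ⬝ᵥ v) - 1)) * hμ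

omit [IsAlgClosed K] in
/-- the invariants of a triple -/
theorem tau {μ : K} (hμ : μ ^ 2 + μ + 1 = 0) {n : ℤ} (hn : (n : K) * 3 = 1) {a b c a' b' c' : K}
    (h1 : (a * a', a * a') ∈ RR μ hμ) (h2 : (b * b', b * b') ∈ RR μ hμ)
    (h3 : (c * c', c * c') ∈ RR μ hμ)
    (h4 : ∀ ν ν' : K, (ν = μ ∧ ν' = μ ^ 2 ∨ ν = μ ^ 2 ∧ ν' = μ) → ∀ t,
      t = (c' + (ν - 1) * b * a) * (c + (ν' - 1) * b' * a') → (t, t) ∈ RR μ hμ) :
    (a * b * c, c' * b' * a') ∈ RR μ hμ := by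
  have r1 := h4 _ _ (.inl ⟨rfl, rfl⟩) _ rfl
  have r2 := h4 _ _ (.inr ⟨rfl, rfl⟩) _ rfl
  have m : (μ, μ ^ 2) ∈ RR μ hμ := ⟨0, 1, by simp, by simp⟩
  have m' : (μ ^ 2, μ) ∈ RR μ hμ :=
    ⟨-1, -1, by push_cast; linear_combination hμ, by push_cast; linear_combination hμ⟩
  have k := add_mem h3 (mul_mem (natCast_mem (RR μ hμ) 3) (mul_mem h1 h2))
  have := mul_mem (mul_mem (intCast_mem _ (n * n)) (sub_mem m m')) (sub_mem
    (mul_mem (sub_mem m (one_mem _)) (sub_mem r1 k)) (mul_mem (sub_mem m' (one_mem _)) (sub_mem r2 k)))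
  convert this using 1
  ext
  · simp only [Prod.fst_mul, Prod.fst_sub, Prod.fst_add, Prod.fst_one, Prod.fst_intCast,
      Prod.fst_natCast]
    push_cast
    grind
  · simp only [Prod.snd_mul, Prod.snd_sub, Prod.snd_add, Prod.snd_one, Prod.snd_intCast,
      Prod.snd_natCast]
    push_cast
    grind

omit [IsAlgClosed K] [Finite P] in
/-- induction on words -/
theorem core {μ : K} (hμ : μ ^ 2 + μ + 1 = 0) (ρ : P →* GL I4 K) {S : Set P}
    (hS : Subgroup.closure S = ⊤) (v φ : P → I4 → K) (v0 φ0 : I4 → K) (h3 : ∀ s ∈ S, s ^ 3 = 1)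
    (hρ : ∀ s ∈ S, (ρ s : M4 K) = μ ^ 2 • hm μ (v s) (φ s)) (hv : ∀ s ∈ S, φ s ⬝ᵥ v s = 1)
    (hn : ∀ s ∈ S, ∃ n : ℤ, n * (φ0 ⬝ᵥ v s * (φ s ⬝ᵥ v0)) = 1)
    (hτ : ∀ i ∈ S, ∀ j ∈ S, (φ0 ⬝ᵥ v i * (φ i ⬝ᵥ v j) * (φ j ⬝ᵥ v0),
      φ0 ⬝ᵥ v j * (φ j ⬝ᵥ v i) * (φ i ⬝ᵥ v0)) ∈ RR μ hμ) (x : P) :
    (tr ρ x, tr ρ x⁻¹) ∈ RR μ hμ := by
  have m : (μ, μ ^ 2) ∈ RR μ hμ := ⟨0, 1, by simp, by simp⟩
  have m' : (μ ^ 2, μ) ∈ RR μ hμ :=
    ⟨-1, -1, by push_cast; linear_combination hμ, by push_cast; linear_combination hμ⟩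
  have s3 : ∀ s ∈ S, s⁻¹ = s * s := fun s hs =>
    inv_eq_of_mul_eq_one_right (by rw [← h3 s hs, pow_three])
  have hi : ∀ s ∈ S, (ρ s⁻¹ : M4 K) = μ • hm (μ ^ 2) (v s) (φ s) := fun s hs => by
    rw [s3 s hs, map_mul, Units.val_mul, hρ s hs, smul_mul_smul_comm, hm_mul (hv s hs), ← pow_two μ]
    congr 1
    linear_combination (μ * (μ - 1)) * hμ
  let A : P → P → P → K := fun x i j => φ0 ⬝ᵥ v i * (φ i ⬝ᵥ (ρ x : M4 K) *ᵥ v j) * (φ j ⬝ᵥ v0)
  let Gd : P → Prop := fun x => (∀ i ∈ S, ∀ j ∈ S, (A x i j, A x⁻¹ j i) ∈ RR μ hμ) ∧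
    (tr ρ x, tr ρ x⁻¹) ∈ RR μ hμ
  have step : ∀ x, ∀ s ∈ S, Gd x → Gd (x * s) := fun x s hs ⟨h1, h2⟩ => by
    obtain ⟨n, e⟩ := hn s hs
    have k := mul_mem (sub_mem m (one_mem _)) (intCast_mem (RR μ hμ) n)
    refine ⟨fun i hi' j hj => ?_, ?_⟩
    · convert mul_mem m' (add_mem (h1 i hi' j hj) (mul_mem k (mul_mem (h1 i hi' s hs) (hτ s hs j hj))))
        using 1
      ext
      · simp only [A, map_mul, Units.val_mul, hρ s hs, ← mulVec_mulVec, smul_mulVec, hm_mulVec,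
          mulVec_add, mulVec_smul, dotProduct_add, dotProduct_smul, smul_eq_mul, Prod.fst_mul,
          Prod.fst_sub, Prod.fst_add, Prod.fst_one, Prod.fst_intCast]
        linear_combination (-(μ ^ 2 * (μ - 1) * (φ0 ⬝ᵥ v i) * (φ i ⬝ᵥ (ρ x : M4 K) *ᵥ v s) *
          (φ s ⬝ᵥ v j) * (φ j ⬝ᵥ v0))) * e
      · simp only [A, _root_.mul_inv_rev, map_mul, Units.val_mul, hi s hs, ← mulVec_mulVec,
          smul_mulVec, hm_mulVec, dotProduct_add, dotProduct_smul, smul_eq_mul, Prod.snd_mul,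
          Prod.snd_sub, Prod.snd_add, Prod.snd_one, Prod.snd_intCast]
        linear_combination (-(μ * (μ ^ 2 - 1) * (φ0 ⬝ᵥ v j) * (φ s ⬝ᵥ (ρ x⁻¹ : M4 K) *ᵥ v i) *
          (φ j ⬝ᵥ v s) * (φ i ⬝ᵥ v0))) * e
    · convert mul_mem m' (add_mem h2 (mul_mem k (h1 s hs s hs))) using 1
      ext
      · simp only [A, tr, map_mul, Units.val_mul, hρ s hs, mul_smul_comm, mul_add, mul_one,
          trace_smul, trace_add, mul_vecMulVec, trace_vecMulVec, smul_eq_mul, Prod.fst_mul,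
          Prod.fst_sub, Prod.fst_add, Prod.fst_one, Prod.fst_intCast, dotProduct_comm _ (φ s)]
        linear_combination (-(μ ^ 2 * (μ - 1) * (φ s ⬝ᵥ (ρ x : M4 K) *ᵥ v s))) * e
      · simp only [A, tr, _root_.mul_inv_rev, map_mul, Units.val_mul, hi s hs]
        rw [trace_mul_comm]
        simp only [mul_smul_comm, mul_add, mul_one,
          trace_smul, trace_add, mul_vecMulVec, trace_vecMulVec, smul_eq_mul, Prod.snd_mul,
          Prod.snd_sub, Prod.snd_add, Prod.snd_one, Prod.snd_intCast, dotProduct_comm _ (φ s)]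
        linear_combination (-(μ * (μ ^ 2 - 1) * (φ s ⬝ᵥ (ρ x⁻¹ : M4 K) *ᵥ v s))) * e
  have hx : x ∈ Subgroup.closure S := hS ▸ Subgroup.mem_top x
  refine And.right (?_ : Gd x)
  induction hx using Subgroup.closure_induction_right with
  | one => exact ⟨fun i hi j hj => by simpa [A] using hτ i hi j hj, 4, 0, by simp [tr], by simp [tr]⟩
  | mul_right x _ s hs h => exact step x s hs h
  | mul_inv_cancel x _ s hs h => rw [s3 s hs, ← mul_assoc]; exact step _ s hs (step x s hs h)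

omit [Finite G] in
/-- the class of `y` is generated by `y` and the conjugates not commuting with it -/
theorem gen [IsSimpleGroup G] {y : G} (hy : y ≠ 1) :
    Subgroup.closure {d | IsConj y d ∧ (d = y ∨ d * y ≠ y * d)} = ⊤ := by
  set L := Subgroup.closure {d | IsConj y d ∧ (d = y ∨ d * y ≠ y * d)}
  have hL : y ∈ L := Subgroup.subset_closure ⟨IsConj.refl y, .inl rfl⟩
  have k : ∀ d : G, d * y = y * d → ∀ x ∈ L, d * x * d⁻¹ ∈ L := fun d hd x hx => by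
    refine (Subgroup.closure_le (L.comap (MulAut.conj d).toMonoidHom)).2 ?_ hx
    rintro x ⟨h1, h2⟩
    refine Subgroup.subset_closure ⟨h1.trans (isConj_iff.2 ⟨d, rfl⟩), h2.imp (fun e => ?_) fun h e => h ?_⟩
    · simp [e, hd]
    · have e' : d * x * d⁻¹ * y = y * (d * x * d⁻¹) := e
      have hd' : d⁻¹ * y = y * d⁻¹ := (show Commute d y from hd).inv_left
      rw [mul_assoc, hd', ← mul_assoc, ← mul_assoc, ← mul_assoc, ← hd, mul_left_inj, mul_assoc,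
        mul_assoc, mul_right_inj] at e'
      exact e'
  have h1 : Subgroup.normalClosure {y} ≤ Subgroup.normalizer (L : Set G) := by
    refine (Subgroup.closure_le _).2 fun d hd => ?_
    obtain ⟨w, hw, hd⟩ := Group.mem_conjugatesOfSet_iff.1 hd
    rw [Set.mem_singleton_iff.1 hw] at hd
    by_cases h : d * y = y * d
    · exact Subgroup.mem_normalizer_iff.2 fun x => ⟨k d h x, fun hx => by
        simpa [mul_assoc] using k d⁻¹ (show Commute d y from h).inv_left _ hx⟩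
    · exact Subgroup.le_normalizer (Subgroup.subset_closure ⟨hd, .inr h⟩)
  have h2 := (IsSimpleGroup.eq_bot_or_eq_top_of_normal (Subgroup.normalClosure {y})
    inferInstance).resolve_left fun e =>
      hy (Subgroup.mem_bot.1 (e ▸ Subgroup.subset_normalClosure rfl))
  exact (IsSimpleGroup.eq_bot_or_eq_top_of_normal L
    (Subgroup.normalizer_eq_top_iff.1 (top_le_iff.1 (h2 ▸ h1)))).resolve_left fun e =>
      hy (Subgroup.mem_bot.1 (e ▸ hL))

end TrU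

theorem Lin.eq_top (hx : Cx π) (hl : Lin π q ρ) {Q : Subgroup P} (h : Q.map q = ⊤) : Q = ⊤ := by
  have k : ∀ a : P, ∃ z b, q z = 1 ∧ b ∈ Q ∧ a = z * b := fun a => by
    obtain ⟨b, hb, e⟩ : q a ∈ Q.map q := h ▸ Subgroup.mem_top _
    obtain ⟨z, hz, e⟩ := hl.exists_ker e.symm
    exact ⟨z, b, hz, hb, e⟩
  rw [eq_top_iff, ← hl.perf, _root_.commutator, Subgroup.commutator_le]
  intro a _ b _
  obtain ⟨z, a, hz, ha, rfl⟩ := k a
  obtain ⟨y, b, hy, hb, rfl⟩ := k b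
  have : ⁅z * a, y * b⁆ = ⁅a, b⁆ := by
    simp only [commutatorElement_def, _root_.mul_inv_rev]
    calc _ = z * (a * (y * (b * a⁻¹) * z⁻¹ * b⁻¹ * y⁻¹)) := by group
      _ = z * (a * (b * a⁻¹ * z⁻¹ * b⁻¹)) := by
        rw [mul_assoc y, mul_assoc y, (hl.central hx hy _).eq, mul_inv_cancel_right]
      _ = z * (a * b * a⁻¹) * z⁻¹ * b⁻¹ := by group
      _ = _ := by rw [(hl.central hx hz _).eq, mul_inv_cancel_right]
  rw [this]
  exact mul_mem (mul_mem (mul_mem ha hb) (inv_mem ha)) (inv_mem hb)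

open TrU in
theorem tr_s43 (p : ℕ) [Fact p.Prime] [CharP K p] (hx : Cx π) (hl : Lin π q ρ) (h3 : p ≠ 3) {E : Type*} [Field E]
    [Fintype E] (hE : Fintype.card E = 3) (e : G ≃* PSp 2 E) : QuadTr ρ (-1) 1 := by
  have := hx.simple
  obtain ⟨n, hn⟩ : ∃ n : ℤ, (n : K) * 3 = 1 := by
    obtain ⟨a, b, h⟩ := Nat.isCoprime_iff_coprime.2
      ((Nat.coprime_primes Nat.prime_three Fact.out).2 h3.symm)
    exact ⟨a, by simpa using congrArg (Int.cast : ℤ → K) h⟩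
  have k3 : (3 : K) ≠ 0 := right_ne_zero_of_mul_eq_one hn
  obtain ⟨a, b, -, -, y1, y3, ca, cb, hD⟩ := s43_facts hE e
  obtain ⟨v0, φ0, μ, hμ, h0, hy⟩ := c7 hx k3 y1 y3 ca cb
  set y := ⁅a, b⁆
  have m1 : μ ≠ 1 := by rintro rfl; exact k3 (by linear_combination hμ)
  have m3 : μ ^ 3 = 1 := by linear_combination (μ - 1) * hμ
  have cj : ∀ {g d : G} {M N : M4 K} {v φ : I4 → K}, Rep π g M → M * N = 1 → Rep π d (hm μ v φ) →
      φ ⬝ᵥ v = 1 → Rep π (g * d * g⁻¹) (hm μ (M *ᵥ v) (φ ᵥ* N)) ∧ (φ ᵥ* N) ⬝ᵥ (M *ᵥ v) = 1 :=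
    fun {g d M N v φ} hg e hd h => ⟨((hg.mul hd).mul (hg.inv' e)).congr (by
      rw [mul_add, add_mul, mul_one, e, mul_smul_comm, smul_mul_assoc, mul_vecMulVec, vecMulVec_mul]),
      by rw [← dotProduct_mulVec, mulVec_mulVec, mul_eq_one_comm.1 e, one_mulVec, h]⟩
  have ex : ∀ s : P, IsConj y (q s) → ∃ v φ, Rep π (q s) (hm μ v φ) ∧ φ ⬝ᵥ v = 1 := fun s hs => by
    obtain ⟨g, e⟩ := isConj_iff.1 hs
    obtain ⟨M, hM⟩ := exists_rep π g
    exact ⟨_, _, e ▸ cj hM hM.mul_inv hy h0⟩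
  choose! v φ hr hv using ex
  have kR : ∀ {d e : G} {v φ w ψ : I4 → K}, IsConj y d → IsConj y e → Rep π d (hm μ v φ) →
      Rep π e (hm μ w ψ) → φ ⬝ᵥ v = 1 → ψ ⬝ᵥ w = 1 →
      (φ ⬝ᵥ w * (ψ ⬝ᵥ v), φ ⬝ᵥ w * (ψ ⬝ᵥ v)) ∈ RR μ hμ := fun h1 h2 h3 h4 h5 h6 => by
    obtain ⟨k1, k2⟩ := kap hμ m1 h3 h4 h5 h6
    rcases (hD _ _ h1 h2).imp k1 k2 with (h | h) | h | h
    · exact ⟨0, 0, by simpa using h, by simpa using h⟩
    · exact ⟨1, 0, by simpa using h, by simpa using h⟩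
    · exact ⟨n, 0, by grind, by grind⟩
    · exact ⟨1, 0, by simpa using h, by simpa using h⟩
  have lift : ∀ s, IsConj y (q s) → s ^ 3 = 1 → (ρ s : M4 K) = μ ^ 2 • hm μ (v s) (φ s) :=
    fun s hs s3 => by
    obtain ⟨c, -, e⟩ := (hr s hs).unique (hl.rep s)
    have h1 := hl.det s
    have h2 : (ρ s : M4 K) ^ 3 = 1 := by rw [← Units.val_pow_eq_pow_val, ← map_pow, s3]; simp
    rw [e, det_smul, hm, ← vecMulVec_smul, vecMulVec_eq Unit,
      det_one_add_replicateCol_mul_replicateRow, smul_dotProduct, hv s hs] at h1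
    rw [e, smul_pow, pow_three (hm μ _ _), hm_mul (hv s hs), hm_mul (hv s hs), ← pow_three, m3,
      hm_one] at h2
    have h4 := congrFun (congrFun h2 (.inl 0)) (.inl 0)
    simp only [Fintype.card_sum, Fintype.card_fin, smul_eq_mul, Matrix.smul_apply, one_apply_eq] at h1 h4
    rw [e, show c = μ ^ 2 by linear_combination μ ^ 2 * h1 - c * μ ^ 3 * h4 - c * m3]
  let S : Set P := {s | s ^ 3 = 1 ∧ IsConj y (q s) ∧ (q s = y ∨ q s * y ≠ y * q s)}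
  have l3 : ∀ d, IsConj y d → ∃ s, q s = d ∧ s ^ 3 = 1 := fun d hd => by
    obtain ⟨g, rfl⟩ := isConj_iff.1 hd
    exact hl.lift_odd hx (by decide) (by rw [conj_pow, y3]; simp)
  have hS : Subgroup.closure S = ⊤ := hl.eq_top hx (by
    rw [MonoidHom.map_closure, eq_top_iff, ← gen y1]
    refine Subgroup.closure_mono fun d hd => ?_
    obtain ⟨s, rfl, h⟩ := l3 d hd.1
    exact ⟨s, ⟨h, hd⟩, rfl⟩)
  refine ⟨μ, μ ^ 2, by push_cast; linear_combination hμ, by push_cast; linear_combination m3, ?_,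
    core hμ ρ hS v φ v0 φ0 (fun s hs => hs.1) (fun s hs => lift s hs.2.1 hs.1)
      (fun s hs => hv s hs.2.1) (fun s hs => ?_) fun i hi j hj => ?_⟩
  · obtain ⟨s, h1, h2⟩ := l3 y (IsConj.refl y)
    have h : IsConj y (q s) := h1 ▸ IsConj.refl y
    refine ⟨s, -2, -3, by simpa using k3, ?_⟩
    rw [tr, lift s h h2, trace_smul, trace_add, trace_smul, trace_vecMulVec, dotProduct_comm, hv s h]
    simp only [trace_one, Fintype.card_sum, Fintype.card_fin, smul_eq_mul]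
    push_cast
    linear_combination (μ + 2) * hμ
  · obtain ⟨k1, k2⟩ := kap hμ m1 hy (hr s hs.2.1) h0 (hv s hs.2.1)
    have : y * q s * y = q s * y * q s := by
      rcases hs.2.2 with h | h
      · rw [h]
      · exact (hD _ _ (IsConj.refl y) hs.2.1).resolve_left fun e => h e.symm
    exact (k2 this).elim (fun h => ⟨3, by simpa using h⟩) fun h => ⟨1, by simpa using h⟩
  · have a1 := hr i hi.2.1
    have a2 := hv i hi.2.1
    have b1 := hr j hj.2.1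
    have b2 := hv j hj.2.1
    have := tau hμ hn (kR (IsConj.refl y) hi.2.1 hy a1 h0 a2) (kR hi.2.1 hj.2.1 a1 b1 a2 b2)
      (kR hj.2.1 (IsConj.refl y) b1 hy b2 h0) fun ν ν' hν t ht => by
      obtain ⟨g, hg⟩ : ∃ g, Rep π g (hm ν (v i) (φ i)) := by
        rcases hν with ⟨rfl, -⟩ | ⟨rfl, -⟩
        · exact ⟨_, a1⟩
        · exact ⟨_, (a1.mul a1).congr (by rw [hm_mul a2, pow_two])⟩
      have e : hm ν (v i) (φ i) * hm ν' (v i) (φ i) = 1 := by
        rw [hm_mul a2, show ν * ν' = 1 by grind, hm_one]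
      obtain ⟨c1, c2⟩ := cj hg e b1 b2
      have := kR (IsConj.refl y) (hj.2.1.trans (isConj_iff.2 ⟨g, rfl⟩)) hy c1 h0 c2
      rw [hm_mulVec, vecMul_hm] at this
      simpa [ht, mul_assoc] using this
    exact this

end CfsgLib.D4
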