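import Cfsg.Agent.Lib.D4.Basic

/-! Weights of abelian subgroups of odd order.  See `plans/D4.md`. -/

set_option autoImplicit false

namespace CfsgLib.D4

open Matrix Cfsg Cfsg.Geo CfsgLib.Asch
open scoped MatrixGroups commutatorElement

namespace Wt

variable {G K : Type*} [Group G] [Field K] {π : G →* PG4 K} {g : G} {M N : M4 K}

theorem card_I4 : Fintype.card I4 = 4 := rfl

theorem sim_diag [IsAlgClosed K] {A : Type*} (f : A → M4 K) {n : ℕ} (hn : (n : K) ≠ 0)
    (hc : ∀ a b, f a * f b = f b * f a) (hp : ∀ a, f a ^ n = 1) :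
    ∃ (B : GL I4 K) (d : A → I4 → K), ∀ a, f a * B = B * diagonal (d a) := by
  let F : A → Module.End K (I4 → K) := fun a => toLin' (f a)
  have hs : ∀ a, (F a).IsFinitelySemisimple := fun a => by
    rw [Module.End.isFinitelySemisimple_iff_isSemisimple]
    refine Module.End.isSemisimple_of_squarefree_aeval_eq_zero
      (Polynomial.X_pow_sub_one_separable_iff.2 hn).squarefree ?_
    have : F a ^ n = 1 := by
      have := congrArg (toLinAlgEquiv' (R := K) (n := I4)) (hp a)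
      rwa [map_pow, map_one] at this
    simp [this]
  have h1 := Module.End.iSup_iInf_maxGenEigenspace_eq_top_of_iSup_maxGenEigenspace_eq_top_of_commute
    F (fun a b _ => by
      change toLin' (f a) ∘ₗ toLin' (f b) = toLin' (f b) ∘ₗ toLin' (f a)
      rw [← toLin'_mul, hc, toLin'_mul])
    fun a => Module.End.iSup_maxGenEigenspace_eq_top _
  have h2 : ⊤ ≤ Submodule.span K {w : I4 → K | ∀ a, ∃ c : K, f a *ᵥ w = c • w} := by
    rw [← h1]
    refine iSup_le fun l w hw => Submodule.subset_span fun a => ⟨l a, ?_⟩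
    have := (Submodule.mem_iInf _).1 hw a
    rwa [(hs _).maxGenEigenspace_eq_eigenspace, Module.End.mem_eigenspace_iff] at this
  let b := Module.Basis.ofSpan h2
  have := Module.Finite.finite_basis b
  have := Fintype.ofFinite ((linearIndepOn_empty K id).extend
    (Set.empty_subset {w : I4 → K | ∀ a, ∃ c : K, f a *ᵥ w = c • w}))
  let e := Fintype.equivOfCardEq ((Module.finrank_eq_card_basis b).symm.trans
    (Module.finrank_fintype_fun_eq_card K (η := I4)))
  have key : ∀ a i, ∃ c : K, f a *ᵥ (b.reindex e i) = c • b.reindex e i := fun a i =>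
    Module.Basis.ofSpan_subset h2 ⟨e.symm i, (b.reindex_apply e i).symm⟩ a
  choose d hd using key
  have hu : IsUnit (Matrix.of fun i j => b.reindex e j i : M4 K) :=
    linearIndependent_cols_iff_isUnit.1 (b.reindex e).linearIndependent
  refine ⟨hu.unit, d, fun a => ?_⟩
  ext i j
  have := congrFun (hd a j) i
  rw [IsUnit.unit_spec, mul_diagonal, mul_apply, of_apply, mul_comm]
  exact this

theorem uniq {n : ℕ} (ho : Odd n) (h1 : Rep π g M) (h2 : Rep π g N) (d1 : M.det = 1)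
    (d2 : N.det = 1) (p1 : M ^ n = 1) (p2 : N ^ n = 1) : M = N := by
  obtain ⟨c, -, rfl⟩ := h1.unique h2
  rw [det_smul, d1, mul_one, card_I4] at d2
  rw [smul_pow, p1] at p2
  have p3 : c ^ n = 1 := by simpa using congrFun (congrFun p2 (.inl 0)) (.inl 0)
  have : c ^ Nat.gcd 4 n = 1 := pow_gcd_eq_one.2 ⟨d2, p3⟩
  rw [show Nat.gcd 4 n = 1 from (Nat.Coprime.pow_left 2 (Nat.coprime_two_left.2 ho)), pow_one] at this
  rw [this, one_smul]

theorem exists_nf [IsAlgClosed K] {n : ℕ} (ho : Odd n) (hg : g ^ n = 1) :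
    ∃ M, Rep π g M ∧ M.det = 1 ∧ M ^ n = 1 := by
  obtain ⟨M, hM, hd⟩ := exists_rep_det_one π g
  obtain ⟨c, hc, e⟩ := hM.scalar_of_pow hg
  have h4 : c ^ 4 = 1 := by
    have := congrArg det e
    rw [det_pow, hd, one_pow, det_smul, det_one, mul_one, card_I4] at this
    exact this.symm
  refine ⟨c ^ (3 * n) • M, hM.smul (pow_ne_zero _ hc), ?_, ?_⟩
  · rw [det_smul, hd, card_I4, ← pow_mul, mul_comm _ 4, pow_mul, h4, one_pow, one_mul]
  · obtain ⟨k, rfl⟩ := ho
    rw [smul_pow, e, smul_smul, ← pow_mul, ← pow_succ,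
      show 3 * (2 * k + 1) * (2 * k + 1) + 1 = 4 * (3 * k * k + 3 * k + 1) by ring, pow_mul, h4,
      one_pow, one_smul]

theorem exists_perm (h : M.det ≠ 0) : ∃ σ : Equiv.Perm I4, ∀ i, M (σ i) i ≠ 0 := by
  by_contra hn
  push Not at hn
  refine h (by
    rw [det_apply]
    refine Finset.sum_eq_zero fun σ _ => ?_
    obtain ⟨i, hi⟩ := hn σ
    rw [Finset.prod_eq_zero (f := fun i => M (σ i) i) (Finset.mem_univ i) hi, smul_zero])

theorem det_cj (B : GL I4 K) (M : M4 K) : (cj B M).det = M.det := by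
  rw [cj_apply, det_units_conj]

theorem conj_eq {n : ℕ} (ho : Odd n) {h a b : G} {H : M4 K} (hH : Rep π h H) (ha : Rep π a M)
    (hb : Rep π b N) (e : b = h * a * h⁻¹) (d1 : M.det = 1) (d2 : N.det = 1) (p1 : M ^ n = 1)
    (p2 : N ^ n = 1) : H * M = N * H := by
  obtain ⟨x, rfl, hx⟩ := id hH
  refine cj_eq_iff.1 (uniq ho ?_ hb (by rw [det_cj, d1]) d2 (by rw [← map_pow, p1, map_one]) p2)
  rw [e]
  exact (hH.conj ha).congr (by simp [cj_apply])

theorem wt0 [IsAlgClosed K] (A : Subgroup G) (hc : ∀ a ∈ A, ∀ b ∈ A, a * b = b * a) {n : ℕ}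
    (ho : Odd n) (hp : (n : K) ≠ 0) (hn : ∀ a ∈ A, a ^ n = 1) :
    ∃ (B : GL I4 K) (χ : I4 → A →* Kˣ),
      (∀ a : A, Rep (cb π B) a (diagonal fun i => (χ i a : K))) ∧ (∀ a, ∏ i, χ i a = 1) ∧
      (∀ (h : G) (a b : A), (b : G) = h * a * h⁻¹ → ∃ σ : Equiv.Perm I4, ∀ i, χ (σ i) b = χ i a) ∧
      ∀ (h : G) (hh : ∀ a ∈ A, h * a * h⁻¹ ∈ A), ∃ σ : Equiv.Perm I4,
        ∀ (a : A) i, χ (σ i) ⟨h * a * h⁻¹, hh a a.2⟩ = χ i a := by
  choose f f1 f2 f3 using fun a : A => exists_nf (π := π) ho (hn a a.2)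
  obtain ⟨B, d, hd⟩ := sim_diag f hp
    (fun a b => (com_of_odd ho (hn a a.2) (hc a a.2 b b.2)).eq (f1 a) (f1 b)) f3
  have e0 : ∀ a, diagonal (d a) = cj B⁻¹ (f a) := fun a => by
    rw [cj_apply, inv_inv, mul_assoc, hd, Units.inv_mul_cancel_left]
  have r1 : ∀ a : A, Rep (cb π B) a (diagonal (d a)) := fun a => (f1 a).cb_of B (hd a)
  have r2 : ∀ a, (diagonal (d a)).det = 1 := fun a => by rw [e0, det_cj, f2]
  have r3 : ∀ a, diagonal (d a) ^ n = 1 := fun a => by rw [e0, ← map_pow, f3, map_one]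
  have d0 : ∀ a i, d a i ≠ 0 := fun a i e => (r1 a).det_ne (by
    rw [det_diagonal]; exact Finset.prod_eq_zero (Finset.mem_univ i) e)
  have dm : ∀ a b i, d (a * b) i = d a i * d b i := fun a b i => by
    have := uniq ho (r1 (a * b)) ((r1 a).mul (r1 b)) (r2 _) (by rw [det_mul, r2, r2, one_mul])
      (r3 _) (by rw [Commute.mul_pow (by
        rw [Commute, SemiconjBy, diagonal_mul_diagonal, diagonal_mul_diagonal]
        simp [mul_comm]), r3, r3, one_mul])
    rw [diagonal_mul_diagonal] at this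
    exact congrFun (diagonal_injective this) i
  have key : ∀ h : G, ∃ σ : Equiv.Perm I4, ∀ a b : A, (b : G) = h * a * h⁻¹ →
      ∀ i, d b (σ i) = d a i := fun h => by
    obtain ⟨H, hH⟩ := exists_rep (cb π B) h
    obtain ⟨σ, hσ⟩ := exists_perm hH.det_ne
    refine ⟨σ, fun a b e i => ?_⟩
    have := congrFun (congrFun (conj_eq ho hH (r1 a) (r1 b) e (r2 a) (r2 b) (r3 a) (r3 b)) (σ i)) i
    rw [mul_diagonal, diagonal_mul, mul_comm] at this
    exact (mul_right_cancel₀ (hσ i) this).symm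
  refine ⟨B, fun i => MonoidHom.mk' (fun a => Units.mk0 (d a i) (d0 a i))
    fun a b => Units.ext (dm a b i), r1, fun a => Units.ext ?_, fun h a b e => ?_, fun h hh => ?_⟩
  · rw [Units.coe_prod, Units.val_one, ← r2 a, det_diagonal]; rfl
  · obtain ⟨σ, hσ⟩ := key h
    exact ⟨σ, fun i => Units.ext (hσ a b e i)⟩
  · obtain ⟨σ, hσ⟩ := key h
    exact ⟨σ, fun a i => Units.ext (hσ a _ rfl i)⟩

theorem exists_log [IsAlgClosed K] (n : ℕ) [NeZero n] (hn : (n : K) ≠ 0) :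
    ∃ e : AddChar (ZMod n) Kˣ, Function.Injective e ∧ ∀ x : Kˣ, x ^ n = 1 → ∃ i, e i = x := by
  have : NeZero (n : K) := ⟨hn⟩
  obtain ⟨ζ, hζ⟩ := HasEnoughRootsOfUnity.exists_primitiveRoot K n
  have h1 : IsPrimitiveRoot (hζ.isUnit (NeZero.ne n)).unit n := hζ.isUnit_unit (NeZero.ne n)
  refine ⟨AddChar.zmodChar n h1.pow_eq_one, fun i j e => ?_, fun x hx => ?_⟩
  · exact ZMod.val_injective n (h1.pow_inj (ZMod.val_lt i) (ZMod.val_lt j) e)
  · obtain ⟨i, -, e⟩ := hζ.eq_pow_of_pow_eq_one (ξ := (x : K)) (by rw [← Units.val_pow_eq_pow_val, hx]; rfl)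
    exact ⟨i, by rw [AddChar.zmodChar_apply']; exact Units.ext (by simpa using e)⟩

theorem exists_ab {n : ℕ} {a b : G} (ha : a ^ n = 1) (hb : b ^ n = 1) (e : a * b = b * a) :
    ∃ A : Subgroup G, a ∈ A ∧ b ∈ A ∧ (∀ x ∈ A, ∀ y ∈ A, x * y = y * x) ∧ ∀ x ∈ A, x ^ n = 1 := by
  have hc : ∀ x ∈ Subgroup.closure ({a, b} : Set G), ∀ y ∈ Subgroup.closure ({a, b} : Set G),
      x * y = y * x := fun x hx y hy => by
    have := Subgroup.isMulCommutative_closure (k := ({a, b} : Set G)) (by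
      rintro x (rfl | rfl) y (rfl | rfl) <;> simp [e])
    exact setLike_mul_comm hx hy
  refine ⟨_, Subgroup.subset_closure (by simp), Subgroup.subset_closure (by simp), hc,
    fun x hx => ?_⟩
  induction hx using Subgroup.closure_induction with
  | mem x hx => rcases hx with rfl | rfl <;> assumption
  | one => simp
  | mul x y hx hy h1 h2 => rw [Commute.mul_pow (hc x hx y hy), h1, h2, one_mul]
  | inv x _ h => rw [inv_pow, h, inv_one]

/-- additive form of the weights -/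
theorem wlog [IsAlgClosed K] (hπ : Function.Injective π) (A : Subgroup G)
    (hc : ∀ a ∈ A, ∀ b ∈ A, a * b = b * a) {n : ℕ} [NeZero n]
    (ho : Odd n) (hp : (n : K) ≠ 0) (hn : ∀ a ∈ A, a ^ n = 1) :
    ∃ (B : GL I4 K) (u : A → I4 → ZMod n) (e : ZMod n → K), Function.Injective e ∧
      (∀ a : A, Rep (cb π B) a (diagonal fun i => e (u a i))) ∧ Function.Injective u ∧
      (∀ a, ∑ i, u a i = 0) ∧ (∀ a b, u (a * b) = u a + u b) ∧
      ∀ (h : G) (a b : A), (b : G) = h * a * h⁻¹ → ∃ σ : Equiv.Perm I4, ∀ i, u b (σ i) = u a i := by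
  obtain ⟨B, χ, h1, h2, h3, -⟩ := wt0 (π := π) A hc ho hp hn
  obtain ⟨e, e1, e2⟩ := exists_log n hp
  choose u hu using fun (a : A) i => e2 (χ i a) (by
    rw [← map_pow, show a ^ n = 1 from Subtype.ext (hn a a.2), map_one])
  refine ⟨B, u, fun i => e i, Units.val_injective.comp e1, fun a => by simpa only [hu] using h1 a,
    fun a b h => Subtype.ext ((h1 a).eq (cb_injective hπ B) ((h1 b).congr ?_)), fun a => e1 ?_,
    fun a b => funext fun i => e1 ?_, fun h a b k => ?_⟩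
  · simp only [← hu, h]
  · have := h2 a
    simp only [← hu, Fintype.prod_sum_type, Fin.prod_univ_two] at this
    simp only [Fintype.sum_sum_type, Fin.sum_univ_two, AddChar.map_add_eq_mul, this,
      AddChar.map_zero_eq_one]
  · rw [Pi.add_apply, AddChar.map_add_eq_mul, hu, hu, hu, map_mul]
  · obtain ⟨σ, hσ⟩ := h3 h a b k
    exact ⟨σ, fun i => e1 (by rw [hu, hu, hσ])⟩

/-- the number of coordinates with a given value -/
def cnt (u : I4 → ZMod 3) (c : ZMod 3) : ℕ := ∑ i, if u i = c then 1 else 0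

theorem cnt_perm {u v : I4 → ZMod 3} {σ : Equiv.Perm I4} (h : ∀ i, v (σ i) = u i) (c : ZMod 3) :
    cnt v c = cnt u c := by
  rw [cnt, cnt, ← Equiv.sum_comp σ]
  simp only [h]

theorem cnt_key : ∀ u v : I4 → ZMod 3, cnt (-u) 1 = cnt u 1 → cnt v 0 = cnt u 0 →
    cnt (u + v) 0 = cnt u 0 → cnt (u + -v) 0 = cnt u 0 → u = 0 := by
  have : ∀ a b c d : ZMod 3, ∀ a' b' c' d' : ZMod 3,
      let u : I4 → ZMod 3 := Sum.elim ![a, b] ![c, d]
      let v : I4 → ZMod 3 := Sum.elim ![a', b'] ![c', d']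
      cnt (-u) 1 = cnt u 1 → cnt v 0 = cnt u 0 → cnt (u + v) 0 = cnt u 0 →
        cnt (u + -v) 0 = cnt u 0 → a = 0 ∧ b = 0 ∧ c = 0 ∧ d = 0 := by
    simp only [cnt, Fintype.sum_sum_type, Fin.sum_univ_two, Pi.add_apply, Pi.neg_apply,
      Sum.elim_inl, Sum.elim_inr, cons_val_zero, cons_val_one]
    decide +kernel
  intro u v
  have e : ∀ w : I4 → ZMod 3, w = Sum.elim ![w (.inl 0), w (.inl 1)] ![w (.inr 0), w (.inr 1)] :=
    fun w => by
      funext i
      rcases i with i | i <;> fin_cases i <;> rfl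
  intro h1 h2 h3 h4
  rw [e u, e v] at h2 h3 h4
  rw [e u] at h1
  obtain ⟨a, b, c, d⟩ := this _ _ _ _ _ _ _ _ h1 h2 h3 h4
  funext i
  rcases i with i | i <;> fin_cases i <;> assumption

/-- an involution in characteristic two pairs the eigenvalues of a commuting diagonal matrix -/
theorem pair [IsAlgClosed K] [CharP K 2] (hx : Cx π) {d : I4 → K} {n : ℕ} (ho : Odd n)
    (hn : g ^ n = 1) (hg : Rep π g (diagonal d)) (hc : CI G g) (i : I4) : ∃ j, j ≠ i ∧ d j = d i := by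
  obtain ⟨t, t2, t1, e⟩ := hc
  obtain ⟨T, hT, T2⟩ := exists_rep_pow π two_pos t2
  have hc := (com_of_odd ho hn e).eq hg hT
  by_contra hj
  push Not at hj
  have N2 : (T - 1) * (T - 1) = 0 := by
    have : (T - 1) * (T - 1) = T ^ 2 + 1 - (2 : K) • T := by
      rw [two_smul]; noncomm_ring
    rw [this, T2, ← two_smul K, CharTwo.two_eq_zero (R := K), zero_smul, zero_smul, sub_zero]
  set N := T - 1 with hN
  have hT' : T = 1 + N := by rw [hN]; abel
  have z1 : ∀ j, j ≠ i → N i j = 0 ∧ N j i = 0 := fun j h => by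
    have a1 := congrFun (congrFun hc i) j
    have a2 := congrFun (congrFun hc j) i
    rw [mul_diagonal, diagonal_mul, mul_comm, ← sub_eq_zero, ← mul_sub] at a1 a2
    rw [hN, Matrix.sub_apply, Matrix.sub_apply, one_apply_ne h, one_apply_ne h.symm, sub_zero, sub_zero]
    exact ⟨(mul_eq_zero.1 a1).resolve_right (sub_ne_zero.2 (hj j h).symm),
      (mul_eq_zero.1 a2).resolve_right (sub_ne_zero.2 (hj j h))⟩
  have z2 : N i i = 0 := by
    have := congrFun (congrFun N2 i) i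
    rw [mul_apply, Finset.sum_eq_single i (fun j _ h => by rw [(z1 j h).1, zero_mul]) (by simp)] at this
    exact mul_self_eq_zero.1 this
  have z3 : ∀ j, N i j = 0 ∧ N j i = 0 := fun j => by
    by_cases h : j = i
    · subst h; exact ⟨z2, z2⟩
    · exact z1 j h
  have hlt : LinearMap.range N.mulVecLin < LinearMap.ker N.mulVecLin := by
    refine lt_of_le_of_ne ?_ fun h => ?_
    · rintro _ ⟨v, rfl⟩
      simp [N2]
    · have : Pi.single i (1 : K) ∈ LinearMap.ker N.mulVecLin := by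
        rw [LinearMap.mem_ker, mulVecLin_apply, mulVec_single_one]
        exact funext fun j => (z3 j).2
      obtain ⟨v, hv⟩ := h.ge this
      have := congrFun hv i
      simp [mulVec, dotProduct, fun j => (z3 j).1] at this
  have h1 := Submodule.finrank_lt_finrank_of_lt hlt
  have h2 := N.mulVecLin.finrank_range_add_finrank_ker
  rw [Module.finrank_fintype_fun_eq_card, card_I4] at h2
  have h3 := hx.eq_zero_of_rank N2 (hT.congr hT') (by unfold Matrix.rank; omega)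
  exact t1 ((hT.congr (by rw [hT', h3, add_zero])).eq_one' hx.inj)

/-- two equal pairs of opposite values -/
def Pat {F : Type*} [Field F] (a b c d : F) : Prop :=
  (b = a ∧ c = -a ∧ d = -a) ∨ (c = a ∧ b = -a ∧ d = -a) ∨ (d = a ∧ b = -a ∧ c = -a)

theorem pat_of {F : Type*} [Field F] (h2 : (2 : F) ≠ 0) {u : I4 → F} (hs : ∑ i, u i = 0)
    (hp : ∀ i, ∃ j, j ≠ i ∧ u j = u i) : Pat (u (.inl 0)) (u (.inl 1)) (u (.inr 0)) (u (.inr 1)) := by
  have k : ∀ i, ∃ j, j ≠ i ∧ u j = u i := hp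
  simp only [Sum.exists, Fin.exists_fin_two, Sum.forall, Fin.forall_fin_two] at k
  simp only [Fintype.sum_sum_type, Fin.sum_univ_two] at hs
  simp only [ne_eq, not_true, false_and, false_or, or_false, Sum.inl.injEq, Sum.inr.injEq,
    reduceCtorEq, not_false_eq_true, true_and, one_ne_zero, zero_ne_one] at k
  clear hp
  generalize u (.inl 0) = a, u (.inl 1) = b, u (.inr 0) = c, u (.inr 1) = d at *
  have : (b = a ∧ d = c) ∨ (c = a ∧ d = b) ∨ (d = a ∧ c = b) := by clear hs h2; grind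
  unfold Pat
  grind

set_option linter.unusedVariables false in
theorem pat_key {F : Type*} [Field F] (h2 : (2 : F) ≠ 0) {a b c d a' b' c' d' : F} (ha : a ≠ 0)
    (h1 : Pat a b c d) (h3 : Pat a' b' c' d') (h4 : Pat (a + a') (b + b') (c + c') (d + d')) :
    ∃ m : F, a' = m * a ∧ b' = m * b ∧ c' = m * c ∧ d' = m * d := by
  obtain ⟨m, rfl⟩ : ∃ m, a' = m * a := ⟨a' / a, by field_simp⟩
  refine ⟨m, rfl, ?_⟩
  unfold Pat at *
  grind

set_option synthInstance.maxSize 1024 in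
theorem exists_tau : ∀ a b c : I4, a ≠ b → a ≠ c → b ≠ c →
    ∃ τ : Equiv.Perm I4, τ (.inl 1) = a ∧ τ (.inr 0) = b ∧ τ (.inr 1) = c := by
  decide +kernel

end Wt

open Wt

variable {G K : Type*} [Group G] [Finite G] [Field K] [IsAlgClosed K] {π : G →* PG4 K}

set_option linter.unusedVariables false in
set_option linter.unusedSectionVars false in
theorem weights (hx : Cx π) (A : Subgroup G) (hc : ∀ a ∈ A, ∀ b ∈ A, a * b = b * a)
    (ho : Odd (Nat.card A)) (hp : (Nat.card A : K) ≠ 0) :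
    ∃ (B : GL I4 K) (χ : I4 → A →* Kˣ),
      (∀ a : A, Rep (cb π B) a (diagonal fun i => (χ i a : K))) ∧ (∀ a, ∏ i, χ i a = 1) ∧
      (∀ (h : G) (a b : A), (b : G) = h * a * h⁻¹ → ∃ σ : Equiv.Perm I4, ∀ i, χ (σ i) b = χ i a) ∧
      ∀ (h : G) (hh : ∀ a ∈ A, h * a * h⁻¹ ∈ A), ∃ σ : Equiv.Perm I4,
        ∀ (a : A) i, χ (σ i) ⟨h * a * h⁻¹, hh a a.2⟩ = χ i a :=
  wt0 A hc ho hp fun a ha => congrArg Subtype.val (pow_card_eq_one' (x := (⟨a, ha⟩ : A)))

theorem w34 (hx : Cx π) (A : Subgroup G) (hc : ∀ a ∈ A, ∀ b ∈ A, a * b = b * a)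
    (ho : Odd (Nat.card A)) (hp : (Nat.card A : K) ≠ 0) {h : G} (hh : ∀ a ∈ A, h * a * h⁻¹ ∈ A) :
    (∀ a ∈ A, Commute (h ^ 3) a) ∨ ∀ a ∈ A, Commute (h ^ 4) a := by
  obtain ⟨B, χ, h1, -, -, h4⟩ := weights hx A hc ho hp
  obtain ⟨σ, hσ⟩ := h4 h hh
  have key : ∀ (k : ℕ) (a : A), ∃ b : A, (b : G) = h ^ k * a * (h ^ k)⁻¹ ∧
      ∀ i, χ ((σ ^ k) i) b = χ i a := fun k a => by
    induction k with
    | zero => exact ⟨a, by simp, by simp⟩
    | succ k ih =>
      obtain ⟨b, e, hb⟩ := ih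
      refine ⟨⟨_, hh b b.2⟩, by change h * b * h⁻¹ = _; rw [e, pow_succ']; group, fun i => ?_⟩
      rw [pow_succ', Equiv.Perm.mul_apply, hσ, hb]
  have fin : ∀ k, σ ^ k = 1 → ∀ a ∈ A, Commute (h ^ k) a := fun k hk a ha => by
    obtain ⟨b, e, hb⟩ := key k ⟨a, ha⟩
    have := (h1 b).eq (cb_injective hx.inj B) ((h1 ⟨a, ha⟩).congr (by simp only [← hb, hk]; rfl))
    exact mul_inv_eq_iff_eq_mul.1 (e.symm.trans this)
  exact ((by decide : ∀ σ : Equiv.Perm I4, σ ^ 3 = 1 ∨ σ ^ 4 = 1) σ).imp (fin 3) (fin 4)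

theorem not_aut5 (hx : Cx π) {r : ℕ} (hr : r.Prime) (h2 : r ≠ 2) (hp : (r : K) ≠ 0) :
    ¬ Aut5 G r := by
  rintro ⟨x, h, h1, h3, h4, h5⟩
  have ho : orderOf x = 1 ∨ orderOf x = r := (Nat.dvd_prime hr).1 (orderOf_dvd_of_pow_eq_one h1)
  rcases w34 hx (Subgroup.zpowers x) (fun a ha b hb => setLike_mul_comm ha hb)
    (by rw [Nat.card_zpowers]; rcases ho with e | e <;> rw [e]; exacts [odd_one, hr.odd_of_ne_two h2])
    (by rw [Nat.card_zpowers]; rcases ho with e | e <;> rw [e]; exacts [by simp, hp]) (h := h) (by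
      rintro _ ⟨k, rfl⟩
      simpa only [← conj_zpow] using zpow_mem h3 k) with k | k
  exacts [h4 (k x (Subgroup.mem_zpowers x)), h5 (k x (Subgroup.mem_zpowers x))]

set_option linter.unusedSectionVars false in
theorem not_e9c (hx : Cx π) (h3 : (3 : K) ≠ 0) : ¬ E9c G := by
  rintro ⟨a, b, a3, a1, e, c1, c2, c3, c4⟩
  have b3 : b ^ 3 = 1 := by
    obtain ⟨c, rfl⟩ := isConj_iff.1 c2
    rw [conj_pow, a3]; simp
  obtain ⟨A, ha, hb, hc, hn⟩ := exists_ab a3 b3 e
  obtain ⟨B, u, -, -, -, ui, -, um, uc⟩ := wlog hx.inj A hc (n := 3) (by decide) (by exact_mod_cast h3) hn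
  have u1 : u 1 = 0 := by simpa using um 1 1
  have uv : ∀ x, u x⁻¹ = -u x := fun x => eq_neg_of_add_eq_zero_left (by rw [← um, inv_mul_cancel, u1])
  have k : ∀ x : A, IsConj a x → ∀ c, cnt (u x) c = cnt (u ⟨a, ha⟩) c := fun x h c => by
    obtain ⟨t, ht⟩ := isConj_iff.1 h
    obtain ⟨σ, hσ⟩ := uc t ⟨a, ha⟩ x ht.symm
    exact cnt_perm hσ c
  have := cnt_key (u ⟨a, ha⟩) (u ⟨b, hb⟩) (by rw [← uv]; exact k _ c1 _) (k _ c2 _)
    (by rw [← um]; exact k _ c3 _) (by rw [← uv, ← um]; exact k _ c4 _)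
  exact a1 (congrArg Subtype.val (ui (this.trans u1.symm)))

set_option linter.unusedSectionVars false in
theorem not_oiw [CharP K 2] (hx : Cx π) : ¬ OIw G := by
  rintro ⟨r, h, k, hr, h2, p1, p2, h1, e, hk, c1, c2, c3⟩
  have := Fact.mk hr
  have ho := hr.odd_of_ne_two h2
  obtain ⟨A, ha, hb, hc, hn⟩ := exists_ab p1 p2 e
  obtain ⟨B, u, f, fi, ur, ui, us, um, -⟩ := wlog hx.inj A hc ho (fun e => h2
    ((Nat.prime_dvd_prime_iff_eq Nat.prime_two hr).1 ((CharP.cast_eq_zero_iff K 2 r).1 e)).symm) hn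
  have t2 : (2 : ZMod r) ≠ 0 := fun e => h2 ((Nat.prime_dvd_prime_iff_eq hr Nat.prime_two).1
    ((ZMod.natCast_eq_zero_iff 2 r).1 (by exact_mod_cast e)))
  have u1 : u 1 = 0 := by simpa using um 1 1
  have pt : ∀ x : A, CI G x → Pat (u x (.inl 0)) (u x (.inl 1)) (u x (.inr 0)) (u x (.inr 1)) :=
    fun x c => pat_of t2 (us x) fun i =>
      (pair (hx.cb B) ho (hn x x.2) (ur x) c i).imp fun j hj => ⟨hj.1, fi hj.2⟩
  have q1 := pt ⟨h, ha⟩ c1
  have q3 := pt (⟨h, ha⟩ * ⟨k, hb⟩) c3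
  rw [um] at q3
  obtain ⟨m, m1, m2, m3, m4⟩ := pat_key t2 (fun e => h1 (congrArg Subtype.val (ui (a₁ := ⟨h, ha⟩)
    (a₂ := 1) (by
      rw [u1]
      funext i
      unfold Pat at q1
      rcases i with i | i <;> fin_cases i <;> simp <;> grind)))) q1 (pt ⟨k, hb⟩ c2) q3
  have up : ∀ (x : A) (j : ℕ), u (x ^ j) = j • u x := fun x j => by
    induction j with
    | zero => simp [u1]
    | succ j ih => rw [pow_succ, um, ih, succ_nsmul]
  refine hk ⟨m.val, ?_⟩
  have := ui (a₁ := ⟨h, ha⟩ ^ m.val) (a₂ := ⟨k, hb⟩) (by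
    rw [up]
    funext i
    rcases i with i | i <;> fin_cases i <;> simp [m1, m2, m3, m4])
  exact (zpow_natCast h _).trans (congrArg Subtype.val this)

set_option linter.unusedSectionVars false in
/-- the Frobenius group of order 21 -/
theorem seven (hx : Cx π) (h7 : (7 : K) ≠ 0) {g k : G} (h1 : g ≠ 1) (hg : g ^ 7 = 1)
    (hk : k * g * k⁻¹ = g ^ 2) : ∃ (B : GL I4 K) (ζ : K), IsPrimitiveRoot ζ 7 ∧
      Rep (cb π B) g (dg 1 ζ (ζ ^ 2) (ζ ^ 4)) := by
  obtain ⟨A, ha, -, hc, hn⟩ := exists_ab hg hg rfl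
  obtain ⟨B, χ, r1, r2, r3, -⟩ := wt0 (π := π) A hc (n := 7) (by decide) (by exact_mod_cast h7) hn
  obtain ⟨σ, hσ⟩ := r3 k ⟨g, ha⟩ (⟨g, ha⟩ ^ 2) hk.symm
  set x : I4 → K := fun i => χ i ⟨g, ha⟩ with hx0
  have s1 : ∀ i, x (σ.symm i) = x i ^ 2 := fun i => by
    have := hσ (σ.symm i)
    rw [Equiv.apply_symm_apply, map_pow] at this
    simp only [hx0, ← this, Units.val_pow_eq_pow_val]
  obtain ⟨i, hi⟩ : ∃ i, x i ≠ 1 := by
    by_contra hn
    push Not at hn
    exact h1 (((r1 ⟨g, ha⟩).congr (by rw [← diagonal_one]; exact congrArg _ (funext hn))).eq_one'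
      (cb_injective hx.inj B))
  have x7 : x i ^ 7 = 1 := by
    simp only [hx0]
    rw [← Units.val_pow_eq_pow_val, ← map_pow, show (⟨g, ha⟩ : A) ^ 7 = 1 from Subtype.ext hg,
      map_one, Units.val_one]
  have := Fact.mk (by norm_num : Nat.Prime 7)
  have hz : IsPrimitiveRoot (x i) 7 := orderOf_eq_prime x7 hi ▸ IsPrimitiveRoot.orderOf (x i)
  have s2 : x (σ.symm (σ.symm i)) = x i ^ 4 := by rw [s1, s1, ← pow_mul]
  have ne : ∀ a b : ℕ, a < 7 → b < 7 → a ≠ b → x i ^ a ≠ x i ^ b := fun a b ha hb h e =>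
    h (hz.pow_inj ha hb e)
  obtain ⟨τ, t1, t2, t3⟩ := exists_tau i (σ.symm i) (σ.symm (σ.symm i))
    (fun e => ne 1 2 (by omega) (by omega) (by omega) (by rw [← s1, ← e, pow_one]))
    (fun e => ne 1 4 (by omega) (by omega) (by omega) (by rw [← s2, ← e, pow_one]))
    (fun e => ne 2 4 (by omega) (by omega) (by omega) (by rw [← s2, ← e, s1]))
  have t0 : x (τ (.inl 0)) = 1 := by
    have : ∏ j, x (τ j) = 1 := by
      rw [Equiv.prod_comp τ x, hx0, ← Units.coe_prod, r2, Units.val_one]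
    rw [Fintype.prod_sum_type, Fin.prod_univ_two, Fin.prod_univ_two, t1, t2, t3, s2, s1] at this
    linear_combination this - x (τ (.inl 0)) * x7
  have hd : ((1 : M4 K).submatrix id τ).det ≠ 0 := by
    rw [det_permute', det_one, mul_one]
    rcases Int.units_eq_one_or (Equiv.Perm.sign τ) with e | e <;> simp [e]
  refine ⟨B * .mkOfDetNeZero _ hd, x i, hz, ?_⟩
  rw [← cb_cb]
  refine ((r1 ⟨g, ha⟩).cb_of _ (N := diagonal fun j => x (τ j)) ?_).congr ?_
  · ext a b
    change (diagonal x * (1 : M4 K).submatrix id τ) a b = ((1 : M4 K).submatrix id τ * diagonal fun j => x (τ j)) a b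
    rw [diagonal_mul, mul_diagonal, submatrix_apply, id, one_apply]
    split_ifs with e <;> simp [e]
  · ext a b
    rcases a with a | a <;> rcases b with b | b <;> fin_cases a <;> fin_cases b <;>
      simp [t0, t1, t2, t3, s1, ← pow_mul]

set_option linter.unusedVariables false in
theorem seven_rank (hx : Cx π) (h7 : (7 : K) ≠ 0) {g k : G} (h1 : g ≠ 1) (hg : g ^ 7 = 1)
    (hk : k * g * k⁻¹ = g ^ 2) (hk3 : k ^ 3 = 1) {M : M4 K} (hM : Rep π k M) (h3 : M ^ 3 = 1)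
    (hd : M.det = 1) : (M - 1).rank ≤ 2 := by
  obtain ⟨B, ζ, hz, hD⟩ := seven hx h7 h1 hg hk
  have z7 := hz.pow_eq_one
  have hN := hM.cb B
  have e1 : (M - 1).rank = (cj B⁻¹ M - 1).rank := by
    rw [show cj B⁻¹ M - 1 = cj B⁻¹ (M - 1) by rw [map_sub, map_one], cj_apply,
      rank_mul_eq_left_of_isUnit_det _ _ (isUnits_det_units _),
      rank_mul_eq_right_of_isUnit_det _ _ (isUnits_det_units _)]
  have n3 : cj B⁻¹ M ^ 3 = 1 := by rw [← map_pow, h3, map_one]
  have nd : (cj B⁻¹ M).det = 1 := by rw [det_cj, hd]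
  rw [e1]
  generalize cj B⁻¹ M = N at hN n3 nd
  have dD : dg 1 ζ (ζ ^ 2) (ζ ^ 4) = diagonal (Sum.elim ![1, ζ] ![ζ ^ 2, ζ ^ 4]) := by
    ext a b
    rcases a with a | a <;> rcases b with b | b <;> fin_cases a <;> fin_cases b <;> simp
  rw [dD] at hD
  set d : I4 → K := Sum.elim ![1, ζ] ![ζ ^ 2, ζ ^ 4] with hd0
  have d1 : (diagonal d).det = 1 := by
    rw [det_diagonal, Fintype.prod_sum_type, Fin.prod_univ_two, Fin.prod_univ_two]
    simp only [hd0, Sum.elim_inl, Sum.elim_inr, cons_val_zero, cons_val_one]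
    linear_combination z7
  have d7 : diagonal d ^ 7 = 1 := by
    rw [diagonal_pow, ← diagonal_one]
    refine congrArg _ (funext fun i => ?_)
    rcases i with i | i <;> fin_cases i <;> simp [hd0, z7, pow_right_comm ζ _ 7]
  have e := conj_eq (n := 7) (by decide) hN hD (hD.pow 2) hk.symm d1 (by rw [det_pow, d1, one_pow]) d7
    (by rw [← pow_mul, mul_comm, pow_mul, d7, one_pow])
  have ne : ∀ a b : ℕ, a % 7 ≠ b % 7 → ζ ^ a ≠ ζ ^ b := fun a b h e => h (by
    refine hz.pow_inj (Nat.mod_lt _ (by norm_num)) (Nat.mod_lt _ (by norm_num)) ?_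
    rw [← pow_eq_pow_mod _ z7, ← pow_eq_pow_mod _ z7, e])
  let p : I4 → ℕ := Sum.elim ![0, 1] ![2, 4]
  have dp : ∀ i, d i = ζ ^ p i := fun i => by rcases i with i | i <;> fin_cases i <;> simp [hd0, p]
  have z : ∀ i j, p j % 7 ≠ (p i * 2) % 7 → N i j = 0 := fun i j h => by
    have := congrFun (congrFun e i) j
    rw [diagonal_pow, mul_diagonal, diagonal_mul, Pi.pow_apply, dp, dp, ← pow_mul, mul_comm,
      ← sub_eq_zero, ← sub_mul] at this
    exact (mul_eq_zero.1 this).resolve_left (sub_ne_zero.2 (ne _ _ h))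
  obtain ⟨μ, a, b, c, rfl⟩ : ∃ μ a b c : K,
      N = fromBlocks !![μ, 0; 0, 0] !![0, 0; a, 0] !![0, 0; 0, c] !![0, b; 0, 0] := by
    refine ⟨N (.inl 0) (.inl 0), N (.inl 1) (.inr 0), N (.inr 0) (.inr 1), N (.inr 1) (.inl 1), ?_⟩
    ext i j
    rcases i with i | i <;> rcases j with j | j <;> fin_cases i <;> fin_cases j <;>
      first | rfl | exact z _ _ (by decide)
  have abc : a * b * c = 1 := by
    have := congrFun (congrFun n3 (.inl 1)) (.inl 1)
    simpa [pow_succ, fromBlocks_multiply] using this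
  have m1 : μ = 1 := by
    rw [← det_submatrix_equiv_self (finSumFinEquiv (m := 2) (n := 2)).symm] at nd
    have e : (fromBlocks !![μ, 0; 0, 0] !![0, 0; a, 0] !![0, 0; 0, c] !![0, b; 0, 0]).submatrix
        (finSumFinEquiv (m := 2) (n := 2)).symm (finSumFinEquiv (m := 2) (n := 2)).symm =
        !![μ, 0, 0, 0; 0, 0, a, 0; 0, 0, 0, b; 0, c, 0, 0] := by
      ext i j
      fin_cases i <;> fin_cases j <;> rfl
    rw [e] at nd
    simp [det_succ_row_zero, Fin.sum_univ_succ, Fin.succAbove] at nd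
    linear_combination nd - μ * abc
  subst m1
  have : fromBlocks !![1, 0; 0, 0] !![0, 0; a, 0] !![0, 0; 0, c] !![0, b; 0, 0] - (1 : M4 K) =
      fromRows !![0, 0; 1, 0] !![0, 1; -c, -c * a] * fromCols !![0, -1; 0, 0] !![a, 0; -1, b] := by
    rw [fromRows_mul_fromCols]
    ext i j
    rcases i with i | i <;> rcases j with j | j <;> fin_cases i <;> fin_cases j <;> simp
    linear_combination -abc
  rw [this]
  exact (rank_mul_le_left _ _).trans (rank_le_card_width _)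

end CfsgLib.D4
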